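import Cfsg.Agent.Lib.SchE6.Can
import Cfsg.Agent.Lib.SchD4.Abs
import Cfsg.Agent.Lib.Classical.StSLn

/-!
The Bruhat closure and the monomial part in a central extension: generic statements.
-/

set_option autoImplicit false
set_option linter.unusedSectionVars false
set_option linter.unusedVariables false

namespace Cfsg.Agent.Lib.SchE6.Brh

open scoped MatrixGroups
open Cfsg.Agent.Lib.SchD4.Abs Cfsg.Agent.Lib.SchE6.Can
open Cfsg.Agent.Lib.Classical.StSL2 (Sys w h Xm Ym Dm)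

universe u v

variable {E : Type u} [Group E]

section RankOne

variable {F : Type*} [Field F] {x y : F → E} (S : Sys x y)
include S

lemma y_form {v : F} (hv : v ≠ 0) : y v = x v⁻¹ * w x y (-v⁻¹) * x v⁻¹ := by
  unfold w
  have e : - (-v⁻¹)⁻¹ = v := by
    field_simp
  rw [e, S.x_neg]
  group

lemma x_form {t : F} (ht : t ≠ 0) : x t = y t⁻¹ * w x y t * y t⁻¹ := by
  have h1 := S.braid ht
  have e : w x y t = y (-t⁻¹) * x t * y (-t⁻¹) := h1
  rw [e, S.y_neg]
  group

lemma w_inv_conj {t : F} (ht : t ≠ 0) (c : F) : (w x y t)⁻¹ * x c * w x y t = y (-(t⁻¹ ^ 2 * c)) := by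
  have h1 := S.w_conj_x (neg_ne_zero.2 ht) c
  rw [← S.w_inv t, inv_inv] at h1
  rw [h1]
  congr 1
  congr 1
  field_simp

/-- Closure under left multiplication by `y`. -/
theorem closed_y (U N M : Subgroup E) (hxU : ∀ a, x a ∈ U) (hMU : M ≤ U) (hform : ∀ u ∈ U, ∃ a, ∃ m ∈ M, u = x a * m)
    (hxM : ∀ a, ∀ m ∈ M, x a * m * (x a)⁻¹ ∈ M) (hyM : ∀ a, ∀ m ∈ M, y a * m * (y a)⁻¹ ∈ M)
    (hwN : ∀ t, t ≠ 0 → w x y t ∈ N)
    (hdich : ∀ ν ∈ N, (∀ c, ν⁻¹ * x c * ν ∈ U) ∨ (∀ c, ν⁻¹ * y c * ν ∈ U)) (t : F) {g : E} (hg : g ∈ UNU U N) :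
    y t * g ∈ UNU U N := by
  refine left_closed U N M x y hxU hMU hform hxM hyM (fun a b => (S.add_x a b).symm) (fun a b => (S.add_y a b).symm)
    ?_ ?_ hdich t hg
  · intro t
    by_cases ht : t = 0
    · left
      rw [ht, S.y_zero]
    · right
      exact ⟨t⁻¹, t⁻¹, _, hwN _ (neg_ne_zero.2 (inv_ne_zero ht)), y_form S ht⟩
  · intro t
    by_cases ht : t = 0
    · left
      rw [ht, S.x_zero]
    · right
      refine ⟨t⁻¹, t⁻¹, _, hwN t ht, x_form S ht, ?_⟩
      intro c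
      exact ⟨_, w_inv_conj S ht c⟩

/-- The form of `U`. -/
theorem form_U {U M : Subgroup E} (hU : U ≤ Subgroup.closure (Set.range x ∪ (M : Set E)))
    (hxM : ∀ a, ∀ m ∈ M, x a * m * (x a)⁻¹ ∈ M) : ∀ u ∈ U, ∃ a, ∃ m ∈ M, u = x a * m := by
  intro u hu
  have hu' := hU hu
  clear hu
  induction hu' using Subgroup.closure_induction_left with
  | one => exact ⟨0, 1, M.one_mem, by rw [S.x_zero]; simp⟩
  | mul_left g hg g' _ ih =>
    obtain ⟨a, m, hm, rfl⟩ := ih
    rcases hg with ⟨b, rfl⟩ | hg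
    · refine ⟨b + a, m, hm, ?_⟩
      rw [S.add_x]
      group
    · refine ⟨a, (x (-a) * g * (x (-a))⁻¹) * m, M.mul_mem (hxM _ _ hg) hm, ?_⟩
      rw [S.x_neg]
      group
  | inv_mul_cancel g hg g' _ ih =>
    obtain ⟨a, m, hm, rfl⟩ := ih
    rcases hg with ⟨b, rfl⟩ | hg
    · refine ⟨-b + a, m, hm, ?_⟩
      rw [S.add_x, S.x_neg]
      group
    · refine ⟨a, (x (-a) * g⁻¹ * (x (-a))⁻¹) * m, M.mul_mem (hxM _ _ (M.inv_mem hg)) hm, ?_⟩
      rw [S.x_neg]
      group

/-- Multiplicativity of the torus elements, for every finite field. -/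
theorem h_mul [Finite F] {a b : F} (ha : a ≠ 0) (hb : b ≠ 0) : h x y (a * b) = h x y a * h x y b := by
  obtain ⟨θ, h1, h2⟩ := Cfsg.Agent.Lib.Classical.StSLn.exists_theta S
  have key : ∀ t (ht : t ≠ 0), h x y t = θ (Dm t ht) := by
    intro t ht
    rw [← Cfsg.Agent.Lib.Classical.StSL2.h_matrix t ht]
    simp only [h, w, map_mul, map_inv, h1, h2]
  rw [key _ (mul_ne_zero ha hb), key _ ha, key _ hb, ← map_mul, Cfsg.Agent.Lib.Classical.StSLn.Dm_mul]

lemma h_comm [Finite F] {a b : F} (ha : a ≠ 0) (hb : b ≠ 0) : h x y a * h x y b = h x y b * h x y a := by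
  rw [← h_mul S ha hb, ← h_mul S hb ha, mul_comm]

lemma h_one' : h x y (1 : F) = 1 := by
  simp [h]

lemma w_eq' (t : F) : w x y t = h x y t * w x y 1 := by
  simp [h]

/-- An element scaling a rank one system centralises its torus elements. -/
theorem scale_comm [Finite F] {g : E} {l : F} (hl : l ≠ 0) (hgx : ∀ t, g * x t * g⁻¹ = x (l * t))
    (hgy : ∀ t, g * y t * g⁻¹ = y (l⁻¹ * t)) {t : F} (ht : t ≠ 0) : g * h x y t * g⁻¹ = h x y t := by
  have hw : ∀ s, s ≠ 0 → g * w x y s * g⁻¹ = w x y (l * s) := by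
    intro s hs
    have e : g * w x y s * g⁻¹ = (g * x s * g⁻¹) * (g * y (-s⁻¹) * g⁻¹) * (g * x s * g⁻¹) := by
      unfold w
      group
    rw [e, hgx, hgy]
    unfold w
    congr 3
    field_simp
  have e1 : g * h x y t * g⁻¹ = (g * w x y t * g⁻¹) * (g * w x y 1 * g⁻¹)⁻¹ := by
    unfold h
    group
  rw [e1, hw t ht, hw 1 one_ne_zero, mul_one, w_eq' S (l * t), w_eq' S l, h_mul S hl ht]
  have := h_comm S hl ht
  calc h x y l * h x y t * w x y 1 * (h x y l * w x y 1)⁻¹ = h x y l * h x y t * (h x y l)⁻¹ := by group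
    _ = _ := by rw [this]; group

end RankOne

section Chain

/-- The closure of a list of subgroups. -/
def clo (L : List (Subgroup E)) : Subgroup E := Subgroup.closure {g | ∃ A ∈ L, g ∈ A}

/-- The chain condition. -/
def Ch : List (Subgroup E) → Prop
  | [] => True
  | A :: L => (∀ a ∈ A, ∀ B ∈ L, ∀ b ∈ B, a * b * a⁻¹ ∈ clo L) ∧ Ch L

lemma conj_clo {L : List (Subgroup E)} {a : E} (h : ∀ B ∈ L, ∀ b ∈ B, a * b * a⁻¹ ∈ clo L) : ∀ m ∈ clo L, a * m * a⁻¹ ∈ clo L := by
  intro m hm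
  induction hm using Subgroup.closure_induction with
  | mem g hg =>
    obtain ⟨B, hB, hg⟩ := hg
    exact h B hB g hg
  | one => simp [Subgroup.one_mem]
  | mul x y _ _ hx hy =>
    have : a * (x * y) * a⁻¹ = (a * x * a⁻¹) * (a * y * a⁻¹) := by group
    rw [this]
    exact Subgroup.mul_mem _ hx hy
  | inv x _ hx =>
    have : a * x⁻¹ * a⁻¹ = (a * x * a⁻¹)⁻¹ := by group
    rw [this]
    exact Subgroup.inv_mem _ hx

lemma form_clo {A : Subgroup E} {L : List (Subgroup E)} (h : ∀ a ∈ A, ∀ B ∈ L, ∀ b ∈ B, a * b * a⁻¹ ∈ clo L) :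
    ∀ g ∈ clo (A :: L), ∃ a ∈ A, ∃ m ∈ clo L, g = a * m := by
  intro g hg
  induction hg using Subgroup.closure_induction_left with
  | one => exact ⟨1, A.one_mem, 1, Subgroup.one_mem _, by simp⟩
  | mul_left g hg g' _ ih =>
    obtain ⟨a, ha, m, hm, rfl⟩ := ih
    obtain ⟨B, hB, hg⟩ := hg
    rcases List.mem_cons.mp hB with rfl | hB'
    · exact ⟨g * a, B.mul_mem hg ha, m, hm, by group⟩
    · have hg' : g ∈ clo L := Subgroup.subset_closure ⟨B, hB', hg⟩
      refine ⟨a, ha, (a⁻¹ * g * a⁻¹⁻¹) * m, Subgroup.mul_mem _ (conj_clo (h _ (A.inv_mem ha)) _ hg') hm, by group⟩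
  | inv_mul_cancel g hg g' _ ih =>
    obtain ⟨a, ha, m, hm, rfl⟩ := ih
    obtain ⟨B, hB, hg⟩ := hg
    rcases List.mem_cons.mp hB with rfl | hB'
    · exact ⟨g⁻¹ * a, B.mul_mem (B.inv_mem hg) ha, m, hm, by group⟩
    · have hg' : g⁻¹ ∈ clo L := Subgroup.inv_mem _ (Subgroup.subset_closure ⟨B, hB', hg⟩)
      refine ⟨a, ha, (a⁻¹ * g⁻¹ * a⁻¹⁻¹) * m, Subgroup.mul_mem _ (conj_clo (h _ (A.inv_mem ha)) _ hg') hm, by group⟩

/-- The order of the closure of a chain. -/
theorem card_clo_le [Finite E] : ∀ L : List (Subgroup E), Ch L → Nat.card (clo L) ≤ (L.map fun A : Subgroup E => Nat.card A).prod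
  | [], _ => by
    have : clo ([] : List (Subgroup E)) = ⊥ := by
      rw [clo, Subgroup.closure_eq_bot_iff]
      rintro g ⟨A, hA, _⟩
      simp at hA
    simp [this]
  | A :: L, hch => by
    have ih := card_clo_le L hch.2
    have hf := form_clo hch.1
    simp only [List.map_cons, List.prod_cons]
    have hle : Nat.card (clo (A :: L)) ≤ Nat.card (A × clo L) := by
      classical
      have : Fintype E := Fintype.ofFinite E
      choose! a ha m hm e using hf
      refine Nat.card_le_card_of_injective (fun g : clo (A :: L) => ((⟨a g, ha g g.2⟩ : A), (⟨m g, hm g g.2⟩ : clo L))) ?_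
      intro g g' hgg
      have h1 : a g = a g' := congrArg (fun p : A × clo L => (p.1 : E)) hgg
      have h2 : m g = m g' := congrArg (fun p : A × clo L => (p.2 : E)) hgg
      apply Subtype.ext
      rw [e g g.2, e g' g'.2, h1, h2]
    rw [Nat.card_prod] at hle
    exact hle.trans (Nat.mul_le_mul_left _ ih)

end Chain

section Central

variable {G : Type v} [Group G] {σ : E →* G}

/-- A central element in a big cell lies in the monomial part. -/
theorem mem_N_of_central {U N : Subgroup E} (hUinj : ∀ v ∈ U, σ v = 1 → v = 1)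
    (hI : ∀ ν ∈ N, ∀ u ∈ U, σ ν = σ u → σ ν = 1) {z : E} (hc : ∀ g, z * g = g * z) (hz : σ z = 1) (hm : z ∈ UNU U N) :
    z ∈ N := by
  obtain ⟨u₁, hu₁, ν, hν, u₂, hu₂, rfl⟩ := hm
  set z := u₁ * ν * u₂ with hzd
  have e1 : z = ν * (u₂ * u₁) := by
    have : u₁⁻¹ * z * u₁ = z := by
      rw [mul_assoc, hc u₁, ← mul_assoc]
      simp
    rw [← this, hzd]
    group
  have hv : u₂ * u₁ ∈ U := U.mul_mem hu₂ hu₁
  have e2 : σ ν = σ (u₂ * u₁)⁻¹ := by
    have := congrArg σ e1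
    rw [hz, map_mul] at this
    rw [map_inv]
    exact eq_inv_of_mul_eq_one_left this.symm
  have h1 := hI ν hν _ (U.inv_mem hv) e2
  have h2 : σ (u₂ * u₁) = 1 := by
    have := congrArg σ e1
    rw [hz, map_mul, h1, one_mul] at this
    exact this.symm
  have h3 := hUinj _ hv h2
  rw [e1, h3, mul_one]
  exact hν

/-- A stem extension: central kernel elements lie in any subgroup generated by lifts of a generating set. -/
theorem ker_le_of_gen {E₀ : Subgroup E} (hs : Function.Surjective σ) (hc : CK σ)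
    (hgen : ∀ g : G, ∃ e ∈ E₀, σ e = g) {z : E} (hz : z ∈ commutator E) : z ∈ E₀ := by
  have hle : commutator E ≤ E₀ := by
    rw [commutator_def, Subgroup.commutator_le]
    intro a _ b _
    obtain ⟨a', ha', ea⟩ := hgen (σ a)
    obtain ⟨b', hb', eb⟩ := hgen (σ b)
    have := comm_lift hc ea eb
    rw [commutatorElement_def, ← this]
    exact E₀.mul_mem (E₀.mul_mem (E₀.mul_mem ha' hb') (E₀.inv_mem ha')) (E₀.inv_mem hb')
  exact hle hz

end Central

end Cfsg.Agent.Lib.SchE6.Brh
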