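import Mathlib

/-!
Canonical sections of root groups in a central extension.

`σ : E →* G` is a surjection with central kernel, `T ≤ G` an abelian subgroup and `X ≤ G` a finite subgroup
normalised by `T` with abelian preimage.  When some element of `T` acts without fixed points on `X`, there is a
unique homomorphic section of `σ` over `X` which is equivariant for the preimage of `T`.
-/

set_option autoImplicit false
set_option linter.unusedSectionVars false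
set_option linter.unusedVariables false

namespace Cfsg.Agent.Lib.SchE6.Can

universe u v

variable {E : Type u} {G : Type v} [Group E] [Group G] (σ : E →* G)

/-- Central kernel. -/
def CK : Prop := ∀ z, σ z = 1 → ∀ g, z * g = g * z

/-- A canonical section. -/
structure IsCan (T X : Subgroup G) (s : G → E) : Prop where
  mul : ∀ x ∈ X, ∀ y ∈ X, s (x * y) = s x * s y
  sec : ∀ x ∈ X, σ (s x) = x
  eqv : ∀ g : E, σ g ∈ T → ∀ x ∈ X, g * s x * g⁻¹ = s (σ g * x * (σ g)⁻¹)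

variable {σ}

lemma ck_mul_eq (hc : CK σ) {a b : E} (h : σ a = σ b) : ∃ z, σ z = 1 ∧ a = b * z ∧ ∀ g, z * g = g * z :=
  ⟨b⁻¹ * a, by simp [h], by group, hc _ (by simp [h])⟩

/-- The commutator of lifts depends only on the images. -/
lemma comm_lift (hc : CK σ) {a a' b b' : E} (ha : σ a = σ a') (hb : σ b = σ b') :
    a * b * a⁻¹ * b⁻¹ = a' * b' * a'⁻¹ * b'⁻¹ := by
  obtain ⟨z, -, rfl, hz⟩ := ck_mul_eq hc ha
  obtain ⟨w, -, rfl, hw⟩ := ck_mul_eq hc hb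
  have e1 : a' * z * (b' * w) * (a' * z)⁻¹ * (b' * w)⁻¹ = a' * (z * (b' * w)) * z⁻¹ * a'⁻¹ * w⁻¹ * b'⁻¹ := by group
  rw [e1, hz]
  have e2 : a' * (b' * w * z) * z⁻¹ * a'⁻¹ * w⁻¹ * b'⁻¹ = a' * b' * (w * a'⁻¹) * w⁻¹ * b'⁻¹ := by group
  rw [e2, hw]
  group

lemma IsCan.one {T X : Subgroup G} {s : G → E} (H : IsCan σ T X s) : s 1 = 1 := by
  have := H.mul 1 X.one_mem 1 X.one_mem
  rw [one_mul] at this
  exact mul_eq_left.mp this.symm

lemma IsCan.inv {T X : Subgroup G} {s : G → E} (H : IsCan σ T X s) {x : G} (hx : x ∈ X) : s x⁻¹ = (s x)⁻¹ := by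
  have := H.mul x⁻¹ (X.inv_mem hx) x hx
  rw [inv_mul_cancel, H.one] at this
  exact (inv_eq_of_mul_eq_one_left this.symm).symm

lemma ab_of_lift (hs : Function.Surjective σ) {X : Subgroup G} (hab : ∀ a b : E, σ a ∈ X → σ b ∈ X → a * b = b * a)
    {x y : G} (hx : x ∈ X) (hy : y ∈ X) : x * y = y * x := by
  obtain ⟨a, rfl⟩ := hs x
  obtain ⟨b, rfl⟩ := hs y
  rw [← map_mul, hab a b hx hy, map_mul]

/-- Fixed point free action: the commutator map is onto. -/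
lemma exists_delta {X : Subgroup G} [Finite X] {h : G} (hN : ∀ x ∈ X, h * x * h⁻¹ ∈ X)
    (hab : ∀ x ∈ X, ∀ y ∈ X, x * y = y * x) (hf : ∀ x ∈ X, h * x * h⁻¹ = x → x = 1) :
    ∀ x ∈ X, ∃ y ∈ X, h * y * h⁻¹ * y⁻¹ = x := by
  let d : X → X := fun y => ⟨h * y * h⁻¹ * (y : G)⁻¹, X.mul_mem (hN _ y.2) (X.inv_mem y.2)⟩
  have hd : Function.Injective d := by
    intro a b e
    have e' : h * (a : G) * h⁻¹ * (a : G)⁻¹ = h * (b : G) * h⁻¹ * (b : G)⁻¹ := congrArg Subtype.val e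
    have hm : (a : G) * (b : G)⁻¹ ∈ X := X.mul_mem a.2 (X.inv_mem b.2)
    have h1 : h * ((a : G) * (b : G)⁻¹) * h⁻¹ = (a : G) * (b : G)⁻¹ := by
      have hc : (h * (b : G) * h⁻¹) * (a : G)⁻¹ = (a : G)⁻¹ * (h * (b : G) * h⁻¹) :=
        hab _ (hN _ b.2) _ (X.inv_mem a.2)
      have e2 : h * (a : G) * h⁻¹ = h * (b : G) * h⁻¹ * (b : G)⁻¹ * (a : G) := by
        rw [← e']; group
      have hc2 : (b : G)⁻¹ * (a : G) = (a : G) * (b : G)⁻¹ := hab _ (X.inv_mem b.2) _ a.2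
      have e3 : h * ((a : G) * (b : G)⁻¹) * h⁻¹ = (h * (a : G) * h⁻¹) * (h * (b : G) * h⁻¹)⁻¹ := by group
      rw [e3, e2]
      have hc3 : (h * (b : G) * h⁻¹) * ((b : G)⁻¹ * (a : G)) = ((b : G)⁻¹ * (a : G)) * (h * (b : G) * h⁻¹) :=
        hab _ (hN _ b.2) _ (X.mul_mem (X.inv_mem b.2) a.2)
      calc h * (b : G) * h⁻¹ * (b : G)⁻¹ * (a : G) * (h * (b : G) * h⁻¹)⁻¹
          = (h * (b : G) * h⁻¹) * ((b : G)⁻¹ * (a : G)) * (h * (b : G) * h⁻¹)⁻¹ := by group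
        _ = _ := by rw [hc3, hc2]; group
    have h3 := hf _ hm h1
    apply Subtype.ext
    exact mul_inv_eq_one.mp h3
  have hsurj := Finite.injective_iff_surjective.mp hd
  intro x hx
  obtain ⟨y, hy⟩ := hsurj ⟨x, hx⟩
  exact ⟨y, y.2, congrArg Subtype.val hy⟩

/-- The value of a canonical section on a commutator with a lift of `h`. -/
lemma IsCan.on_delta {T X : Subgroup G} {s : G → E} (H : IsCan σ T X s) {g : E} (hg : σ g ∈ T) {y : G} (hy : y ∈ X)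
    (hN : σ g * y * (σ g)⁻¹ ∈ X) : s (σ g * y * (σ g)⁻¹ * y⁻¹) = g * s y * g⁻¹ * (s y)⁻¹ := by
  rw [H.mul _ hN _ (X.inv_mem hy), H.inv hy, H.eqv g hg y hy]

/-- Uniqueness of canonical sections. -/
theorem can_unique (hs : Function.Surjective σ) (hc : CK σ) {T X : Subgroup G} {s s' : G → E} (H : IsCan σ T X s)
    (H' : IsCan σ T X s') {h : G} (hh : h ∈ T) (hd : ∀ x ∈ X, ∃ y ∈ X, h * y * h⁻¹ * y⁻¹ = x)
    (hN : ∀ x ∈ X, h * x * h⁻¹ ∈ X) {x : G} (hx : x ∈ X) : s x = s' x := by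
  obtain ⟨y, hy, rfl⟩ := hd x hx
  obtain ⟨g, rfl⟩ := hs h
  rw [H.on_delta hh hy (hN y hy), H'.on_delta hh hy (hN y hy)]
  exact comm_lift hc rfl (by rw [H.sec y hy, H'.sec y hy])

/-- Existence of canonical sections. -/
theorem exists_can {X : Subgroup G} [Finite X] (hs : Function.Surjective σ) (hc : CK σ) {T : Subgroup G}
    (hT : ∀ a ∈ T, ∀ b ∈ T, a * b = b * a) (hN : ∀ h ∈ T, ∀ x ∈ X, h * x * h⁻¹ ∈ X)
    (hab : ∀ a b : E, σ a ∈ X → σ b ∈ X → a * b = b * a) {h : G} (hh : h ∈ T)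
    (hf : ∀ x ∈ X, h * x * h⁻¹ = x → x = 1) : ∃ s : G → E, IsCan σ T X s := by
  classical
  have hab' : ∀ x ∈ X, ∀ y ∈ X, x * y = y * x := fun x hx y hy => ab_of_lift hs hab hx hy
  have hd := exists_delta (hN h hh) hab' hf
  choose! D hD hDe using hd
  let L : G → E := Function.surjInv hs
  have hL : ∀ g, σ (L g) = g := Function.surjInv_eq hs
  let g₀ := L h
  have hg₀ : σ g₀ = h := hL h
  -- injectivity of the delta map
  have hinj : ∀ a ∈ X, ∀ b ∈ X, h * a * h⁻¹ * a⁻¹ = h * b * h⁻¹ * b⁻¹ → a = b := by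
    intro a ha b hb e
    have hm : a * b⁻¹ ∈ X := X.mul_mem ha (X.inv_mem hb)
    have h1 : h * (a * b⁻¹) * h⁻¹ = a * b⁻¹ := by
      have hc3 : (h * b * h⁻¹) * (b⁻¹ * a) = (b⁻¹ * a) * (h * b * h⁻¹) :=
        hab' _ (hN h hh b hb) _ (X.mul_mem (X.inv_mem hb) ha)
      have hc2 : b⁻¹ * a = a * b⁻¹ := hab' _ (X.inv_mem hb) _ ha
      have e2 : h * a * h⁻¹ = h * b * h⁻¹ * b⁻¹ * a := by
        rw [← e]; group
      have e3 : h * (a * b⁻¹) * h⁻¹ = (h * a * h⁻¹) * (h * b * h⁻¹)⁻¹ := by group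
      rw [e3, e2]
      calc h * b * h⁻¹ * b⁻¹ * a * (h * b * h⁻¹)⁻¹ = (h * b * h⁻¹) * (b⁻¹ * a) * (h * b * h⁻¹)⁻¹ := by group
        _ = _ := by rw [hc3, hc2]; group
    exact mul_inv_eq_one.mp (hf _ hm h1)
  have hDmul : ∀ x ∈ X, ∀ y ∈ X, D (x * y) = D x * D y := by
    intro x hx y hy
    apply hinj _ (hD _ (X.mul_mem hx hy)) _ (X.mul_mem (hD x hx) (hD y hy))
    rw [hDe _ (X.mul_mem hx hy)]
    conv_lhs => rw [← hDe x hx, ← hDe y hy]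
    have a1 := hD x hx
    have a2 := hD y hy
    have hc1 : (h * D y * h⁻¹) * (D x)⁻¹ = (D x)⁻¹ * (h * D y * h⁻¹) := hab' _ (hN h hh _ a2) _ (X.inv_mem a1)
    have hc2 : (D y)⁻¹ * (D x)⁻¹ = (D x)⁻¹ * (D y)⁻¹ := hab' _ (X.inv_mem a2) _ (X.inv_mem a1)
    calc h * D x * h⁻¹ * (D x)⁻¹ * (h * D y * h⁻¹ * (D y)⁻¹)
        = h * D x * h⁻¹ * ((D x)⁻¹ * (h * D y * h⁻¹)) * (D y)⁻¹ := by group
      _ = h * D x * h⁻¹ * ((h * D y * h⁻¹) * (D x)⁻¹) * (D y)⁻¹ := by rw [hc1]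
      _ = h * (D x * D y) * h⁻¹ * ((D x)⁻¹ * (D y)⁻¹) := by group
      _ = h * (D x * D y) * h⁻¹ * ((D y)⁻¹ * (D x)⁻¹) := by rw [hc2]
      _ = _ := by group
  have hDconj : ∀ g ∈ T, ∀ x ∈ X, D (g * x * g⁻¹) = g * D x * g⁻¹ := by
    intro g hg x hx
    apply hinj _ (hD _ (hN g hg x hx)) _ (hN g hg _ (hD x hx))
    rw [hDe _ (hN g hg x hx)]
    conv_lhs => rw [← hDe x hx]
    have ec : h * g = g * h := hT h hh g hg
    have ec' : g⁻¹ * h = h * g⁻¹ := by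
      have : g⁻¹ * (h * g) * g⁻¹ = g⁻¹ * (g * h) * g⁻¹ := by rw [ec]
      simpa [mul_assoc] using this
    have ec2 : h⁻¹ * g = g * h⁻¹ := by
      have : h⁻¹ * (g * h) * h⁻¹ = h⁻¹ * (h * g) * h⁻¹ := by rw [ec]
      simpa [mul_assoc] using this
    calc g * (h * D x * h⁻¹ * (D x)⁻¹) * g⁻¹ = (g * h) * D x * h⁻¹ * (D x)⁻¹ * g⁻¹ := by group
      _ = (h * g) * D x * h⁻¹ * (D x)⁻¹ * g⁻¹ := by rw [ec]
      _ = h * (g * D x * g⁻¹) * (g * h⁻¹) * (D x)⁻¹ * g⁻¹ := by group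
      _ = h * (g * D x * g⁻¹) * (h⁻¹ * g) * (D x)⁻¹ * g⁻¹ := by rw [ec2]
      _ = _ := by group
  let s : G → E := fun x => g₀ * L (D x) * g₀⁻¹ * (L (D x))⁻¹
  refine ⟨s, ?_, ?_, ?_⟩
  · intro x hx y hy
    show g₀ * L (D (x * y)) * g₀⁻¹ * (L (D (x * y)))⁻¹ =
      (g₀ * L (D x) * g₀⁻¹ * (L (D x))⁻¹) * (g₀ * L (D y) * g₀⁻¹ * (L (D y))⁻¹)
    have e1 : g₀ * L (D (x * y)) * g₀⁻¹ * (L (D (x * y)))⁻¹ =
        g₀ * (L (D x) * L (D y)) * g₀⁻¹ * (L (D x) * L (D y))⁻¹ :=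
      comm_lift hc rfl (by rw [hL, hDmul x hx y hy, map_mul, hL, hL])
    rw [e1]
    set a := L (D x) with ha
    set b := L (D y) with hb
    have ma : σ a ∈ X := by rw [ha, hL]; exact hD x hx
    have mb : σ b ∈ X := by rw [hb, hL]; exact hD y hy
    have ma' : σ (g₀ * a * g₀⁻¹) ∈ X := by
      simp only [map_mul, map_inv, hg₀]
      exact hN h hh _ ma
    have mb' : σ (g₀ * b * g₀⁻¹) ∈ X := by
      simp only [map_mul, map_inv, hg₀]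
      exact hN h hh _ mb
    have c1 : (g₀ * b * g₀⁻¹) * a⁻¹ = a⁻¹ * (g₀ * b * g₀⁻¹) := hab _ _ mb' (by simpa using X.inv_mem ma)
    have c2 : a⁻¹ * b⁻¹ = b⁻¹ * a⁻¹ := hab _ _ (by simpa using X.inv_mem ma) (by simpa using X.inv_mem mb)
    calc g₀ * (a * b) * g₀⁻¹ * (a * b)⁻¹ = (g₀ * a * g₀⁻¹) * ((g₀ * b * g₀⁻¹) * b⁻¹ * a⁻¹) := by group
      _ = (g₀ * a * g₀⁻¹) * ((g₀ * b * g₀⁻¹) * (a⁻¹ * b⁻¹)) := by rw [c2]; group
      _ = (g₀ * a * g₀⁻¹) * (((g₀ * b * g₀⁻¹) * a⁻¹) * b⁻¹) := by group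
      _ = (g₀ * a * g₀⁻¹) * ((a⁻¹ * (g₀ * b * g₀⁻¹)) * b⁻¹) := by rw [c1]
      _ = _ := by group
  · intro x hx
    show σ (g₀ * L (D x) * g₀⁻¹ * (L (D x))⁻¹) = x
    simp only [map_mul, map_inv, hL, hg₀]
    exact hDe x hx
  · intro g hg x hx
    show g * (g₀ * L (D x) * g₀⁻¹ * (L (D x))⁻¹) * g⁻¹ = g₀ * L (D (σ g * x * (σ g)⁻¹)) * g₀⁻¹ * (L (D (σ g * x * (σ g)⁻¹)))⁻¹
    have e1 : g * (g₀ * L (D x) * g₀⁻¹ * (L (D x))⁻¹) * g⁻¹ =
        (g * g₀ * g⁻¹) * (g * L (D x) * g⁻¹) * (g * g₀ * g⁻¹)⁻¹ * (g * L (D x) * g⁻¹)⁻¹ := by group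
    rw [e1]
    refine comm_lift hc ?_ ?_
    · simp only [map_mul, map_inv, hg₀]
      rw [hT _ hg _ hh]
      group
    · rw [hL, hDconj _ hg _ hx]
      simp only [map_mul, map_inv, hL]

/-- Conjugation of canonical sections. -/
theorem can_conj (hs : Function.Surjective σ) (hc : CK σ) {T X Y : Subgroup G} {s s' : G → E} (H : IsCan σ T X s)
    (H' : IsCan σ T Y s') (g : E) (hgT : ∀ t ∈ T, (σ g)⁻¹ * t * σ g ∈ T) (hXY : ∀ x ∈ X, σ g * x * (σ g)⁻¹ ∈ Y)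
    (hYX : ∀ y ∈ Y, (σ g)⁻¹ * y * σ g ∈ X) {h : G} (hh : h ∈ T) (hd : ∀ x ∈ Y, ∃ y ∈ Y, h * y * h⁻¹ * y⁻¹ = x)
    (hN : ∀ x ∈ Y, h * x * h⁻¹ ∈ Y) {x : G} (hx : x ∈ X) : g * s x * g⁻¹ = s' (σ g * x * (σ g)⁻¹) := by
  let s₂ : G → E := fun y => g * s ((σ g)⁻¹ * y * σ g) * g⁻¹
  have H₂ : IsCan σ T Y s₂ := by
    refine ⟨?_, ?_, ?_⟩
    · intro a ha b hb
      show g * s ((σ g)⁻¹ * (a * b) * σ g) * g⁻¹ = g * s ((σ g)⁻¹ * a * σ g) * g⁻¹ * (g * s ((σ g)⁻¹ * b * σ g) * g⁻¹)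
      have e : (σ g)⁻¹ * (a * b) * σ g = ((σ g)⁻¹ * a * σ g) * ((σ g)⁻¹ * b * σ g) := by group
      rw [e, H.mul _ (hYX a ha) _ (hYX b hb)]
      group
    · intro a ha
      show σ (g * s ((σ g)⁻¹ * a * σ g) * g⁻¹) = a
      simp only [map_mul, map_inv]
      rw [H.sec _ (hYX a ha)]
      group
    · intro k hk a ha
      show k * (g * s ((σ g)⁻¹ * a * σ g) * g⁻¹) * k⁻¹ =
        g * s ((σ g)⁻¹ * (σ k * a * (σ k)⁻¹) * σ g) * g⁻¹
      have hk' : σ (g⁻¹ * k * g) ∈ T := by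
        simp only [map_mul, map_inv]
        exact hgT _ hk
      have e := H.eqv (g⁻¹ * k * g) hk' _ (hYX a ha)
      have e2 : σ (g⁻¹ * k * g) * ((σ g)⁻¹ * a * σ g) * (σ (g⁻¹ * k * g))⁻¹ = (σ g)⁻¹ * (σ k * a * (σ k)⁻¹) * σ g := by
        simp only [map_mul, map_inv]
        group
      rw [e2] at e
      rw [← e]
      group
  have := can_unique hs hc H₂ H' hh hd hN (hXY x hx)
  rw [← this]
  show g * s x * g⁻¹ = g * s ((σ g)⁻¹ * (σ g * x * (σ g)⁻¹) * σ g) * g⁻¹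
  congr 2
  group

/-- Three subgroups: an element commuting modulo the kernel with `d`, `e` commutes with `[d,e]`. -/
lemma comm_commutator (hc : CK σ) {a d e : E} (h1 : σ a * σ d = σ d * σ a) (h2 : σ a * σ e = σ e * σ a) :
    a * (d * e * d⁻¹ * e⁻¹) = (d * e * d⁻¹ * e⁻¹) * a := by
  have e1 : a * (d * e * d⁻¹ * e⁻¹) * a⁻¹ = (a * d * a⁻¹) * (a * e * a⁻¹) * (a * d * a⁻¹)⁻¹ * (a * e * a⁻¹)⁻¹ := by group
  have e2 : (a * d * a⁻¹) * (a * e * a⁻¹) * (a * d * a⁻¹)⁻¹ * (a * e * a⁻¹)⁻¹ = d * e * d⁻¹ * e⁻¹ :=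
    comm_lift hc (by simp only [map_mul, map_inv]; rw [h1]; group) (by simp only [map_mul, map_inv]; rw [h2]; group)
  rw [e2] at e1
  exact mul_inv_eq_iff_eq_mul.mp e1

/-- Abelian preimages. -/
theorem ab_of_closure (hs : Function.Surjective σ) (hc : CK σ) {X D F : Subgroup G}
    (hD : ∀ x ∈ X, ∀ d ∈ D, x * d = d * x) (hF : ∀ x ∈ X, ∀ f ∈ F, x * f = f * x)
    (hX : X ≤ Subgroup.closure {g | ∃ d ∈ D, ∃ f ∈ F, g = d * f * d⁻¹ * f⁻¹}) :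
    ∀ a b : E, σ a ∈ X → σ b ∈ X → a * b = b * a := by
  intro a b ha hb
  have key : ∀ g ∈ Subgroup.closure {g | ∃ d ∈ D, ∃ f ∈ F, g = d * f * d⁻¹ * f⁻¹}, ∀ t : E, σ t = g → a * t = t * a := by
    intro g hg
    induction hg using Subgroup.closure_induction with
    | mem g hg =>
      obtain ⟨d, hd, f, hf, rfl⟩ := hg
      intro t ht
      obtain ⟨d', rfl⟩ := hs d
      obtain ⟨f', rfl⟩ := hs f
      have h1 := comm_commutator (a := a) (d := d') (e := f') hc (hD _ ha _ hd) (hF _ ha _ hf)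
      obtain ⟨z, -, rfl, hz⟩ := ck_mul_eq hc (a := t) (b := d' * f' * d'⁻¹ * f'⁻¹) (by rw [ht]; simp)
      calc a * (d' * f' * d'⁻¹ * f'⁻¹ * z) = (a * (d' * f' * d'⁻¹ * f'⁻¹)) * z := by group
        _ = (d' * f' * d'⁻¹ * f'⁻¹) * a * z := by rw [h1]
        _ = (d' * f' * d'⁻¹ * f'⁻¹) * (a * z) := by group
        _ = (d' * f' * d'⁻¹ * f'⁻¹) * (z * a) := by rw [(hz a).symm]
        _ = _ := by group
    | one =>
      intro t ht
      exact (hc t ht a).symm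
    | mul x y _ _ hx hy =>
      intro t ht
      obtain ⟨x', rfl⟩ := hs x
      obtain ⟨y', rfl⟩ := hs y
      have h1 := hx x' rfl
      have h2 := hy y' rfl
      obtain ⟨z, -, rfl, hz⟩ := ck_mul_eq hc (a := t) (b := x' * y') (by rw [ht]; simp)
      calc a * (x' * y' * z) = (a * x') * y' * z := by group
        _ = x' * (a * y') * z := by rw [h1]; group
        _ = x' * y' * (a * z) := by rw [h2]; group
        _ = x' * y' * (z * a) := by rw [(hz a).symm]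
        _ = _ := by group
    | inv x _ hx =>
      intro t ht
      obtain ⟨x', rfl⟩ := hs x
      have h1 := hx x' rfl
      have h2 : σ t⁻¹ = σ x' := by simp [ht]
      have h3 := hx t⁻¹ h2
      have : t * a = a * t := by
        have : t * (a * t⁻¹) * t = t * (t⁻¹ * a) * t := by rw [h3]
        simpa [mul_assoc] using this
      exact this.symm
  exact key _ (hX hb) b rfl

/-- Exact commutators. -/
theorem comm_exact (hs : Function.Surjective σ) (hc : CK σ) {T X Y W : Subgroup G} {sa sb τ : G → E}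
    (Ha : IsCan σ T X sa) (Hb : IsCan σ T Y sb) (Hτ : IsCan σ T W τ)
    (hcomm : ∀ x ∈ X, ∀ w ∈ W, sa x * τ w = τ w * sa x)
    (hXY : ∀ x ∈ X, ∀ y ∈ Y, x * y * x⁻¹ * y⁻¹ ∈ W)
    {h : G} (hh : h ∈ T) (hY : ∀ y ∈ Y, h * y * h⁻¹ = y) (hN : ∀ x ∈ X, h * x * h⁻¹ ∈ X)
    (hd : ∀ x ∈ X, ∃ u ∈ X, h * u * h⁻¹ * u⁻¹ = x) {x y : G} (hx : x ∈ X) (hy : y ∈ Y) :
    sa x * sb y * (sa x)⁻¹ * (sb y)⁻¹ = τ (x * y * x⁻¹ * y⁻¹) := by
  -- the defect
  let ζ : G → E := fun u => (sa u * sb y * (sa u)⁻¹ * (sb y)⁻¹) * (τ (u * y * u⁻¹ * y⁻¹))⁻¹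
  have hσ : ∀ u ∈ X, σ (ζ u) = 1 := by
    intro u hu
    show σ ((sa u * sb y * (sa u)⁻¹ * (sb y)⁻¹) * (τ (u * y * u⁻¹ * y⁻¹))⁻¹) = 1
    simp only [map_mul, map_inv]
    rw [Ha.sec u hu, Hb.sec y hy, Hτ.sec _ (hXY u hu y hy)]
    group
  have hform : ∀ u ∈ X, sa u * sb y * (sa u)⁻¹ * (sb y)⁻¹ = ζ u * τ (u * y * u⁻¹ * y⁻¹) := by
    intro u hu
    show _ = (sa u * sb y * (sa u)⁻¹ * (sb y)⁻¹) * (τ (u * y * u⁻¹ * y⁻¹))⁻¹ * τ (u * y * u⁻¹ * y⁻¹)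
    group
  have hcommG : ∀ u ∈ X, ∀ w ∈ W, u * w = w * u := by
    intro u hu w hw
    have := congrArg σ (hcomm u hu w hw)
    simp only [map_mul] at this
    rwa [Ha.sec u hu, Hτ.sec w hw] at this
  have hadd : ∀ u ∈ X, ∀ v ∈ X, ζ (u * v) = ζ u * ζ v := by
    intro u hu v hv
    have h1 : sa (u * v) * sb y * (sa (u * v))⁻¹ * (sb y)⁻¹ =
        sa u * (sa v * sb y * (sa v)⁻¹ * (sb y)⁻¹) * (sa u)⁻¹ * (sa u * sb y * (sa u)⁻¹ * (sb y)⁻¹) := by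
      rw [Ha.mul u hu v hv]
      group
    rw [hform u hu, hform v hv] at h1
    set wu := u * y * u⁻¹ * y⁻¹ with hwu
    set wv := v * y * v⁻¹ * y⁻¹ with hwv
    have mu : wu ∈ W := hXY u hu y hy
    have mv : wv ∈ W := hXY v hv y hy
    have h2 : sa u * (ζ v * τ wv) * (sa u)⁻¹ = ζ v * τ wv := by
      have z1 := hc _ (hσ v hv) (sa u)
      have z2 := hcomm u hu wv mv
      calc sa u * (ζ v * τ wv) * (sa u)⁻¹ = (sa u * ζ v) * τ wv * (sa u)⁻¹ := by group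
        _ = ζ v * (sa u * τ wv) * (sa u)⁻¹ := by rw [← z1]; group
        _ = _ := by rw [z2]; group
    rw [h2] at h1
    have h3 : (u * v) * y * (u * v)⁻¹ * y⁻¹ = wv * wu := by
      have z3 := hcommG u hu wv mv
      have : u * wv * u⁻¹ = wv := by rw [z3]; group
      calc (u * v) * y * (u * v)⁻¹ * y⁻¹ = (u * wv * u⁻¹) * (u * y * u⁻¹ * y⁻¹) := by rw [hwv]; group
        _ = _ := by rw [this]
    show (sa (u * v) * sb y * (sa (u * v))⁻¹ * (sb y)⁻¹) * (τ ((u * v) * y * (u * v)⁻¹ * y⁻¹))⁻¹ = ζ u * ζ v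
    rw [h1, h3, Hτ.mul _ mv _ mu]
    have z1 := hc _ (hσ u hu) (τ wv)
    calc ζ v * τ wv * (ζ u * τ wu) * (τ wv * τ wu)⁻¹ = ζ v * (τ wv * ζ u) * τ wu * (τ wv * τ wu)⁻¹ := by group
      _ = ζ v * (ζ u * τ wv) * τ wu * (τ wv * τ wu)⁻¹ := by rw [z1]
      _ = ζ v * ζ u := by group
      _ = ζ u * ζ v := (hc _ (hσ v hv) (ζ u))
  have hone : ζ 1 = 1 := by
    have := hadd 1 X.one_mem 1 X.one_mem
    rw [one_mul] at this
    exact mul_eq_left.mp this.symm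
  have hinv : ∀ u ∈ X, ζ u⁻¹ = (ζ u)⁻¹ := by
    intro u hu
    have := hadd u⁻¹ (X.inv_mem hu) u hu
    rw [inv_mul_cancel, hone] at this
    exact (inv_eq_of_mul_eq_one_left this.symm).symm
  -- equivariance
  obtain ⟨g, rfl⟩ := hs h
  have heq : ∀ u ∈ X, ζ (σ g * u * (σ g)⁻¹) = ζ u := by
    intro u hu
    have hm := hN u hu
    have e1 := Ha.eqv g hh u hu
    have e2 := Hb.eqv g hh y hy
    rw [hY y hy] at e2
    have hw : u * y * u⁻¹ * y⁻¹ ∈ W := hXY u hu y hy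
    have e3 := Hτ.eqv g hh _ hw
    have e4 : σ g * (u * y * u⁻¹ * y⁻¹) * (σ g)⁻¹ = (σ g * u * (σ g)⁻¹) * y * (σ g * u * (σ g)⁻¹)⁻¹ * y⁻¹ := by
      have : σ g * y * (σ g)⁻¹ = y := hY y hy
      calc σ g * (u * y * u⁻¹ * y⁻¹) * (σ g)⁻¹
          = (σ g * u * (σ g)⁻¹) * (σ g * y * (σ g)⁻¹) * (σ g * u * (σ g)⁻¹)⁻¹ * (σ g * y * (σ g)⁻¹)⁻¹ := by group
        _ = _ := by rw [this]
    rw [e4] at e3
    have z := hc _ (hσ u hu) g
    have : g * ζ u * g⁻¹ = ζ u := by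
      rw [← z]; group
    rw [← this]
    show (sa (σ g * u * (σ g)⁻¹) * sb y * (sa (σ g * u * (σ g)⁻¹))⁻¹ * (sb y)⁻¹) *
      (τ ((σ g * u * (σ g)⁻¹) * y * (σ g * u * (σ g)⁻¹)⁻¹ * y⁻¹))⁻¹ =
      g * ((sa u * sb y * (sa u)⁻¹ * (sb y)⁻¹) * (τ (u * y * u⁻¹ * y⁻¹))⁻¹) * g⁻¹
    rw [← e3, ← e1]
    nth_rw 1 [← e2]
    nth_rw 2 [← e2]
    group
  have hzero : ∀ v ∈ X, ζ v = 1 := by
    intro v hv
    obtain ⟨u, hu, rfl⟩ := hd v hv
    rw [hadd _ (hN u hu) _ (X.inv_mem hu), heq u hu, hinv u hu]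
    group
  have := hform x hx
  rw [hzero x hx, one_mul] at this
  exact this

/-- The trivial canonical section. -/
lemma isCan_bot (T : Subgroup G) : IsCan σ T ⊥ (fun _ => (1 : E)) := by
  refine ⟨?_, ?_, ?_⟩
  · intro x _ y _
    simp
  · intro x hx
    have : x = 1 := hx
    simp [this]
  · intro g _ x _
    simp

/-- The product of two canonical sections. -/
theorem can_sup {T X Y : Subgroup G} {s s' : G → E} (H : IsCan σ T X s) (H' : IsCan σ T Y s')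
    (hcomm : ∀ x ∈ X, ∀ y ∈ Y, s x * s' y = s' y * s x) (hinf : X ⊓ Y = ⊥)
    (hN : ∀ t ∈ T, ∀ x ∈ X, t * x * t⁻¹ ∈ X) (hN' : ∀ t ∈ T, ∀ y ∈ Y, t * y * t⁻¹ ∈ Y) :
    ∃ τ : G → E, IsCan σ T (X ⊔ Y) τ ∧ (∀ x ∈ X, ∀ y ∈ Y, τ (x * y) = s x * s' y) := by
  classical
  have hcG : ∀ x ∈ X, ∀ y ∈ Y, x * y = y * x := by
    intro x hx y hy
    have := congrArg σ (hcomm x hx y hy)
    simp only [map_mul] at this
    rwa [H.sec x hx, H'.sec y hy] at this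
  have hform : ∀ g ∈ X ⊔ Y, ∃ x ∈ X, ∃ y ∈ Y, g = x * y := by
    intro g hg
    have hg' : g ∈ Subgroup.closure ((X : Set G) ∪ Y) := by
      rwa [Subgroup.closure_union, Subgroup.closure_eq, Subgroup.closure_eq]
    clear hg
    induction hg' using Subgroup.closure_induction with
    | mem g hg =>
      rcases hg with hg | hg
      · exact ⟨g, hg, 1, Y.one_mem, by simp⟩
      · exact ⟨1, X.one_mem, g, hg, by simp⟩
    | one => exact ⟨1, X.one_mem, 1, Y.one_mem, by simp⟩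
    | mul a b _ _ ha hb =>
      obtain ⟨x, hx, y, hy, rfl⟩ := ha
      obtain ⟨x', hx', y', hy', rfl⟩ := hb
      refine ⟨x * x', X.mul_mem hx hx', y * y', Y.mul_mem hy hy', ?_⟩
      have := hcG x' hx' y hy
      calc x * y * (x' * y') = x * (y * x') * y' := by group
        _ = x * (x' * y) * y' := by rw [this]
        _ = _ := by group
    | inv a _ ha =>
      obtain ⟨x, hx, y, hy, rfl⟩ := ha
      refine ⟨x⁻¹, X.inv_mem hx, y⁻¹, Y.inv_mem hy, ?_⟩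
      have := hcG x⁻¹ (X.inv_mem hx) y⁻¹ (Y.inv_mem hy)
      rw [mul_inv_rev, this]
  have huniq : ∀ x ∈ X, ∀ y ∈ Y, ∀ x' ∈ X, ∀ y' ∈ Y, x * y = x' * y' → x = x' ∧ y = y' := by
    intro x hx y hy x' hx' y' hy' e
    have h1 : x'⁻¹ * x = y' * y⁻¹ := by
      have : x = x' * y' * y⁻¹ := by rw [← e]; group
      rw [this]; group
    have h2 : x'⁻¹ * x ∈ X ⊓ Y := ⟨X.mul_mem (X.inv_mem hx') hx, by rw [h1]; exact Y.mul_mem hy' (Y.inv_mem hy)⟩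
    rw [hinf, Subgroup.mem_bot] at h2
    have h3 : x = x' := by
      have : x' * (x'⁻¹ * x) = x' := by rw [h2, mul_one]
      simpa using this
    subst h3
    exact ⟨rfl, (mul_left_cancel e)⟩
  choose! a ha b hb hab using hform
  have hval : ∀ x ∈ X, ∀ y ∈ Y, a (x * y) = x ∧ b (x * y) = y := by
    intro x hx y hy
    have hm : x * y ∈ X ⊔ Y := Subgroup.mul_mem _ ((le_sup_left : X ≤ X ⊔ Y) hx) ((le_sup_right : Y ≤ X ⊔ Y) hy)
    exact (huniq _ (ha _ hm) _ (hb _ hm) _ hx _ hy (hab _ hm).symm)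
  refine ⟨fun g => s (a g) * s' (b g), ⟨?_, ?_, ?_⟩, ?_⟩
  · intro g hg g' hg'
    have e : g * g' = (a g * a g') * (b g * b g') := by
      nth_rw 1 [hab g hg]
      nth_rw 1 [hab g' hg']
      have := hcG _ (ha g' hg') _ (hb g hg)
      calc a g * b g * (a g' * b g') = a g * (b g * a g') * b g' := by group
        _ = a g * (a g' * b g) * b g' := by rw [this]
        _ = _ := by group
    obtain ⟨h1, h3⟩ := hval _ (X.mul_mem (ha g hg) (ha g' hg')) _ (Y.mul_mem (hb g hg) (hb g' hg'))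
    show s (a (g * g')) * s' (b (g * g')) = s (a g) * s' (b g) * (s (a g') * s' (b g'))
    rw [e, h1, h3, H.mul _ (ha g hg) _ (ha g' hg'), H'.mul _ (hb g hg) _ (hb g' hg')]
    have := hcomm _ (ha g' hg') _ (hb g hg)
    calc s (a g) * s (a g') * (s' (b g) * s' (b g')) = s (a g) * (s (a g') * s' (b g)) * s' (b g') := by group
      _ = s (a g) * (s' (b g) * s (a g')) * s' (b g') := by rw [this]
      _ = _ := by group
  · intro g hg
    show σ (s (a g) * s' (b g)) = g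
    rw [map_mul, H.sec _ (ha g hg), H'.sec _ (hb g hg)]
    exact (hab g hg).symm
  · intro k hk g hg
    show k * (s (a g) * s' (b g)) * k⁻¹ = s (a (σ k * g * (σ k)⁻¹)) * s' (b (σ k * g * (σ k)⁻¹))
    have e : σ k * g * (σ k)⁻¹ = (σ k * a g * (σ k)⁻¹) * (σ k * b g * (σ k)⁻¹) := by
      nth_rw 1 [hab g hg]
      group
    obtain ⟨h1, h3⟩ := hval _ (hN _ hk _ (ha g hg)) _ (hN' _ hk _ (hb g hg))
    rw [e, h1, h3, ← H.eqv k hk _ (ha g hg), ← H'.eqv k hk _ (hb g hg)]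
    group
  · intro x hx y hy
    obtain ⟨h1, h3⟩ := hval x hx y hy
    show s (a (x * y)) * s' (b (x * y)) = _
    rw [h1, h3]

end Cfsg.Agent.Lib.SchE6.Can
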