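import Cfsg.Agent.Lib.SchE6.Zc

/-!
A family of root groups in a central extension: exact commutator relations.
-/

set_option autoImplicit false
set_option linter.unusedSectionVars false
set_option linter.unusedVariables false

namespace Cfsg.Agent.Lib.SchE6.Fam

open Cfsg.Agent.Lib.SchE6.Can

universe u v

variable {E : Type u} [Group E] {G : Type v} [Group G]

/-- The subgroup attached to a list of at most two indices. -/
def Wg (X : ℕ → Subgroup G) : List ℕ → Subgroup G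
  | [] => ⊥
  | [c] => X c
  | c :: d :: _ => X c ⊔ X d

/-- The axioms of the family. -/
structure Ctx (σ : E →* G) (T : Subgroup G) (X : ℕ → Subgroup G) (S : ℕ → G → E) (dom : ℕ → Prop) (ok role : ℕ → ℕ → Prop)
    (Wr : ℕ → ℕ → List ℕ) : Prop where
  hs : Function.Surjective σ
  hc : CK σ
  can : ∀ r, dom r → IsCan σ T (X r) (S r)
  ok_dom : ∀ {r s}, ok r s → dom r ∧ dom s
  ok_symm : ∀ {r s}, ok r s → ok s r
  empty_symm : ∀ {r s}, ok r s → Wr r s = [] → Wr s r = []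
  wr_symm : ∀ {r s c}, ok r s → c ∈ Wr s r → c ∈ Wr r s
  role_or : ∀ {r s}, ok r s → role r s ∨ role s r
  role1 : ∀ {r s c}, ok r s → Wr r s = [c] → role r s
  wr1 : ∀ {r s c}, ok r s → Wr r s = [c] → dom c ∧ ok r c ∧ Wr r c = []
  wr2 : ∀ {r s c d}, ok r s → role r s → Wr r s = [c, d] → dom c ∧ dom d ∧ ok r c ∧ Wr r c = [] ∧ ok r d ∧ Wr r d = [] ∧
    ok c d ∧ Wr c d = [] ∧ X c ⊓ X d = ⊥
  wr_len : ∀ {r s}, ok r s → (Wr r s).length ≤ 2
  comm : ∀ {r s}, ok r s → ∀ x ∈ X r, ∀ y ∈ X s, x * y * x⁻¹ * y⁻¹ ∈ Wg X (Wr r s)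
  fpf : ∀ {r s}, ok r s → role r s → ∃ h ∈ T, (∀ y ∈ X s, h * y * h⁻¹ = y) ∧ (∀ x ∈ X r, h * x * h⁻¹ = x → x = 1)
  fin : ∀ r, Finite (X r)
  ab : ∀ r, ∀ x ∈ X r, ∀ y ∈ X r, x * y = y * x
  Tnorm : ∀ r, ∀ h ∈ T, ∀ x ∈ X r, h * x * h⁻¹ ∈ X r

namespace Ctx

variable {σ : E →* G} {T : Subgroup G} {X : ℕ → Subgroup G} {S : ℕ → G → E} {dom : ℕ → Prop} {ok role : ℕ → ℕ → Prop}
  {Wr : ℕ → ℕ → List ℕ} (C : Ctx σ T X S dom ok role Wr)
include C

lemma comm_of_one {a b : E} (h : a * b * a⁻¹ * b⁻¹ = 1) : a * b = b * a := by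
  have : a * b * a⁻¹ = b := by
    have h2 := mul_inv_eq_one.mp h
    exact h2
  exact mul_inv_eq_iff_eq_mul.mp this

/-- Pairs without terms, in the right order. -/
lemma c0_role {r s : ℕ} (hok : ok r s) (hr : role r s) (hW : Wr r s = []) {x y : G} (hx : x ∈ X r) (hy : y ∈ X s) :
    S r x * S s y = S s y * S r x := by
  have hfin := C.fin r
  obtain ⟨h, hh, hY, hf⟩ := C.fpf hok hr
  have hd := exists_delta (C.Tnorm r h hh) (C.ab r) hf
  have hxy := C.comm hok x hx y hy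
  rw [hW] at hxy
  have e := comm_exact C.hs C.hc (C.can r (C.ok_dom hok).1) (C.can s (C.ok_dom hok).2) (isCan_bot (σ := σ) T)
    (by simp) (fun x hx y hy => by
      have := C.comm hok x hx y hy
      rwa [hW] at this) hh hY (C.Tnorm r h hh) hd hx hy
  exact comm_of_one C e

/-- Pairs without terms. -/
theorem c0 {r s : ℕ} (hok : ok r s) (hW : Wr r s = []) {x y : G} (hx : x ∈ X r) (hy : y ∈ X s) :
    S r x * S s y = S s y * S r x := by
  rcases C.role_or hok with hr | hr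
  · exact C.c0_role hok hr hW hx hy
  · exact (C.c0_role (C.ok_symm hok) hr (C.empty_symm hok hW) hy hx).symm

/-- Pairs with one term. -/
theorem c1 {r s c : ℕ} (hok : ok r s) (hW : Wr r s = [c]) {x y : G} (hx : x ∈ X r) (hy : y ∈ X s) :
    S r x * S s y * (S r x)⁻¹ * (S s y)⁻¹ = S c (x * y * x⁻¹ * y⁻¹) := by
  have hfin := C.fin r
  have hr := C.role1 hok hW
  obtain ⟨h, hh, hY, hf⟩ := C.fpf hok hr
  have hd := exists_delta (C.Tnorm r h hh) (C.ab r) hf
  obtain ⟨hc', hokc, hWc⟩ := C.wr1 hok hW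
  refine comm_exact C.hs C.hc (C.can r (C.ok_dom hok).1) (C.can s (C.ok_dom hok).2) (C.can c hc')
    (fun x hx w hw => C.c0 hokc hWc hx hw) (fun x hx y hy => by
      have := C.comm hok x hx y hy
      rwa [hW] at this) hh hY (C.Tnorm r h hh) hd hx hy

/-- Pairs with two terms. -/
theorem c2 {r s c d : ℕ} (hok : ok r s) (hr : role r s) (hW : Wr r s = [c, d]) {x y : G} (hx : x ∈ X r) (hy : y ∈ X s) :
    ∃ u ∈ X c, ∃ v ∈ X d, S r x * S s y * (S r x)⁻¹ * (S s y)⁻¹ = S c u * S d v := by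
  have hfin := C.fin r
  obtain ⟨h, hh, hY, hf⟩ := C.fpf hok hr
  have hd := exists_delta (C.Tnorm r h hh) (C.ab r) hf
  obtain ⟨hc', hd', hokc, hWc, hokd, hWd, hokcd, hWcd, hinf⟩ := C.wr2 hok hr hW
  obtain ⟨τ, hτ, hτe⟩ := can_sup (C.can c hc') (C.can d hd') (fun x hx y hy => C.c0 hokcd hWcd hx hy) hinf
    (C.Tnorm c) (C.Tnorm d)
  have hcommG : ∀ x ∈ X r, ∀ y ∈ X s, x * y * x⁻¹ * y⁻¹ ∈ X c ⊔ X d := fun x hx y hy => by
    have := C.comm hok x hx y hy
    rwa [hW] at this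
  have hform : ∀ g ∈ X c ⊔ X d, ∃ u ∈ X c, ∃ v ∈ X d, g = u * v := by
    intro g hg
    have hg' : g ∈ Subgroup.closure ((X c : Set G) ∪ X d) := by
      rwa [Subgroup.closure_union, Subgroup.closure_eq, Subgroup.closure_eq]
    clear hg
    have hcG : ∀ u ∈ X c, ∀ v ∈ X d, u * v = v * u := by
      intro u hu v hv
      have := congrArg σ (C.c0 hokcd hWcd hu hv)
      simp only [map_mul] at this
      rwa [(C.can c hc').sec u hu, (C.can d hd').sec v hv] at this
    induction hg' using Subgroup.closure_induction with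
    | mem g hg =>
      rcases hg with hg | hg
      · exact ⟨g, hg, 1, (X d).one_mem, by simp⟩
      · exact ⟨1, (X c).one_mem, g, hg, by simp⟩
    | one => exact ⟨1, (X c).one_mem, 1, (X d).one_mem, by simp⟩
    | mul a b _ _ ha hb =>
      obtain ⟨u, hu, v, hv, rfl⟩ := ha
      obtain ⟨u', hu', v', hv', rfl⟩ := hb
      refine ⟨u * u', (X c).mul_mem hu hu', v * v', (X d).mul_mem hv hv', ?_⟩
      have := hcG u' hu' v hv
      calc u * v * (u' * v') = u * (v * u') * v' := by group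
        _ = u * (u' * v) * v' := by rw [this]
        _ = _ := by group
    | inv a _ ha =>
      obtain ⟨u, hu, v, hv, rfl⟩ := ha
      refine ⟨u⁻¹, (X c).inv_mem hu, v⁻¹, (X d).inv_mem hv, ?_⟩
      have := hcG u⁻¹ ((X c).inv_mem hu) v⁻¹ ((X d).inv_mem hv)
      rw [mul_inv_rev, this]
  have e := comm_exact C.hs C.hc (C.can r (C.ok_dom hok).1) (C.can s (C.ok_dom hok).2) hτ
    (fun x hx w hw => by
      obtain ⟨u, hu, v, hv, rfl⟩ := hform w hw
      rw [hτe u hu v hv]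
      have e1 := C.c0 hokc hWc hx hu
      have e2 := C.c0 hokd hWd hx hv
      calc S r x * (S c u * S d v) = (S r x * S c u) * S d v := by group
        _ = S c u * (S r x * S d v) := by rw [e1]; group
        _ = _ := by rw [e2]; group) hcommG hh hY (C.Tnorm r h hh) hd hx hy
  obtain ⟨u, hu, v, hv, huv⟩ := hform _ (hcommG x hx y hy)
  refine ⟨u, hu, v, hv, ?_⟩
  rw [e, huv, hτe u hu v hv]

/-- The commutator of two root elements in the closure of the terms. -/
theorem bracket_mem {r s : ℕ} (hok : ok r s) {x y : G} (hx : x ∈ X r) (hy : y ∈ X s) :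
    S r x * S s y * (S r x)⁻¹ * (S s y)⁻¹ ∈ Subgroup.closure {g | ∃ c ∈ Wr r s, ∃ w ∈ X c, g = S c w} := by
  have hgen : ∀ {r s : ℕ}, ok r s → role r s → ∀ {x y : G}, x ∈ X r → y ∈ X s →
      S r x * S s y * (S r x)⁻¹ * (S s y)⁻¹ ∈ Subgroup.closure {g | ∃ c ∈ Wr r s, ∃ w ∈ X c, g = S c w} := by
    intro r s hok hr x y hx hy
    have hlen := C.wr_len hok
    rcases hW : Wr r s with _ | ⟨c, _ | ⟨d, _ | ⟨e, l⟩⟩⟩
    · have h1 := C.c0 hok hW hx hy
      rw [h1]
      have : S s y * S r x * (S r x)⁻¹ * (S s y)⁻¹ = 1 := by group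
      rw [this]
      exact Subgroup.one_mem _
    · rw [C.c1 hok hW hx hy]
      refine Subgroup.subset_closure ⟨c, by simp, _, ?_, rfl⟩
      have := C.comm hok x hx y hy
      rwa [hW] at this
    · obtain ⟨u, hu, v, hv, e⟩ := C.c2 hok hr hW hx hy
      rw [e]
      exact Subgroup.mul_mem _ (Subgroup.subset_closure ⟨c, by simp, u, hu, rfl⟩)
        (Subgroup.subset_closure ⟨d, by simp, v, hv, rfl⟩)
    · rw [hW] at hlen
      simp at hlen
  rcases C.role_or hok with hr | hr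
  · exact hgen hok hr hx hy
  · have h1 := hgen (C.ok_symm hok) hr hy hx
    have e : S r x * S s y * (S r x)⁻¹ * (S s y)⁻¹ = (S s y * S r x * (S s y)⁻¹ * (S r x)⁻¹)⁻¹ := by group
    rw [e]
    refine Subgroup.inv_mem _ ?_
    refine (Subgroup.closure_mono ?_) h1
    rintro g ⟨c, hc, w, hw, e⟩
    exact ⟨c, C.wr_symm hok hc, w, hw, e⟩

end Ctx

end Cfsg.Agent.Lib.SchE6.Fam
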