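import Cfsg.Agent.Lib.Twisted.E6H
import Cfsg.Agent.Lib.Twisted.E6b
import Cfsg.Agent.Lib.Twisted.E6c

/-!
The root subgroups of `²E₆(q)`.
-/

set_option autoImplicit false
set_option linter.unusedSectionVars false
set_option linter.unusedVariables false
set_option linter.ambiguousOpen false
set_option linter.dupNamespace false
set_option linter.unusedSimpArgs false

namespace Cfsg.Agent.Lib.SchE6.Gx

open scoped MatrixGroups Matrix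
open Cfsg Lie ChevalleyDatum
open Cfsg.Agent.Lib.Chev
open Tables Tables2 Tables3 Raise Basic AxBasic Torus Products Products2 Mono1 Mono2 Mono3 Bn ChevSimple Diag
open Cfsg.Agent.Lib.Twisted.Fact Cfsg.Agent.Lib.Twisted.Bruhat Cfsg.Agent.Lib.Twisted.Tw
open Cfsg.Agent.Lib.Twisted.Struct Cfsg.Agent.Lib.Twisted.Check Cfsg.Agent.Lib.Twisted.Ortho
open Cfsg.Agent.Lib.GraphAut.Basic Cfsg.Agent.S1081
open Cfsg.Agent.Lib.Twisted.E6 Cfsg.Agent.Lib.Twisted.E6H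

/-- A boolean check on all roots. -/
theorem tab_rho : ∀ r : Fin 72, Se.ρ r < 72 ∧ Se.ρ (Se.ρ r) = r ∧ Se.γ (Se.ρ r) = Se.γ r ∧ (Se.γ r = 1 ∨ Se.γ r = -1) ∧
    (Se.ρ r = r → Se.γ r = 1) ∧ (Se.ρ r ≠ r → CommPair chevE6 r (Se.ρ r)) ∧ Se.ρ (chevE6.neg r) = chevE6.neg (Se.ρ r) ∧
    Se.γ (chevE6.neg r) = Se.γ r ∧ chevE6.neg r < 72 ∧ chevE6.neg (chevE6.neg r) = r ∧
    (chevE6.IsPosRoot r ∨ chevE6.IsNegRoot r) := by
  decide +kernel

variable {K : Type*} [Field K] {q : ℕ} (φ : K ≃+* K) (hφ : ∀ t, φ t = t ^ q) (hφ2 : ∀ t, φ (φ t) = t) (ax : Ax chevE6 K)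

/-- The sign. -/
def gam (K : Type*) [Field K] (r : ℕ) : K := ((Se.γ r : ℤ) : K)

lemma gam_sq {r : ℕ} (hr : r < 72) : gam K r * gam K r = 1 := by
  rcases (tab_rho ⟨r, hr⟩).2.2.2.1 with h | h <;> simp only [gam] <;> rw [h] <;> simp

lemma gam_fix {r : ℕ} (hr : r < 72) (h : Se.ρ r = r) : gam K r = 1 := by
  have h1 : Se.γ r = 1 := (tab_rho ⟨r, hr⟩).2.2.2.2.1 h
  simp [gam, h1]

lemma gam_rho {r : ℕ} (hr : r < 72) : gam K (Se.ρ r) = gam K r := by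
  simp only [gam]
  rw [(tab_rho ⟨r, hr⟩).2.2.1]

lemma phi_gam {r : ℕ} : φ (gam K r) = gam K r := by
  simp [gam]

/-- The twisted root element. -/
noncomputable def xt (r : ℕ) (t : K) : GL chevE6.Idx K :=
  if Se.ρ r = r then xG ax r t else xG ax r t * xG ax (Se.ρ r) (gam K r * φ t)

lemma xt_fix {r : ℕ} (h : Se.ρ r = r) (t : K) : xt φ ax r t = xG ax r t := by
  simp [xt, h]

lemma xt_pair {r : ℕ} (h : Se.ρ r ≠ r) (t : K) : xt φ ax r t = xG ax r t * xG ax (Se.ρ r) (gam K r * φ t) := by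
  simp [xt, h]

lemma comm_rho {r : ℕ} (hr : r < 72) (h : Se.ρ r ≠ r) (t u : K) :
    xG ax r t * xG ax (Se.ρ r) u = xG ax (Se.ρ r) u * xG ax r t :=
  (((tab_rho ⟨r, hr⟩).2.2.2.2.2.1 h).comm ax t u).symm

lemma xt_add {r : ℕ} (hr : r < 72) (t u : K) : xt φ ax r (t + u) = xt φ ax r t * xt φ ax r u := by
  by_cases h : Se.ρ r = r
  · simp only [xt_fix φ ax h, xG_add]
  · simp only [xt_pair φ ax h]
    rw [map_add, mul_add, ← xG_add, ← xG_add]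
    have := comm_rho ax hr h u (gam K r * φ t)
    calc xG ax r t * xG ax r u * (xG ax (Se.ρ r) (gam K r * φ t) * xG ax (Se.ρ r) (gam K r * φ u))
        = xG ax r t * (xG ax r u * xG ax (Se.ρ r) (gam K r * φ t)) * xG ax (Se.ρ r) (gam K r * φ u) := by group
      _ = xG ax r t * (xG ax (Se.ρ r) (gam K r * φ t) * xG ax r u) * xG ax (Se.ρ r) (gam K r * φ u) := by rw [this]
      _ = _ := by group

lemma xt_zero (r : ℕ) : xt φ ax r 0 = 1 := by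
  by_cases h : Se.ρ r = r
  · simp [xt_fix φ ax h]
  · simp [xt_pair φ ax h]

lemma xt_neg {r : ℕ} (hr : r < 72) (t : K) : (xt φ ax r t)⁻¹ = xt φ ax r (-t) := by
  have := xt_add φ ax hr t (-t)
  rw [add_neg_cancel, xt_zero] at this
  exact inv_eq_of_mul_eq_one_right this.symm

/-- The parameters. -/
def Par (φ : K ≃+* K) (r : ℕ) (t : K) : Prop := Se.ρ r = r → φ t = t

/-- The root subgroup. -/
noncomputable def X (r : ℕ) (hr : r < 72) : Subgroup (GL chevE6.Idx K) where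
  carrier := {g | ∃ t, Par φ r t ∧ g = xt φ ax r t}
  mul_mem' := by
    rintro _ _ ⟨t, ht, rfl⟩ ⟨u, hu, rfl⟩
    refine ⟨t + u, fun h => ?_, (xt_add φ ax hr t u).symm⟩
    rw [map_add, ht h, hu h]
  one_mem' := ⟨0, fun _ => map_zero φ, (xt_zero φ ax r).symm⟩
  inv_mem' := by
    rintro _ ⟨t, ht, rfl⟩
    refine ⟨-t, fun h => ?_, xt_neg φ ax hr t⟩
    rw [map_neg, ht h]

/-- The root subgroup, for all indices. -/
noncomputable def Xr (r : ℕ) : Subgroup (GL chevE6.Idx K) := if h : r < 72 then X φ ax r h else ⊥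

lemma mem_Xr {r : ℕ} (hr : r < 72) {g : GL chevE6.Idx K} : g ∈ Xr φ ax r ↔ ∃ t, Par φ r t ∧ g = xt φ ax r t := by
  simp only [Xr, hr, dif_pos]
  rfl

include hφ2 in
lemma Xr_rho {r : ℕ} (hr : r < 72) : Xr φ ax (Se.ρ r) = Xr φ ax r := by
  have hr' := (tab_rho ⟨r, hr⟩).1
  have h2 := (tab_rho ⟨r, hr⟩).2.1
  simp only at hr' h2
  ext g
  rw [mem_Xr φ ax hr', mem_Xr φ ax hr]
  by_cases h : Se.ρ r = r
  · rw [h]
  · constructor
    · rintro ⟨t, -, rfl⟩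
      have h3 : Se.ρ (Se.ρ r) ≠ Se.ρ r := by rw [h2]; exact fun e => h e.symm
      refine ⟨gam K r * φ t, fun e => absurd e h, ?_⟩
      rw [xt_pair φ ax h3, xt_pair φ ax h, h2, gam_rho hr, map_mul, phi_gam, hφ2, ← mul_assoc, gam_sq hr, one_mul]
      exact (comm_rho ax hr h _ _).symm
    · rintro ⟨t, -, rfl⟩
      have h3 : Se.ρ (Se.ρ r) ≠ Se.ρ r := by rw [h2]; exact fun e => h e.symm
      refine ⟨gam K r * φ t, fun e => absurd e h3, ?_⟩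
      rw [xt_pair φ ax h3, xt_pair φ ax h, h2, gam_rho hr, map_mul, phi_gam, hφ2, ← mul_assoc, gam_sq hr, one_mul]
      exact (comm_rho ax hr h _ _)

/-! ### The twist -/

lemma s_xG {r : ℕ} (hr : r < 72) (t : K) : (twE φ ax).s (xG ax r t) = xG ax (Se.ρ r) (gam K r * φ t) :=
  (twE φ ax).s_x ⟨r, hr⟩ t

lemma mem_group {r : ℕ} (hr : r < 72) (t : K) : xG ax r t ∈ chevE6.group K := xG_mem_group ax hr t

include hφ2 in
lemma s_xt {r : ℕ} (hr : r < 72) {t : K} (ht : Par φ r t) : (twE φ ax).s (xt φ ax r t) = xt φ ax r t := by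
  by_cases h : Se.ρ r = r
  · rw [xt_fix φ ax h, s_xG φ ax hr, h, ht h, gam_fix hr h, one_mul]
  · have hr' := (tab_rho ⟨r, hr⟩).1
    have h2 := (tab_rho ⟨r, hr⟩).2.1
    simp only at hr' h2
    rw [xt_pair φ ax h, (twE φ ax).s_mul _ (mem_group ax hr _) _ (mem_group ax hr' _), s_xG φ ax hr,
      s_xG φ ax hr', h2, gam_rho hr, map_mul, phi_gam, hφ2, ← mul_assoc, gam_sq hr, one_mul]
    exact (comm_rho ax hr h _ _).symm

lemma xt_mem_group {r : ℕ} (hr : r < 72) (t : K) : xt φ ax r t ∈ chevE6.group K := by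
  by_cases h : Se.ρ r = r
  · rw [xt_fix φ ax h]
    exact mem_group ax hr t
  · rw [xt_pair φ ax h]
    exact Subgroup.mul_mem _ (mem_group ax hr _) (mem_group ax (tab_rho ⟨r, hr⟩).1 _)

include hφ2 in
lemma xt_mem_Fx {r : ℕ} (hr : r < 72) {t : K} (ht : Par φ r t) : xt φ ax r t ∈ (twE φ ax).Fx :=
  ⟨xt_mem_group φ ax hr t, s_xt φ hφ2 ax hr ht⟩

theorem tab_pos : ∀ r : Fin 72, (chevE6.IsPosRoot r → chevE6.IsPosRoot (Se.ρ r)) ∧ (chevE6.IsNegRoot r → chevE6.IsNegRoot (Se.ρ r)) := by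
  decide +kernel

lemma rho_pos {r : ℕ} (hr : r < 72) (hp : chevE6.IsPosRoot r) : chevE6.IsPosRoot (Se.ρ r) :=
  (tab_pos ⟨r, hr⟩).1 hp

lemma rho_neg {r : ℕ} (hr : r < 72) (hp : chevE6.IsNegRoot r) : chevE6.IsNegRoot (Se.ρ r) :=
  (tab_pos ⟨r, hr⟩).2 hp

include hφ hφ2 in
lemma xt_mem_G {r : ℕ} (hr : r < 72) {t : K} (ht : Par φ r t) : xt φ ax r t ∈ twistedE6 K q := by
  have hfix := s_xt φ hφ2 ax hr ht
  rcases (tab_rho ⟨r, hr⟩).2.2.2.2.2.2.2.2.2.2 with hp | hp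
  · refine (TE φ hφ hφ2 ax).U_fix hE2 ?_ hfix
    by_cases h : Se.ρ r = r
    · rw [xt_fix φ ax h]
      exact xG_mem_U ax hp t
    · rw [xt_pair φ ax h]
      exact Subgroup.mul_mem _ (xG_mem_U ax hp t) (xG_mem_U ax (rho_pos hr hp) _)
  · refine (TE φ hφ hφ2 ax).V_fix hE2 ?_ hfix
    by_cases h : Se.ρ r = r
    · rw [xt_fix φ ax h]
      exact xG_mem_V ax hp t
    · rw [xt_pair φ ax h]
      exact Subgroup.mul_mem _ (xG_mem_V ax hp t) (xG_mem_V ax (rho_neg hr hp) _)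

include hφ hφ2 in
lemma Xr_le_G (r : ℕ) : Xr φ ax r ≤ twistedE6 K q := by
  by_cases hr : r < 72
  · intro g hg
    obtain ⟨t, ht, rfl⟩ := (mem_Xr φ ax hr).mp hg
    exact xt_mem_G φ hφ hφ2 ax hr ht
  · simp [Xr, hr]

/-! ### Conjugation -/

variable {g : GL chevE6.Idx K} {π : Equiv.Perm (Fin chevE6.nroots)} {c : Fin chevE6.nroots → Kˣ}

/-- The compatibility of a fixed monomial element with the twist. -/
lemma nor_key (hg : g ∈ (twE φ ax).Fx) (H : IsNor hE ax g π c) {r : ℕ} (hr : r < 72) :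
    ((π ⟨r, hr⟩ : Fin chevE6.nroots) : ℕ) = ((π ⟨r, hr⟩ : Fin chevE6.nroots) : ℕ) ∧
    Se.ρ (π ⟨r, hr⟩) = π ⟨Se.ρ r, (tab_rho ⟨r, hr⟩).1⟩ ∧
    gam K (π ⟨r, hr⟩) * φ (c ⟨r, hr⟩ : K) = (c ⟨Se.ρ r, (tab_rho ⟨r, hr⟩).1⟩ : K) * gam K r := by
  have hr' := (tab_rho ⟨r, hr⟩).1
  simp only at hr'
  have hsg : (twE φ ax).s g = g := hg.2
  have hginv : (twE φ ax).s g⁻¹ = g⁻¹ := by rw [(twE φ ax).s_inv hg.1, hsg]
  have e1 := H.conj ⟨r, hr⟩ 1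
  simp only at e1
  have e2 := congrArg (twE φ ax).s e1
  rw [(twE φ ax).s_mul _ (Subgroup.mul_mem _ hg.1 (mem_group ax hr _)) _ (Subgroup.inv_mem _ hg.1),
    (twE φ ax).s_mul _ hg.1 _ (mem_group ax hr _), hsg, hginv, s_xG φ ax hr, s_xG φ ax (π ⟨r, hr⟩).isLt] at e2
  have e3 := H.conj ⟨Se.ρ r, hr'⟩ (gam K r * φ 1)
  simp only at e3
  rw [e3] at e2
  have hne : (c ⟨Se.ρ r, hr'⟩ : K) * (gam K r * φ 1) ≠ 0 := by
    rw [map_one, mul_one]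
    refine mul_ne_zero (c _).ne_zero ?_
    intro h0
    have := gam_sq (K := K) hr
    rw [h0] at this
    simp at this
  obtain ⟨h1, h3⟩ := xG_eq_iff ax hE hE2 (π ⟨Se.ρ r, hr'⟩).isLt (tab_rho ⟨(π ⟨r, hr⟩ : Fin chevE6.nroots), (π ⟨r, hr⟩).isLt⟩).1 hne e2
  refine ⟨rfl, h1.symm, ?_⟩
  rw [map_one, mul_one, mul_one] at h3
  rw [← h3]

/-- Conjugation of twisted root elements by fixed monomial elements. -/
theorem conj_xt (hg : g ∈ (twE φ ax).Fx) (H : IsNor hE ax g π c) {r : ℕ} (hr : r < 72) {t : K} (ht : Par φ r t) :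
    g * xt φ ax r t * g⁻¹ = xt φ ax (π ⟨r, hr⟩) ((c ⟨r, hr⟩ : K) * t) ∧ Par φ (π ⟨r, hr⟩) ((c ⟨r, hr⟩ : K) * t) := by
  obtain ⟨-, k1, k2⟩ := nor_key φ ax hg H hr
  have hr' := (tab_rho ⟨r, hr⟩).1
  simp only at hr'
  by_cases h : Se.ρ r = r
  · have hf : ((⟨Se.ρ r, hr'⟩ : Fin chevE6.nroots)) = ⟨r, hr⟩ := Fin.ext h
    rw [hf] at k1 k2
    have h3 : Se.ρ (π ⟨r, hr⟩) = π ⟨r, hr⟩ := k1
    have hγ1 : gam K (π ⟨r, hr⟩) = 1 := gam_fix (π ⟨r, hr⟩).isLt h3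
    have hγ2 : gam K r = 1 := gam_fix hr h
    rw [hγ1, hγ2, one_mul, mul_one] at k2
    refine ⟨?_, ?_⟩
    · rw [xt_fix φ ax h, xt_fix φ ax h3]
      exact H.conj ⟨r, hr⟩ t
    · intro _
      rw [map_mul, k2, ht h]
  · have h3 : Se.ρ (π ⟨r, hr⟩) ≠ π ⟨r, hr⟩ := by
      rw [k1]
      intro e
      have e2 : ((π ⟨Se.ρ r, hr'⟩ : Fin chevE6.nroots)) = π ⟨r, hr⟩ := Fin.ext e
      have e3 := π.injective e2
      exact h (Fin.mk.inj_iff.mp e3)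
    refine ⟨?_, fun e => absurd e h3⟩
    rw [xt_pair φ ax h, xt_pair φ ax h3]
    have e1 := H.conj ⟨r, hr⟩ t
    have e2 := H.conj ⟨Se.ρ r, hr'⟩ (gam K r * φ t)
    simp only at e1 e2
    have e3 : g * (xG ax r t * xG ax (Se.ρ r) (gam K r * φ t)) * g⁻¹ =
        (g * xG ax r t * g⁻¹) * (g * xG ax (Se.ρ r) (gam K r * φ t) * g⁻¹) := by group
    rw [e3, e1, e2, k1, map_mul, ← mul_assoc (gam K _), k2, mul_assoc (c ⟨Se.ρ r, hr'⟩ : K)]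

/-- Conjugation of root subgroups. -/
theorem conj_Xr (hg : g ∈ (twE φ ax).Fx) (H : IsNor hE ax g π c) {r : ℕ} (hr : r < 72) {x : GL chevE6.Idx K}
    (hx : x ∈ Xr φ ax r) : g * x * g⁻¹ ∈ Xr φ ax (π ⟨r, hr⟩) := by
  obtain ⟨t, ht, rfl⟩ := (mem_Xr φ ax hr).mp hx
  obtain ⟨e1, e2⟩ := conj_xt φ ax hg H hr ht
  rw [e1]
  exact (mem_Xr φ ax (π ⟨r, hr⟩).isLt).mpr ⟨_, e2, rfl⟩

end Cfsg.Agent.Lib.SchE6.Gx
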