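import Cfsg.Agent.Lib.SchE6.Gx9
import Cfsg.Agent.Lib.Schur.Stem

/-!
The upper bound for the Schur multiplier of `²E₆(q)`.
-/

set_option autoImplicit false
set_option linter.unusedSectionVars false
set_option linter.unusedVariables false
set_option linter.ambiguousOpen false
set_option linter.dupNamespace false
set_option linter.unusedSimpArgs false

namespace Cfsg.Agent.Lib.SchE6.Gx

open scoped MatrixGroups Matrix
open Cfsg Lie ChevalleyDatum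
open Cfsg.Agent.Lib.Chev
open Tables Tables2 Tables3 Raise Basic AxBasic Torus Products Products2 Mono1 Mono2 Mono3 Bn ChevSimple Diag
open Cfsg.Agent.Lib.Twisted.Fact Cfsg.Agent.Lib.Twisted.Bruhat Cfsg.Agent.Lib.Twisted.Tw
open Cfsg.Agent.Lib.Twisted.Struct Cfsg.Agent.Lib.Twisted.Check Cfsg.Agent.Lib.Twisted.Ortho
open Cfsg.Agent.Lib.Twisted.TorusFix
open Cfsg.Agent.Lib.GraphAut.Basic Cfsg.Agent.S1081
open Cfsg.Agent.Lib.Twisted.E6 Cfsg.Agent.Lib.Twisted.E6H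
open Cfsg.Agent.Lib.SchD4.Abs Cfsg.Agent.Lib.SchE6.Brh Cfsg.Agent.Lib.SchE6.Zc Cfsg.Agent.Lib.SchE6.Can
open Cfsg.Agent.Lib.Classical.StSL2 (Sys)

lemma mul4 {G : Type*} [Group G] {a₀ a₁ a₂ a₃ b₀ b₁ b₂ b₃ : G} (c01 : b₀ * a₁ = a₁ * b₀) (c02 : b₀ * a₂ = a₂ * b₀) (c03 : b₀ * a₃ = a₃ * b₀)
    (c12 : b₁ * a₂ = a₂ * b₁) (c13 : b₁ * a₃ = a₃ * b₁) (c23 : b₂ * a₃ = a₃ * b₂) :
    (a₀ * b₀) * (a₁ * b₁) * (a₂ * b₂) * (a₃ * b₃) = (a₀ * a₁ * a₂ * a₃) * (b₀ * b₁ * b₂ * b₃) := by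
  calc (a₀ * b₀) * (a₁ * b₁) * (a₂ * b₂) * (a₃ * b₃)
      = a₀ * (b₀ * a₁) * b₁ * a₂ * b₂ * a₃ * b₃ := by group
    _ = a₀ * a₁ * b₀ * (b₁ * a₂) * b₂ * a₃ * b₃ := by rw [c01]; group
    _ = a₀ * a₁ * (b₀ * a₂) * b₁ * (b₂ * a₃) * b₃ := by rw [c12]; group
    _ = a₀ * a₁ * a₂ * b₀ * (b₁ * a₃) * b₂ * b₃ := by rw [c02, c23]; group
    _ = a₀ * a₁ * a₂ * (b₀ * a₃) * b₁ * b₂ * b₃ := by rw [c13]; group
    _ = _ := by rw [c03]; group

theorem rho_fix0 : Se.ρ (a4 0) = a4 0 := by decide +kernel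
theorem rho_fix1 : Se.ρ (a4 1) = a4 1 := by decide +kernel

theorem s_val : chevE6.simple 0 = 56 ∧ chevE6.simple 1 = 46 ∧ chevE6.simple 2 = 42 ∧ chevE6.simple 3 = 39 ∧ chevE6.simple 4 = 37 ∧
    chevE6.simple 5 = 36 := by decide +kernel

variable {K : Type*} [Field K] {q : ℕ} {φ : K ≃+* K} (hφ : ∀ t, φ t = t ^ q) (hφ2 : ∀ t, φ (φ t) = t) {ax : Ax chevE6 K}

lemma tor_psi_form (ax : Ax chevE6 K) (c : ℕ → Kˣ) :
    tor chevE6 (psi chevE6 c) = hG ax 46 (c 1 : K) * hG ax 39 (c 3 : K) * (hG ax 42 (c 2 : K) * hG ax 37 (c 4 : K)) *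
      (hG ax 56 (c 0 : K) * hG ax 36 (c 5 : K)) := by
  obtain ⟨s0, s1, s2, s3, s4, s5⟩ := s_val
  have ht : ∀ (i : ℕ) (u : Kˣ), i < 6 → hG ax (chevE6.simple i) (u : K) = tor chevE6 (hW chevE6 (chevE6.simple i) u) :=
    fun i u hi => hG_eq_tor ax hE (hE.simple_lt i hi) u
  rw [tor_psi_list hE ax]
  have e : List.range chevE6.rank = [0, 1, 2, 3, 4, 5] := rfl
  rw [e]
  simp only [List.map_cons, List.map_nil, List.prod_cons, List.prod_nil, mul_one]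
  rw [← s0, ← s1, ← s2, ← s3, ← s4, ← s5, ht 0 _ (by norm_num), ht 1 _ (by norm_num), ht 2 _ (by norm_num), ht 3 _ (by norm_num),
    ht 4 _ (by norm_num), ht 5 _ (by norm_num)]
  simp only [← tor_mul]
  congr 1
  ac_rfl

variable {E : Type*} [Group E] {σ : E →* ↥(twistedE6 K q)} {xh : ℕ → K → E} (L : Lf φ ax σ xh)

/-- The torus elements in the extension. -/
def hEt (xh : ℕ → K → E) (j : Fin 4) (t : K) : E := wE xh (a4 j) t * (nJ xh j)⁻¹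

lemma hEt_one (j : Fin 4) : hEt xh j 1 = 1 := by
  simp [hEt, nJ]

include hφ hφ2 L

lemma hEt_mul [Finite K] (j : Fin 4) {a b : K} (ha : Par φ (a4 j) a) (hb : Par φ (a4 j) b) (ha0 : a ≠ 0) (hb0 : b ≠ 0) :
    hEt xh j (a * b) = hEt xh j a * hEt xh j b :=
  h_mul (sysJ hφ hφ2 L j) (a := ⟨a, ha⟩) (b := ⟨b, hb⟩) (fun e => ha0 (congrArg Subtype.val e)) (fun e => hb0 (congrArg Subtype.val e))

lemma comm_T [Finite K] {g : E} (hg : ((σ g : ↥(twistedE6 K q)) : GL chevE6.Idx K) ∈ chevE6.diagonalSubgroup K) (j : Fin 4) {t : K}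
    (ht : Par φ (a4 j) t) (h0 : t ≠ 0) : g * hEt xh j t = hEt xh j t * g := by
  obtain ⟨y, ey⟩ := exists_tor_of_mem ax hE hg
  have hmem : tor chevE6 y ∈ twistedE6 K q := by
    rw [← ey]
    exact (σ g).2
  have ha := a4_lt j
  have hp : Par φ (a4 j) (chi chevE6 y (a4 j) : Kˣ) := by
    have := tor_par φ hφ hφ2 ax hmem ha (par_one (φ := φ) (a4 j))
    rwa [mul_one] at this
  have S := sysJ hφ hφ2 L j
  have key := scale_comm S (g := g) (l := ⟨_, hp⟩) (fun e => Units.ne_zero _ (congrArg Subtype.val e)) (fun u => ?_) (fun u => ?_)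
    (t := ⟨t, ht⟩) (fun e => h0 (congrArg Subtype.val e))
  · exact mul_inv_eq_iff_eq_mul.mp key
  · exact scale_x hφ hφ2 L ey ha u.2
  · have e1 := scale_x hφ hφ2 L ey (neg_lt ha) (par_neg_iff φ ha u.2)
    rw [chi_neg hE y ha, Units.val_inv_eq_inv_val] at e1
    exact e1

omit hφ hφ2 in
lemma hEt_T (j : Fin 4) {t : K} (ht : Par φ (a4 j) t) (h0 : t ≠ 0) :
    ((σ (hEt xh j t) : ↥(twistedE6 K q)) : GL chevE6.Idx K) ∈ chevE6.diagonalSubgroup K := by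
  show ((σ (wE xh (a4 j) t * (nJ xh j)⁻¹) : ↥(twistedE6 K q)) : GL chevE6.Idx K) ∈ _
  rw [sec_h L j ht]
  exact hJ_mem φ ax j h0

omit hφ hφ2 L in
/-- The map from the parameters to the torus part. -/
def PhiE (xh : ℕ → K → E) (x : Fq K q × Fq K q × Kˣ × Kˣ) : E :=
  hEt xh 0 ((x.1 : Kˣ) : K) * hEt xh 1 ((x.2.1 : Kˣ) : K) * hEt xh 2 (x.2.2.2 : K) * hEt xh 3 (x.2.2.1 : K)

omit hφ hφ2 L in
theorem rho_nf : Se.ρ (a4 2) ≠ a4 2 ∧ Se.ρ (a4 3) ≠ a4 3 := by decide +kernel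

variable (hq1 : 1 ≤ q)

omit hφ2 L in
include hq1 in
lemma p0 (x : Fq K q) : Par φ (a4 0) ((x : Kˣ) : K) := fun _ => congrArg Units.val (φu_of_mem φ hφ hq1 x.2)

omit hφ2 L in
include hq1 in
lemma p1 (x : Fq K q) : Par φ (a4 1) ((x : Kˣ) : K) := fun _ => congrArg Units.val (φu_of_mem φ hφ hq1 x.2)

omit hφ hφ2 L in
lemma p2 (t : K) : Par φ (a4 2) t := fun e => absurd e rho_nf.1

omit hφ hφ2 L in
lemma p3 (t : K) : Par φ (a4 3) t := fun e => absurd e rho_nf.2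

include hq1

lemma PhiE_mul [Finite K] (x y : Fq K q × Fq K q × Kˣ × Kˣ) : PhiE xh (x * y) = PhiE xh x * PhiE xh y := by
  have e0 : hEt xh 0 (((x * y).1 : Kˣ) : K) = hEt xh 0 ((x.1 : Kˣ) : K) * hEt xh 0 ((y.1 : Kˣ) : K) :=
    hEt_mul hφ hφ2 L 0 (p0 hφ hq1 x.1) (p0 hφ hq1 y.1) (Units.ne_zero _) (Units.ne_zero _)
  have e1 : hEt xh 1 (((x * y).2.1 : Kˣ) : K) = hEt xh 1 ((x.2.1 : Kˣ) : K) * hEt xh 1 ((y.2.1 : Kˣ) : K) :=
    hEt_mul hφ hφ2 L 1 (p1 hφ hq1 x.2.1) (p1 hφ hq1 y.2.1) (Units.ne_zero _) (Units.ne_zero _)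
  have e2 : hEt xh 2 ((x * y).2.2.2 : K) = hEt xh 2 (x.2.2.2 : K) * hEt xh 2 (y.2.2.2 : K) :=
    hEt_mul hφ hφ2 L 2 (p2 _) (p2 _) (Units.ne_zero _) (Units.ne_zero _)
  have e3 : hEt xh 3 ((x * y).2.2.1 : K) = hEt xh 3 (x.2.2.1 : K) * hEt xh 3 (y.2.2.1 : K) :=
    hEt_mul hφ hφ2 L 3 (p3 _) (p3 _) (Units.ne_zero _) (Units.ne_zero _)
  simp only [PhiE]
  rw [e0, e1, e2, e3]
  have T0 := hEt_T L 0 (p0 hφ hq1 y.1) (Units.ne_zero _)
  have T1 := hEt_T L 1 (p1 hφ hq1 y.2.1) (Units.ne_zero _)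
  have T2 := hEt_T L 2 (p2 (y.2.2.2 : K)) (Units.ne_zero _)
  exact mul4 (comm_T hφ hφ2 L T0 1 (p1 hφ hq1 x.2.1) (Units.ne_zero _)) (comm_T hφ hφ2 L T0 2 (p2 _) (Units.ne_zero _))
    (comm_T hφ hφ2 L T0 3 (p3 _) (Units.ne_zero _)) (comm_T hφ hφ2 L T1 2 (p2 _) (Units.ne_zero _))
    (comm_T hφ hφ2 L T1 3 (p3 _) (Units.ne_zero _)) (comm_T hφ hφ2 L T2 3 (p3 _) (Units.ne_zero _))

/-- The homomorphism from the parameters to the torus part. -/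
def PhiH [Finite K] : Fq K q × Fq K q × Kˣ × Kˣ →* E := MonoidHom.mk' (PhiE xh) (PhiE_mul hφ hφ2 L hq1)

lemma PhiH_apply [Finite K] (x : Fq K q × Fq K q × Kˣ × Kˣ) : PhiH hφ hφ2 L hq1 x = PhiE xh x := rfl

lemma sigma_Phi [Finite K] (x : Fq K q × Fq K q × Kˣ × Kˣ) :
    ((σ (PhiH hφ hφ2 L hq1 x) : ↥(twistedE6 K q)) : GL chevE6.Idx K) = Φ φ x := by
  rw [PhiH_apply, Φ_apply, tor_psi_form ax]
  simp only [PhiE, hEt, map_mul, Subgroup.coe_mul]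
  have k0 := sec_h L 0 (p0 hφ hq1 x.1)
  have k1 := sec_h L 1 (p1 hφ hq1 x.2.1)
  have k2 := sec_h L 2 (p2 (x.2.2.2 : K))
  have k3 := sec_h L 3 (p3 (x.2.2.1 : K))
  simp only [map_mul, Subgroup.coe_mul] at k0 k1 k2 k3
  rw [k0, k1, k2, k3, hJ_0, hJ_1, hJ_2, hJ_3]
  rfl

/-- The torus part is the image of the parameters. -/
theorem A_form [Finite K] {a : E} (ha : a ∈ A₀ (WJ xh φ) (nJ xh)) : ∃ x, a = PhiH hφ hφ2 L hq1 x := by
  refine A_induct (P := fun a => ∃ x, a = PhiH hφ hφ2 L hq1 x) ⟨1, by simp⟩ ?_ ?_ ?_ ha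
  · rintro _ _ ⟨x, rfl⟩ ⟨y, rfl⟩
    exact ⟨x * y, by simp⟩
  · rintro _ ⟨x, rfl⟩
    exact ⟨x⁻¹, by simp⟩
  · intro j
    have hone : ∀ j, hEt xh j 1 = 1 := hEt_one
    revert j
    apply fin4
    · rintro _ ⟨t, ht, h0, rfl⟩
      have hu : φu φ (Units.mk0 t h0) = Units.mk0 t h0 := Units.ext (ht rho_fix0)
      refine ⟨(⟨Units.mk0 t h0, mem_of_φu φ hφ hq1 hu⟩, 1, 1, 1), ?_⟩
      show hEt xh 0 t = PhiE xh _
      simp [PhiE, hone]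
    · rintro _ ⟨t, ht, h0, rfl⟩
      have hu : φu φ (Units.mk0 t h0) = Units.mk0 t h0 := Units.ext (ht rho_fix1)
      refine ⟨(1, ⟨Units.mk0 t h0, mem_of_φu φ hφ hq1 hu⟩, 1, 1), ?_⟩
      show hEt xh 1 t = PhiE xh _
      simp [PhiE, hone]
    · rintro _ ⟨t, ht, h0, rfl⟩
      refine ⟨(1, 1, 1, Units.mk0 t h0), ?_⟩
      show hEt xh 2 t = PhiE xh _
      simp [PhiE, hone]
    · rintro _ ⟨t, ht, h0, rfl⟩
      refine ⟨(1, 1, Units.mk0 t h0, 1), ?_⟩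
      show hEt xh 3 t = PhiE xh _
      simp [PhiE, hone]

omit hφ hφ2 L hq1

section Main

variable {K : Type*} [Field K] [Fintype K] {q : ℕ} (hq : IsPrimePow q) (hK : Fintype.card K = q ^ 2) (h2 : q ≠ 2)

include hq hK h2

/-- A generator of the multiplicative group. -/
lemma exists_tau {φ : K ≃+* K} (hφ : ∀ t, φ t = t ^ q) :
    ∃ τ : Kˣ, ∀ {m n : ℤ}, smallP m n = true → τ ^ m * (φu φ τ) ^ n ≠ 1 := by
  classical
  have hq2 := hq.two_le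
  have hq3 : 3 ≤ q := by omega
  obtain ⟨τ, hτ⟩ := IsCyclic.exists_generator (α := Kˣ)
  have ho : orderOf τ = q ^ 2 - 1 := by
    rw [orderOf_eq_card_of_forall_mem_zpowers hτ, Nat.card_eq_fintype_card, Fintype.card_units, hK]
  exact ⟨τ, fun h => small_ne φ hq3 ho hφ h⟩

/-- The upper bound for the multiplier. -/
theorem ker_card {E : Type*} [Group E] [Finite E] (σ : E →* ↥(twistedE6 K q)) (hst : IsStemExtension σ) :
    Nat.card σ.ker ∣ Nat.gcd 3 (q + 1) := by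
  classical
  obtain ⟨φ, hφ, hφ2⟩ := exists_φ hq hK
  have ax : Ax chevE6 K := Cfsg.Agent.Lib.Lie.AxOf.ax_of_mem hmemE6
  obtain ⟨τ, hτ⟩ := exists_tau hq hK h2 hφ
  obtain ⟨hs, hcen, hcomm⟩ := hst
  have hc : CK σ := fun z hz g => (Subgroup.mem_center_iff.mp (hcen hz) g).symm
  obtain ⟨xh, L⟩ := exists_lf φ hφ hφ2 ax hτ σ hs hc
  have hq2 := hq.two_le
  have hq1 : 1 ≤ q := by omega
  have hFq : Nat.card {t : K // t ^ q = t} = q := card_fix hq2 (by norm_num) hK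
  have hK' : Nat.card K = q ^ 2 := by rw [Nat.card_eq_fintype_card, hK]
  have hU := card_U_main (K := K) hq hK
  have key : σ.ker = (Φ (q := q) φ).ker.map (PhiH hφ hφ2 L hq1) := by
    apply le_antisymm
    · intro z hz
      have hz1 : σ z = 1 := hz
      obtain ⟨x, rfl⟩ := A_form hφ hφ2 L hq1 (ker_mem_A hφ hφ2 L hFq hK' hU hs hc hz1 (hcomm hz))
      refine ⟨x, ?_, rfl⟩
      show Φ φ x = 1
      rw [← sigma_Phi hφ hφ2 L hq1, hz1]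
      rfl
    · rintro _ ⟨x, hx, rfl⟩
      rw [MonoidHom.mem_ker]
      apply Subtype.ext
      rw [sigma_Phi hφ hφ2 L hq1]
      exact hx
  have hU' : Nat.card Kˣ = q ^ 2 - 1 := by
    rw [Nat.card_eq_fintype_card, Fintype.card_units, hK]
  have hfac : q ^ 2 - 1 = (q - 1) * (q + 1) := by
    obtain ⟨p, rfl⟩ : ∃ p, q = p + 1 := ⟨q - 1, by omega⟩
    simp only [Nat.add_sub_cancel]
    rw [show (p + 1) ^ 2 = p * (p + 1 + 1) + 1 by ring]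
    simp
  have hker : Nat.card (Φ (q := q) φ).ker = Nat.gcd 3 (q + 1) := by
    rw [card_ker φ hφ hφ2 ax hq1, IsCyclic.card_powMonoidHom_ker, hU', hfac]
    exact Nat.gcd_eq_right ((Nat.gcd_dvd_right _ _).trans (Nat.dvd_mul_left _ _))
  rw [key, ← hker]
  exact Subgroup.card_map_dvd _ _

end Main

end Cfsg.Agent.Lib.SchE6.Gx
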