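import Cfsg.Agent.Lib.SchE6.Gx1
import Cfsg.Agent.Lib.SchE6.Tb

/-!
The commutator relations between root subgroups of `²E₆(q)`.
-/

set_option autoImplicit false
set_option linter.unusedSectionVars false
set_option linter.unusedVariables false
set_option linter.ambiguousOpen false
set_option linter.dupNamespace false
set_option linter.unusedSimpArgs false

namespace Cfsg.Agent.Lib.SchE6.Gx

open scoped MatrixGroups Matrix
open Cfsg Lie ChevalleyDatum
open Cfsg.Agent.Lib.Chev
open Tables Tables2 Tables3 Raise Basic AxBasic Torus Products Products2 Mono1 Mono2 Mono3 Bn ChevSimple Diag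
open Cfsg.Agent.Lib.Twisted.Fact Cfsg.Agent.Lib.Twisted.Bruhat Cfsg.Agent.Lib.Twisted.Tw
open Cfsg.Agent.Lib.Twisted.Struct Cfsg.Agent.Lib.Twisted.Check Cfsg.Agent.Lib.Twisted.Ortho
open Cfsg.Agent.Lib.GraphAut.Basic Cfsg.Agent.S1081
open Cfsg.Agent.Lib.Twisted.E6 Cfsg.Agent.Lib.Twisted.E6H

/-! ### Tables -/

/-- An entry of a packed table. -/
def iot (T r : ℕ) : ℕ := (T >>> (8 * r)) % 256

/-- The twist of the roots. -/
def rhoP (a : ℕ) : ℕ := iot TrhoP a

/-- The opposite root. -/
def negP (a : ℕ) : ℕ := iot TnegP a

/-- The roots of the commutator. -/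
def tmsP (a b : ℕ) : List ℕ := let v := iot TtmP (72 * a + b); if v = 0 then [] else [v - 1]

/-- The orbit of a root. -/
def orb (r : ℕ) : List ℕ := [r, rhoP r]

/-- The list of relative roots of the commutator. -/
def Wr (r s : ℕ) : List ℕ :=
  let v := iot TwP (2 * (72 * r + s))
  let w := iot TwP (2 * (72 * r + s) + 1)
  if v = 0 then [] else if w = 0 then [v - 1] else [v - 1, w - 1]

/-- The terms of the commutator. -/
def Lr (r s : ℕ) : List ℕ := (Wr r s).flatMap orb

/-- Non proportional relative roots. -/
def okB (r s : ℕ) : Bool :=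
  decide (r < 72) && decide (s < 72) && decide (s ≠ r) && decide (s ≠ rhoP r) && decide (s ≠ negP r) &&
    decide (s ≠ negP (rhoP r))

/-- The role. -/
def roleB (r s : ℕ) : Bool := decide (rhoP r = r) || decide (rhoP s ≠ s)

/-- All ordered pairs. -/
def allP (f : ℕ → ℕ → Bool) : Bool := allBelow 72 fun r => allBelow 72 fun s => !(okB r s) || f r s

/-- The check for the commutator closure. -/
def chk1 (r s : ℕ) : Bool :=
  (orb r).all (fun a => (orb s).all fun b => decide (a < 72) && decide (b < 72) && decide (b ≠ a) && decide (b ≠ negP a) &&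
    (tmsP a b).all (fun p => (Lr r s).contains p)) &&
  (Lr r s).all (fun c => decide (c < 72) && (orb r ++ orb s).all fun a =>
    decide (c ≠ a) && decide (c ≠ negP a) && (tmsP a c).all (fun p => (Lr r s).contains p))

/-- The shape and the order of the relative roots. -/
def chk3 (r s : ℕ) : Bool :=
  (match Wr r s with
   | [] => (Wr s r).isEmpty
   | [c] => decide (c < 72) && roleB r s && okB r c && (Wr r c).isEmpty
   | [c, d] => decide (c < 72) && decide (d < 72) && decide (rhoP d = d) && decide (rhoP c ≠ c) && okB c d &&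
        (Wr c d).isEmpty && (tmsP c (rhoP c)).isEmpty && (tmsP c d).isEmpty && (tmsP (rhoP c) d).isEmpty && okB (rhoP c) d &&
        (!(roleB r s) || (okB r c && (Wr r c).isEmpty && okB r d && (Wr r d).isEmpty))
   | _ => false) &&
  (Wr s r).all (fun c => (Wr r s).contains c)

theorem chk1_all : allP chk1 = true := by decide +kernel
theorem chk3_all : allP chk3 = true := by decide +kernel

/-- The fundamental roots under the twist. -/
def barP : ℕ → ℕ := fun i => [5, 1, 4, 3, 2, 0].getD i 0

/-- The coroot coordinates. -/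
def corP (b i : ℕ) : ℤ := (iot TcrP (6 * b + i) : ℤ) - 3

/-- The Cartan integers. -/
def cartP (i s : ℕ) : ℤ := (iot TctP (72 * i + s) : ℤ) - 3

/-- The first character. -/
def mA (b s : ℕ) : ℤ := ((List.range 6).map fun i => corP b i * cartP i s).sum

/-- The second character. -/
def mB (b s : ℕ) : ℤ := ((List.range 6).map fun i => corP b (barP i) * cartP i s).sum

/-- Small nonzero vectors. -/
def smallP (m n : ℤ) : Bool := decide (-1 ≤ m) && decide (m ≤ 1) && decide (-1 ≤ n) && decide (n ≤ 1) && (decide (m ≠ 0) || decide (n ≠ 0))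

/-- The check for the separating torus elements. -/
def chk4 (r s : ℕ) : Bool :=
  let b := iot TfP (72 * r + s)
  decide (mA b s = 0) && decide (mB b s = 0) && decide (mA b (rhoP s) = 0) && decide (mB b (rhoP s) = 0) &&
    smallP (mA b r) (mB b r) && smallP (mA b (rhoP r)) (mB b (rhoP r))

theorem chk4_all : allP chk4 = true := by decide +kernel

end Cfsg.Agent.Lib.SchE6.Gx
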