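import Cfsg.Agent.Lib.SchE6.Gx2
import Cfsg.Agent.Lib.SchE6.Fam

/-!
The commutator relations between root subgroups of `²E₆(q)`: closure, independence, separating torus elements.
-/

set_option autoImplicit false
set_option linter.unusedSectionVars false
set_option linter.unusedVariables false
set_option linter.ambiguousOpen false
set_option linter.dupNamespace false
set_option linter.unusedSimpArgs false

namespace Cfsg.Agent.Lib.SchE6.Gx

open scoped MatrixGroups Matrix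
open Cfsg Lie ChevalleyDatum
open Cfsg.Agent.Lib.Chev
open Tables Tables2 Tables3 Raise Basic AxBasic Torus Products Products2 Mono1 Mono2 Mono3 Bn ChevSimple Diag
open Cfsg.Agent.Lib.Twisted.Fact Cfsg.Agent.Lib.Twisted.Bruhat Cfsg.Agent.Lib.Twisted.Tw
open Cfsg.Agent.Lib.Twisted.Struct Cfsg.Agent.Lib.Twisted.Check Cfsg.Agent.Lib.Twisted.Ortho
open Cfsg.Agent.Lib.GraphAut.Basic Cfsg.Agent.S1081
open Cfsg.Agent.Lib.Twisted.E6 Cfsg.Agent.Lib.Twisted.E6H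

/-! ### Bridges -/

theorem br_tab : ∀ r : Fin 72, Se.ρ r = rhoP r ∧ chevE6.neg r = negP r := by decide +kernel

/-- The terms of the commutators. -/
def chkTm : Bool := allBelow 72 fun a => allBelow 72 fun b => decide ((chevE6.commTerms a b).map (fun c => c.1) = tmsP a b)

theorem chkTm_all : chkTm = true := by decide +kernel

theorem br_cart : ∀ (i : Fin 6) (s : Fin 72), chevE6.cartan i s = cartP i s := by decide +kernel

/-- The symmetry of the condition. -/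
theorem ok_symm_all : allP (fun r s => okB s r) = true := by decide +kernel

lemma rho_eq {r : ℕ} (hr : r < 72) : Se.ρ r = rhoP r := (br_tab ⟨r, hr⟩).1
lemma neg_eq {r : ℕ} (hr : r < 72) : chevE6.neg r = negP r := (br_tab ⟨r, hr⟩).2
lemma tm_eq {a b : ℕ} (ha : a < 72) (hb : b < 72) : (chevE6.commTerms a b).map (fun c => c.1) = tmsP a b :=
  of_decide_eq_true (allBelow_spec (allBelow_spec chkTm_all a ha) b hb)

lemma ok_spec {r s : ℕ} (h : okB r s = true) :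
    r < 72 ∧ s < 72 ∧ s ≠ r ∧ s ≠ rhoP r ∧ s ≠ negP r ∧ s ≠ negP (rhoP r) := by
  simpa [okB, and_assoc] using h

lemma allP_spec {f : ℕ → ℕ → Bool} (h : allP f = true) {r s : ℕ} (hok : okB r s = true) : f r s = true := by
  have h1 := allBelow_spec (allBelow_spec h r (ok_spec hok).1) s (ok_spec hok).2.1
  simpa [hok] using h1

lemma ok_symm {r s : ℕ} (hok : okB r s = true) : okB s r = true := allP_spec ok_symm_all hok

lemma rho_lt {r : ℕ} (hr : r < 72) : rhoP r < 72 := by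
  rw [← rho_eq hr]
  exact (tab_rho ⟨r, hr⟩).1

lemma rho_rho {r : ℕ} (hr : r < 72) : rhoP (rhoP r) = r := by
  rw [← rho_eq hr, ← rho_eq (by rw [rho_eq hr]; exact rho_lt hr)]
  exact (tab_rho ⟨r, hr⟩).2.1

variable {K : Type*} [Field K] {q : ℕ} (φ : K ≃+* K) (hφ : ∀ t, φ t = t ^ q) (hφ2 : ∀ t, φ (φ t) = t) (ax : Ax chevE6 K)

lemma letter_mem {a b : ℕ} (ha : a < 72) (hb : b < 72) {t u : K} {p : ℕ × K} (hp : p ∈ chevE6.commWord K a b t u) :
    p.1 ∈ tmsP a b := by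
  rw [← tm_eq ha hb]
  simp only [commWord, List.mem_map] at hp
  obtain ⟨c, hc, rfl⟩ := hp
  exact List.mem_map.mpr ⟨c, hc, rfl⟩

/-! ### The commutator closure -/

lemma nor_clos {P : ℕ → Prop} {a : ℕ} (ha : a < 72)
    (hP : ∀ c, P c → c < 72 ∧ c ≠ a ∧ c ≠ negP a ∧ ∀ p ∈ tmsP a c, P p) (t : K) (g : GL chevE6.Idx K)
    (hg : g ∈ rootClosure ax P) : xG ax a t * g * (xG ax a t)⁻¹ ∈ rootClosure ax P := by
  rw [rootClosure] at hg
  induction hg using Subgroup.closure_induction with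
  | mem x hx =>
    obtain ⟨c, u, hc, rfl⟩ := hx
    obtain ⟨h1, h2, h3, h4⟩ := hP c hc
    have e := xG_comm ax ha h1 h2 (by rw [neg_eq ha]; exact h3) (-t) u
    have e2 : xG ax a t * xG ax c u * (xG ax a t)⁻¹ = xG ax c u * wordG ax (chevE6.commWord K a c (-t) u) := by
      calc xG ax a t * xG ax c u * (xG ax a t)⁻¹ = xG ax a t * (xG ax c u * xG ax a (-t)) := by rw [xG_inv, mul_assoc]
        _ = xG ax a t * (xG ax a (-t) * xG ax c u * wordG ax (chevE6.commWord K a c (-t) u)) := by rw [e]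
        _ = (xG ax a t * xG ax a (-t)) * xG ax c u * wordG ax (chevE6.commWord K a c (-t) u) := by group
        _ = _ := by rw [xG_add, add_neg_cancel, xG_zero, one_mul]
    rw [e2]
    exact Subgroup.mul_mem _ (xG_mem_rootClosure ax hc u)
      (wordG_mem_rootClosure ax fun p hp => h4 _ (letter_mem ha h1 hp))
  | one => simp [Subgroup.one_mem]
  | mul x y _ _ hx hy =>
    have : xG ax a t * (x * y) * (xG ax a t)⁻¹ = (xG ax a t * x * (xG ax a t)⁻¹) * (xG ax a t * y * (xG ax a t)⁻¹) := by group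
    rw [this]
    exact Subgroup.mul_mem _ hx hy
  | inv x _ hx =>
    have : xG ax a t * x⁻¹ * (xG ax a t)⁻¹ = (xG ax a t * x * (xG ax a t)⁻¹)⁻¹ := by group
    rw [this]
    exact Subgroup.inv_mem _ hx

lemma comm_four {G : Type*} [Group G] {R : Subgroup G} {a₁ a₂ b₁ b₂ : G}
    (na₁ : ∀ h ∈ R, a₁ * h * a₁⁻¹ ∈ R) (nb₁ : ∀ h ∈ R, b₁ * h * b₁⁻¹ ∈ R)
    (h11 : a₁ * b₁ * a₁⁻¹ * b₁⁻¹ ∈ R) (h12 : a₁ * b₂ * a₁⁻¹ * b₂⁻¹ ∈ R) (h21 : a₂ * b₁ * a₂⁻¹ * b₁⁻¹ ∈ R)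
    (h22 : a₂ * b₂ * a₂⁻¹ * b₂⁻¹ ∈ R) :
    (a₁ * a₂) * (b₁ * b₂) * (a₁ * a₂)⁻¹ * (b₁ * b₂)⁻¹ ∈ R := by
  have k : ∀ a, a * b₁ * a⁻¹ * b₁⁻¹ ∈ R → a * b₂ * a⁻¹ * b₂⁻¹ ∈ R → a * (b₁ * b₂) * a⁻¹ * (b₁ * b₂)⁻¹ ∈ R := by
    intro a h1 h2
    have e : a * (b₁ * b₂) * a⁻¹ * (b₁ * b₂)⁻¹ = (a * b₁ * a⁻¹ * b₁⁻¹) * (b₁ * (a * b₂ * a⁻¹ * b₂⁻¹) * b₁⁻¹) := by group
    rw [e]
    exact R.mul_mem h1 (nb₁ _ h2)
  have e : (a₁ * a₂) * (b₁ * b₂) * (a₁ * a₂)⁻¹ * (b₁ * b₂)⁻¹ =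
      (a₁ * (a₂ * (b₁ * b₂) * a₂⁻¹ * (b₁ * b₂)⁻¹) * a₁⁻¹) * (a₁ * (b₁ * b₂) * a₁⁻¹ * (b₁ * b₂)⁻¹) := by group
  rw [e]
  exact R.mul_mem (na₁ _ (k _ h21 h22)) (k _ h11 h12)

lemma xt_form (r : ℕ) (hr : r < 72) (t : K) : ∃ t', xt φ ax r t = xG ax r t * xG ax (rhoP r) t' := by
  by_cases h : Se.ρ r = r
  · exact ⟨0, by rw [xt_fix φ ax h]; simp⟩
  · exact ⟨_, by rw [xt_pair φ ax h, rho_eq hr]⟩

lemma chk1_dec {r s : ℕ} (hok : okB r s = true) :
    (∀ a ∈ orb r, ∀ b ∈ orb s, a < 72 ∧ b < 72 ∧ b ≠ a ∧ b ≠ negP a ∧ ∀ p ∈ tmsP a b, p ∈ Lr r s) ∧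
    (∀ c ∈ Lr r s, c < 72 ∧ ∀ a ∈ orb r ++ orb s, c ≠ a ∧ c ≠ negP a ∧ ∀ p ∈ tmsP a c, p ∈ Lr r s) := by
  have h := allP_spec chk1_all hok
  simp only [chk1, Bool.and_eq_true, List.all_eq_true, decide_eq_true_eq, List.contains_iff_mem, and_assoc] at h
  exact h

/-- The commutator of root subgroups lies in the closure of the terms. -/
theorem comm_Xr {r s : ℕ} (hok : okB r s = true) {x y : GL chevE6.Idx K} (hx : x ∈ Xr φ ax r) (hy : y ∈ Xr φ ax s) :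
    x * y * x⁻¹ * y⁻¹ ∈ rootClosure ax (· ∈ Lr r s) := by
  obtain ⟨hA, hB⟩ := chk1_dec hok
  obtain ⟨hr, hs, -⟩ := ok_spec hok
  have nP : ∀ a ∈ orb r ++ orb s, a < 72 → ∀ (t : K) (h : GL chevE6.Idx K), h ∈ rootClosure ax (· ∈ Lr r s) →
      xG ax a t * h * (xG ax a t)⁻¹ ∈ rootClosure ax (· ∈ Lr r s) := by
    intro a ha ha' t h hh
    refine nor_clos ax ha' (fun c hc => ?_) t h hh
    obtain ⟨h1, h2⟩ := hB c hc
    obtain ⟨h3, h4, h5⟩ := h2 a ha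
    exact ⟨h1, h3, h4, h5⟩
  have gen : ∀ a ∈ orb r, ∀ b ∈ orb s, ∀ t u : K,
      xG ax a t * xG ax b u * (xG ax a t)⁻¹ * (xG ax b u)⁻¹ ∈ rootClosure ax (· ∈ Lr r s) := by
    intro a ha b hb t u
    obtain ⟨h1, h2, h3, h4, h5⟩ := hA a ha b hb
    have e := xG_comm ax h1 h2 h3 (by rw [neg_eq h1]; exact h4) t u
    set W := wordG ax (chevE6.commWord K a b t u) with hW
    have hWm : W ∈ rootClosure ax (· ∈ Lr r s) := wordG_mem_rootClosure ax fun p hp => h5 _ (letter_mem h1 h2 hp)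
    have e1 : xG ax a t * xG ax b u = xG ax b u * xG ax a t * W⁻¹ := by rw [e]; group
    have e2 : xG ax a t * xG ax b u * (xG ax a t)⁻¹ * (xG ax b u)⁻¹ =
        xG ax b u * (xG ax a t * W⁻¹ * (xG ax a t)⁻¹) * (xG ax b u)⁻¹ := by rw [e1]; group
    rw [e2]
    exact nP b (List.mem_append_right _ hb) h2 _ _ (nP a (List.mem_append_left _ ha) h1 _ _ (Subgroup.inv_mem _ hWm))
  obtain ⟨t, -, rfl⟩ := (mem_Xr φ ax hr).mp hx
  obtain ⟨u, -, rfl⟩ := (mem_Xr φ ax hs).mp hy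
  obtain ⟨t', e1⟩ := xt_form φ ax r hr t
  obtain ⟨u', e2⟩ := xt_form φ ax s hs u
  rw [e1, e2]
  have mr : r ∈ orb r := by simp [orb]
  have mr' : rhoP r ∈ orb r := by simp [orb]
  have ms : s ∈ orb s := by simp [orb]
  have ms' : rhoP s ∈ orb s := by simp [orb]
  exact comm_four (fun h hh => nP r (List.mem_append_left _ mr) hr _ _ hh) (fun h hh => nP s (List.mem_append_right _ ms) hs _ _ hh)
    (gen _ mr _ ms _ _) (gen _ mr _ ms' _ _) (gen _ mr' _ ms _ _) (gen _ mr' _ ms' _ _)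

/-! ### Independence -/

lemma two_eq {c d : ℕ} (hc : c < 72) (hd : d < 72) (hcd : c ≠ d) {a b a' b' : K}
    (e : xG ax c a * xG ax d b = xG ax c a' * xG ax d b') : a = a' ∧ b = b' := by
  have e1 : xG ax c (-a' + a) = xG ax d (b' + -b) := by
    rw [← xG_add, ← xG_add, ← xG_inv, ← xG_inv]
    have : xG ax c a = xG ax c a' * xG ax d b' * (xG ax d b)⁻¹ := by rw [← e]; group
    rw [this]
    group
  by_cases h : -a' + a = 0
  · rw [h, xG_zero] at e1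
    have e2 : xG ax d (0 : K) = xG ax d (b' + -b) := by rw [xG_zero]; exact e1
    have e3 := xG_inj hE hE2 ax hd e2
    constructor
    · linear_combination h
    · linear_combination e3
  · exact absurd (xG_eq_iff ax hE hE2 hc hd h e1).1 hcd

lemma xt_inj {r : ℕ} (hr : r < 72) {t u : K} (e : xt φ ax r t = xt φ ax r u) : t = u := by
  by_cases h : Se.ρ r = r
  · rw [xt_fix φ ax h, xt_fix φ ax h] at e
    exact xG_inj hE hE2 ax hr e
  · rw [xt_pair φ ax h, xt_pair φ ax h] at e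
    exact (two_eq ax hr (tab_rho ⟨r, hr⟩).1 (fun e => h e.symm) e).1

lemma fix_single {c : ℕ} (hc : c < 72) (h : Se.ρ c = c) {a : K} (hf : xG ax c a ∈ (twE φ ax).Fx) : Par φ c a := by
  have h1 : (twE φ ax).s (xG ax c a) = xG ax c a := hf.2
  rw [s_xG φ ax hc, h, gam_fix hc h, one_mul] at h1
  exact fun _ => xG_inj hE hE2 ax hc h1

lemma fix_pair {c : ℕ} (hc : c < 72) (h : Se.ρ c ≠ c) {a b : K} (hf : xG ax c a * xG ax (Se.ρ c) b ∈ (twE φ ax).Fx) :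
    xG ax c a * xG ax (Se.ρ c) b = xt φ ax c a := by
  have hc' := (tab_rho ⟨c, hc⟩).1
  have h2 := (tab_rho ⟨c, hc⟩).2.1
  simp only at hc' h2
  have h1 : (twE φ ax).s (xG ax c a * xG ax (Se.ρ c) b) = xG ax c a * xG ax (Se.ρ c) b := hf.2
  rw [(twE φ ax).s_mul _ (mem_group ax hc _) _ (mem_group ax hc' _), s_xG φ ax hc, s_xG φ ax hc', h2, gam_rho hc,
    ← comm_rho ax hc h] at h1
  have := (two_eq ax hc hc' (fun e => h e.symm) h1).2
  rw [xt_pair φ ax h, ← this]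

/-! ### Separating torus elements -/

/-- The parameters of a separating torus element. -/
noncomputable def cSep (τ : Kˣ) (b : ℕ) : ℕ → Kˣ := fun i => τ ^ corP b i * (φu φ τ) ^ corP b (barP i)

lemma prod6 {G : Type*} [CommGroup G] (u v : G) (a b c : ℕ → ℤ) :
    ∏ i ∈ Finset.range 6, (u ^ a i * v ^ b i) ^ c i =
      u ^ ((List.range 6).map fun i => a i * c i).sum * v ^ ((List.range 6).map fun i => b i * c i).sum := by
  have e : List.range 6 = [0, 1, 2, 3, 4, 5] := rfl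
  rw [e]
  simp only [List.map_cons, List.map_nil, List.sum_cons, List.sum_nil, add_zero, zpow_add, mul_zpow, zpow_mul,
    Finset.prod_range_succ, Finset.prod_range_zero, one_mul]
  ac_rfl

lemma chi_sep (τ : Kˣ) (b : ℕ) {s : ℕ} (hs : s < 72) :
    chi chevE6 (psi chevE6 (cSep φ τ b)) s = τ ^ mA b s * (φu φ τ) ^ mB b s := by
  rw [chi_psi hE hE2 _ hs]
  have e : ∀ i ∈ Finset.range chevE6.rank, (cSep φ τ b i) ^ chevE6.cartan i s =
      (τ ^ corP b i * (φu φ τ) ^ corP b (barP i)) ^ cartP i s := by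
    intro i hi
    have hi' : i < 6 := Finset.mem_range.mp hi
    rw [show chevE6.cartan i s = cartP i s from br_cart ⟨i, hi'⟩ ⟨s, hs⟩]
    rfl
  rw [Finset.prod_congr rfl e]
  exact prod6 τ (φu φ τ) (corP b) (fun i => corP b (barP i)) (fun i => cartP i s)

include hφ2 in
lemma cSep_sym (τ : Kˣ) (b : ℕ) {i : ℕ} (hi : barP (barP i) = i) : φu φ (cSep φ τ b i) = cSep φ τ b (barP i) := by
  have hφφ : φu φ (φu φ τ) = τ := Units.ext (hφ2 τ)
  simp only [cSep, map_mul, map_zpow, hφφ, hi]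
  exact mul_comm _ _

lemma small_ne {τ : Kˣ} (hq3 : 3 ≤ q) (hτ : orderOf τ = q ^ 2 - 1) (hφ : ∀ t, φ t = t ^ q) {m n : ℤ}
    (h : smallP m n = true) : τ ^ m * (φu φ τ) ^ n ≠ 1 := by
  have e : φu φ τ = τ ^ q := Units.ext (by rw [φu_coe, hφ, Units.val_pow_eq_pow_val])
  intro h1
  rw [e, ← zpow_natCast, ← zpow_mul, ← zpow_add] at h1
  have h2 := orderOf_dvd_iff_zpow_eq_one.mpr h1
  rw [hτ] at h2
  simp only [smallP, Bool.and_eq_true, Bool.or_eq_true, decide_eq_true_eq, and_assoc] at h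
  obtain ⟨h3, h4, h5, h6, h7⟩ := h
  have hQ : (3 : ℤ) ≤ q := by exact_mod_cast hq3
  have hcast : ((q ^ 2 - 1 : ℕ) : ℤ) = (q : ℤ) ^ 2 - 1 := by
    rw [Nat.cast_sub (Nat.one_le_pow _ _ (by omega))]
    simp
  rw [hcast] at h2
  set Q : ℤ := (q : ℤ)
  have hnz : m + Q * n ≠ 0 := by
    intro h0
    have hn : n = 0 := by
      by_contra hn
      have : n = 1 ∨ n = -1 := by omega
      rcases this with rfl | rfl <;> omega
    subst hn
    have hm : m = 0 := by simpa using h0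
    rcases h7 with h7 | h7
    · exact h7 hm
    · exact h7 rfl
  have hsm : |m + Q * n| < Q ^ 2 - 1 := by
    rw [abs_lt]
    have : n = 0 ∨ n = 1 ∨ n = -1 := by omega
    rcases this with rfl | rfl | rfl <;> constructor <;> nlinarith
  exact hnz (Int.eq_zero_of_abs_lt_dvd h2 hsm)

lemma chk4_dec {r s : ℕ} (hok : okB r s = true) :
    mA (iot TfP (72 * r + s)) s = 0 ∧ mB (iot TfP (72 * r + s)) s = 0 ∧ mA (iot TfP (72 * r + s)) (rhoP s) = 0 ∧
    mB (iot TfP (72 * r + s)) (rhoP s) = 0 ∧ smallP (mA (iot TfP (72 * r + s)) r) (mB (iot TfP (72 * r + s)) r) = true ∧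
    smallP (mA (iot TfP (72 * r + s)) (rhoP r)) (mB (iot TfP (72 * r + s)) (rhoP r)) = true := by
  have h := allP_spec chk4_all hok
  simp only [chk4, Bool.and_eq_true, decide_eq_true_eq, and_assoc] at h
  exact h

include hφ hφ2 ax in
/-- The separating torus elements. -/
theorem exists_sep {τ : Kˣ} (hτ : ∀ {m n : ℤ}, smallP m n = true → τ ^ m * (φu φ τ) ^ n ≠ 1) {r s : ℕ} (hok : okB r s = true) :
    ∃ y : ℕ → Kˣ, tor chevE6 y ∈ chevE6.diagonalSubgroup K ∧ tor chevE6 y ∈ twistedE6 K q ∧ chi chevE6 y s = 1 ∧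
      chi chevE6 y (rhoP s) = 1 ∧ chi chevE6 y r ≠ 1 ∧ chi chevE6 y (rhoP r) ≠ 1 := by
  obtain ⟨hr, hs, -⟩ := ok_spec hok
  obtain ⟨h1, h2, h3, h4, h5, h6⟩ := chk4_dec hok
  refine ⟨psi chevE6 (cSep φ τ (iot TfP (72 * r + s))), tor_psi_mem hE hE2 ax _, ?_, ?_, ?_, ?_, ?_⟩
  · apply mem_G1 φ hφ hφ2 ax
    · exact cSep_sym φ hφ2 τ _ (i := 0) (by decide)
    · exact cSep_sym φ hφ2 τ _ (i := 2) (by decide)
    · exact cSep_sym φ hφ2 τ _ (i := 1) (by decide)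
    · exact cSep_sym φ hφ2 τ _ (i := 3) (by decide)
  · rw [chi_sep φ τ _ hs, h1, h2]
    simp
  · rw [chi_sep φ τ _ (rho_lt hs), h3, h4]
    simp
  · rw [chi_sep φ τ _ hr]
    exact hτ h5
  · rw [chi_sep φ τ _ (rho_lt hr)]
    exact hτ h6

end Cfsg.Agent.Lib.SchE6.Gx
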