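import Cfsg.Agent.Lib.SchE6.Gx3

/-!
The exact form of the commutator relations between root subgroups of `²E₆(q)`.
-/

set_option autoImplicit false
set_option linter.unusedSectionVars false
set_option linter.unusedVariables false
set_option linter.ambiguousOpen false
set_option linter.dupNamespace false
set_option linter.unusedSimpArgs false

namespace Cfsg.Agent.Lib.SchE6.Gx

open scoped MatrixGroups Matrix
open Cfsg Lie ChevalleyDatum
open Cfsg.Agent.Lib.Chev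
open Tables Tables2 Tables3 Raise Basic AxBasic Torus Products Products2 Mono1 Mono2 Mono3 Bn ChevSimple Diag
open Cfsg.Agent.Lib.Twisted.Fact Cfsg.Agent.Lib.Twisted.Bruhat Cfsg.Agent.Lib.Twisted.Tw
open Cfsg.Agent.Lib.Twisted.Struct Cfsg.Agent.Lib.Twisted.Check Cfsg.Agent.Lib.Twisted.Ortho
open Cfsg.Agent.Lib.GraphAut.Basic Cfsg.Agent.S1081
open Cfsg.Agent.Lib.Twisted.E6 Cfsg.Agent.Lib.Twisted.E6H

/-- A packed table. -/
def TdP : ℕ := 44536886465302371596830237448529974308572414804327538317507619792375234468289993919524084470517758904521514519078071041343995456533329633797835594969227231590597624674123777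

/-- A packed table. -/
def TeP : ℕ := 67898408543476867694033494324152957589279163264913256328135034363958207310955727684570536198309337810201196434319251571598157546377670781823623960741933051617560448230960665

/-! ### The decoding of the shape table -/

lemma chk3_symm {r s c : ℕ} (hok : okB r s = true) (hc : c ∈ Wr s r) : c ∈ Wr r s := by
  have h := allP_spec chk3_all hok
  simp only [chk3, Bool.and_eq_true, List.all_eq_true, List.contains_iff_mem] at h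
  exact h.2 c hc

lemma chk3_nil {r s : ℕ} (hok : okB r s = true) (hW : Wr r s = []) : Wr s r = [] := by
  have h := allP_spec chk3_all hok
  simp only [chk3, hW, Bool.and_eq_true, List.all_eq_true, List.contains_iff_mem, List.isEmpty_iff] at h
  exact h.1

lemma chk3_one {r s c : ℕ} (hok : okB r s = true) (hW : Wr r s = [c]) :
    c < 72 ∧ roleB r s = true ∧ okB r c = true ∧ Wr r c = [] := by
  have h := allP_spec chk3_all hok
  simp only [chk3, hW, Bool.and_eq_true, List.all_eq_true, List.contains_iff_mem, List.isEmpty_iff, decide_eq_true_eq, and_assoc] at h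
  exact ⟨h.1, h.2.1, h.2.2.1, h.2.2.2.1⟩

lemma chk3_two {r s c d : ℕ} {l : List ℕ} (hok : okB r s = true) (hW : Wr r s = c :: d :: l) :
    l = [] ∧ c < 72 ∧ d < 72 ∧ rhoP d = d ∧ rhoP c ≠ c ∧ okB c d = true ∧ Wr c d = [] ∧ tmsP c (rhoP c) = [] ∧ tmsP c d = [] ∧
      tmsP (rhoP c) d = [] ∧ okB (rhoP c) d = true ∧
      (roleB r s = true → okB r c = true ∧ Wr r c = [] ∧ okB r d = true ∧ Wr r d = []) := by
  have h := allP_spec chk3_all hok
  rcases l with _ | ⟨e, l⟩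
  · simp only [chk3, hW, Bool.and_eq_true, List.all_eq_true, List.contains_iff_mem, List.isEmpty_iff, decide_eq_true_eq, and_assoc,
      Bool.or_eq_true, Bool.not_eq_true'] at h
    obtain ⟨h1, h2, h3, h4, h5, h6, h7, h8, h9, h10, h11, h12⟩ := h
    refine ⟨rfl, h1, h2, h3, h4, h5, h6, h7, h8, h9, h10, ?_⟩
    intro hr
    rcases h11 with h12' | h12'
    · rw [hr] at h12'
      exact absurd h12' (by simp)
    · exact h12'
  · simp [chk3, hW] at h

lemma commPair_rho {c : ℕ} (hc : c < 72) (h : Se.ρ c ≠ c) : CommPair chevE6 c (Se.ρ c) :=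
  (tab_rho ⟨c, hc⟩).2.2.2.2.2.1 h

lemma commPair_of {a b : ℕ} (ha : a < 72) (hb : b < 72) (h1 : b ≠ a) (h2 : b ≠ negP a) (h3 : tmsP a b = []) : CommPair chevE6 a b := by
  refine ⟨ha, hb, h1, by rw [neg_eq ha]; exact h2, ?_⟩
  have := tm_eq ha hb
  rw [h3] at this
  exact List.map_eq_nil_iff.mp this

variable {K : Type*} [Field K] {q : ℕ} (φ : K ≃+* K) (hφ : ∀ t, φ t = t ^ q) (hφ2 : ∀ t, φ (φ t) = t) (ax : Ax chevE6 K)

include hφ hφ2 in
lemma Xr_le_Fx (r : ℕ) : Xr φ ax r ≤ (twE φ ax).Fx := (Xr_le_G φ hφ hφ2 ax r).trans (G1_le φ hφ hφ2 ax)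

/-! ### Independence of three roots -/

section Three

variable {τ : Kˣ} (hτ : ∀ {m n : ℤ}, smallP m n = true → τ ^ m * (φu φ τ) ^ n ≠ 1)

include hφ hφ2 hτ

lemma triple_zero {c d : ℕ} (hok : okB c d = true) (hρ : Se.ρ c ≠ c) {a b e : K}
    (h : xG ax c a * xG ax (Se.ρ c) b * xG ax d e = 1) : a = 0 ∧ b = 0 ∧ e = 0 := by
  obtain ⟨hc, hd, -⟩ := ok_spec hok
  have hc' : Se.ρ c < 72 := (tab_rho ⟨c, hc⟩).1
  obtain ⟨y, -, -, h1, -, h3, h4⟩ := exists_sep φ hφ hφ2 ax hτ hok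
  rw [← rho_eq hc] at h4
  have e1 : tor chevE6 y * (xG ax c a * xG ax (Se.ρ c) b * xG ax d e) * (tor chevE6 y)⁻¹ = 1 := by
    rw [h]; group
  have e2 : tor chevE6 y * (xG ax c a * xG ax (Se.ρ c) b * xG ax d e) * (tor chevE6 y)⁻¹ =
      (tor chevE6 y * xG ax c a * (tor chevE6 y)⁻¹) * (tor chevE6 y * xG ax (Se.ρ c) b * (tor chevE6 y)⁻¹) *
      (tor chevE6 y * xG ax d e * (tor chevE6 y)⁻¹) := by group
  rw [e2, tor_conj_xG ax hE y hc, tor_conj_xG ax hE y hc', tor_conj_xG ax hE y hd, h1] at e1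
  simp only [Units.val_one, one_mul] at e1
  have e3 : xG ax c ((chi chevE6 y c : Kˣ) * a) * xG ax (Se.ρ c) ((chi chevE6 y (Se.ρ c) : Kˣ) * b) = xG ax c a * xG ax (Se.ρ c) b := by
    have := e1.trans h.symm
    exact mul_right_cancel this
  obtain ⟨k1, k2⟩ := two_eq ax hc hc' (fun e => hρ e.symm) e3
  have fz : ∀ (u : Kˣ) (v : K), u ≠ 1 → (u : K) * v = v → v = 0 := by
    intro u v hu hv
    have : ((u : K) - 1) * v = 0 := by rw [sub_mul, hv, one_mul, sub_self]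
    rcases mul_eq_zero.mp this with h0 | h0
    · exact absurd (Units.ext (by simpa using sub_eq_zero.mp h0)) hu
    · exact h0
  have ha := fz _ _ h3 k1
  have hb := fz _ _ h4 k2
  subst ha hb
  simp only [xG_zero, one_mul] at h
  refine ⟨rfl, rfl, ?_⟩
  have : xG ax d e = xG ax d (0 : K) := by rw [h, xG_zero]
  exact xG_inj hE hE2 ax hd this

lemma triple_eq {c d : ℕ} (hok : okB c d = true) (hρ : Se.ρ c ≠ c) (H1 : CommPair chevE6 c (Se.ρ c)) (H2 : CommPair chevE6 c d)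
    (H3 : CommPair chevE6 (Se.ρ c) d) {a b e a' b' e' : K}
    (h : xG ax c a * xG ax (Se.ρ c) b * xG ax d e = xG ax c a' * xG ax (Se.ρ c) b' * xG ax d e') : a = a' ∧ b = b' ∧ e = e' := by
  have T : ∀ x y z x' y' z' : K, xG ax c x * xG ax (Se.ρ c) y * xG ax d z * (xG ax c x' * xG ax (Se.ρ c) y' * xG ax d z') =
      xG ax c (x + x') * xG ax (Se.ρ c) (y + y') * xG ax d (z + z') := by
    intro x y z x' y' z'
    rw [← xG_add, ← xG_add, ← xG_add]
    have e1 := H1.comm ax x' y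
    have e2 := H2.comm ax x' z
    have e3 := H3.comm ax y' z
    calc xG ax c x * xG ax (Se.ρ c) y * xG ax d z * (xG ax c x' * xG ax (Se.ρ c) y' * xG ax d z')
        = xG ax c x * xG ax (Se.ρ c) y * (xG ax d z * xG ax c x') * xG ax (Se.ρ c) y' * xG ax d z' := by group
      _ = xG ax c x * xG ax (Se.ρ c) y * (xG ax c x' * xG ax d z) * xG ax (Se.ρ c) y' * xG ax d z' := by rw [e2]
      _ = xG ax c x * (xG ax (Se.ρ c) y * xG ax c x') * (xG ax d z * xG ax (Se.ρ c) y') * xG ax d z' := by group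
      _ = xG ax c x * (xG ax c x' * xG ax (Se.ρ c) y) * (xG ax (Se.ρ c) y' * xG ax d z) * xG ax d z' := by rw [e1, e3]
      _ = _ := by group
  have h1 := T a b e (-a') (-b') (-e')
  rw [h, T, add_neg_cancel, add_neg_cancel, add_neg_cancel] at h1
  simp only [xG_zero, mul_one] at h1
  obtain ⟨k1, k2, k3⟩ := triple_zero φ hφ hφ2 ax hτ hok hρ h1.symm
  exact ⟨by linear_combination k1, by linear_combination k2, by linear_combination k3⟩

lemma fix_triple {c d : ℕ} (hok : okB c d = true) (hρ : Se.ρ c ≠ c) (hd' : Se.ρ d = d) (H1 : CommPair chevE6 c (Se.ρ c))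
    (H2 : CommPair chevE6 c d) (H3 : CommPair chevE6 (Se.ρ c) d) {a b e : K}
    (hf : xG ax c a * xG ax (Se.ρ c) b * xG ax d e ∈ (twE φ ax).Fx) :
    xG ax c a * xG ax (Se.ρ c) b * xG ax d e = xt φ ax c a * xt φ ax d e ∧ Par φ d e := by
  obtain ⟨hc, hd, -⟩ := ok_spec hok
  have hc' : Se.ρ c < 72 := (tab_rho ⟨c, hc⟩).1
  have h2 := (tab_rho ⟨c, hc⟩).2.1
  simp only at h2
  have h1 : (twE φ ax).s (xG ax c a * xG ax (Se.ρ c) b * xG ax d e) = xG ax c a * xG ax (Se.ρ c) b * xG ax d e := hf.2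
  rw [(twE φ ax).s_mul _ (Subgroup.mul_mem _ (mem_group ax hc _) (mem_group ax hc' _)) _ (mem_group ax hd _),
    (twE φ ax).s_mul _ (mem_group ax hc _) _ (mem_group ax hc' _), s_xG φ ax hc, s_xG φ ax hc', s_xG φ ax hd, h2, gam_rho hc, hd',
    gam_fix hd hd', one_mul, ← comm_rho ax hc hρ] at h1
  obtain ⟨k1, k2, k3⟩ := triple_eq φ hφ hφ2 ax hτ hok hρ H1 H2 H3 h1
  constructor
  · rw [xt_pair φ ax hρ, xt_fix φ ax hd', ← k2]
  · intro _
    exact k3

end Three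

/-! ### The fixed points of the closure of the terms -/

lemma fix_nil {r s : ℕ} (hW : Wr r s = []) {g : GL chevE6.Idx K} (hg : g ∈ rootClosure ax (· ∈ Lr r s)) : g = 1 := by
  have : rootClosure ax (· ∈ Lr r s) ≤ ⊥ := by
    apply rootClosure_le
    intro c t hc
    simp [Lr, hW] at hc
  simpa using this hg

lemma fix_one {r s c : ℕ} (hok : okB r s = true) (hW : Wr r s = [c]) {g : GL chevE6.Idx K} (hg : g ∈ rootClosure ax (· ∈ Lr r s))
    (hf : g ∈ (twE φ ax).Fx) : g ∈ Xr φ ax c := by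
  obtain ⟨hc, -⟩ := chk3_one hok hW
  have hL : Lr r s = [c, rhoP c] := by simp [Lr, hW, orb]
  rw [hL] at hg
  rw [mem_Xr φ ax hc]
  by_cases h : Se.ρ c = c
  · have h1 : rootClosure ax (· ∈ [c, rhoP c]) ≤ rootClosure ax (fun r => r = c) := by
      apply rootClosure_mono
      intro x hx
      rw [← rho_eq hc, h] at hx
      simpa using hx
    obtain ⟨x, rfl⟩ := exists_single hE ax (h1 hg)
    exact ⟨x, fix_single φ ax hc h hf, (xt_fix φ ax h x).symm⟩
  · have h1 : rootClosure ax (· ∈ [c, rhoP c]) ≤ rootClosure ax (fun r => r = c ∨ r = Se.ρ c) := by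
      apply rootClosure_mono
      intro x hx
      rw [← rho_eq hc] at hx
      simpa using hx
    obtain ⟨x, y, rfl⟩ := exists_pair ax (commPair_rho hc h) (h1 hg)
    exact ⟨x, fun e => absurd e h, fix_pair φ ax hc h hf⟩

section Two

variable {τ : Kˣ} (hτ : ∀ {m n : ℤ}, smallP m n = true → τ ^ m * (φu φ τ) ^ n ≠ 1)

include hφ hφ2 hτ

lemma fix_two {r s c d : ℕ} {l : List ℕ} (hok : okB r s = true) (hW : Wr r s = c :: d :: l) {g : GL chevE6.Idx K}
    (hg : g ∈ rootClosure ax (· ∈ Lr r s)) (hf : g ∈ (twE φ ax).Fx) : ∃ u ∈ Xr φ ax c, ∃ v ∈ Xr φ ax d, g = u * v := by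
  obtain ⟨rfl, hc, hd, hdd, hcc, okcd, -, -, t1, t2, ok2, -⟩ := chk3_two hok hW
  have hρ : Se.ρ c ≠ c := by rw [rho_eq hc]; exact hcc
  have hd' : Se.ρ d = d := by rw [rho_eq hd]; exact hdd
  have hL : Lr r s = [c, rhoP c, d, rhoP d] := by simp [Lr, hW, orb]
  rw [hL] at hg
  have h1 : rootClosure ax (· ∈ [c, rhoP c, d, rhoP d]) ≤ rootClosure ax (fun r => r = c ∨ r = Se.ρ c ∨ r = d) := by
    apply rootClosure_mono
    intro x hx
    rw [hdd, ← rho_eq hc] at hx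
    simpa using hx
  have H1 := commPair_rho hc hρ
  obtain ⟨-, -, n1, -, n2, n3⟩ := ok_spec okcd
  obtain ⟨-, -, n4, -, n5, n6⟩ := ok_spec ok2
  have H2 : CommPair chevE6 c d := commPair_of hc hd n1 n2 t1
  have H3 : CommPair chevE6 (Se.ρ c) d := by
    rw [rho_eq hc]
    exact commPair_of (rho_lt hc) hd n4 n5 t2
  obtain ⟨x, y, z, rfl⟩ := exists_triple ax H1 H2 H3 (h1 hg)
  obtain ⟨e1, e2⟩ := fix_triple φ hφ hφ2 ax hτ okcd hρ hd' H1 H2 H3 hf
  refine ⟨xt φ ax c x, (mem_Xr φ ax hc).mpr ⟨x, fun e => absurd e hρ, rfl⟩, xt φ ax d z, (mem_Xr φ ax hd).mpr ⟨z, e2, rfl⟩, e1⟩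

/-- Two relative roots in a commutator are independent. -/
lemma inf_two {c d : ℕ} (okcd : okB c d = true) (hcc : rhoP c ≠ c) (hdd : rhoP d = d) (t1 : tmsP c d = []) (t2 : tmsP (rhoP c) d = [])
    (ok2 : okB (rhoP c) d = true) : Xr φ ax c ⊓ Xr φ ax d = ⊥ := by
  obtain ⟨hc, hd, n1, -, n2, n3⟩ := ok_spec okcd
  obtain ⟨-, -, n4, -, n5, n6⟩ := ok_spec ok2
  have hρ : Se.ρ c ≠ c := by rw [rho_eq hc]; exact hcc
  have hd' : Se.ρ d = d := by rw [rho_eq hd]; exact hdd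
  rw [eq_bot_iff]
  rintro g ⟨h1, h2⟩
  obtain ⟨t, -, rfl⟩ := (mem_Xr φ ax hc).mp h1
  obtain ⟨u, -, e⟩ := (mem_Xr φ ax hd).mp h2
  rw [xt_pair φ ax hρ, xt_fix φ ax hd'] at e
  have e2 : xG ax c t * xG ax (Se.ρ c) (gam K c * φ t) * xG ax d (-u) = 1 := by
    rw [e, ← xG_inv]
    group
  obtain ⟨k, -, -⟩ := triple_zero φ hφ hφ2 ax hτ okcd hρ e2
  rw [Subgroup.mem_bot, xt_pair φ ax hρ, k]
  simp

end Two

/-! ### The commutators -/

include hφ hφ2

lemma comm_nil {r s : ℕ} (hok : okB r s = true) (hW : Wr r s = []) {x y : GL chevE6.Idx K} (hx : x ∈ Xr φ ax r) (hy : y ∈ Xr φ ax s) :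
    x * y = y * x := by
  have := fix_nil ax hW (comm_Xr φ ax hok hx hy)
  have h2 : x * y * x⁻¹ = y := mul_inv_eq_one.mp this
  exact mul_inv_eq_iff_eq_mul.mp h2

lemma comm_Fx {r s : ℕ} {x y : GL chevE6.Idx K} (hx : x ∈ Xr φ ax r) (hy : y ∈ Xr φ ax s) :
    x * y * x⁻¹ * y⁻¹ ∈ (twE φ ax).Fx := by
  have h1 := Xr_le_Fx φ hφ hφ2 ax r hx
  have h2 := Xr_le_Fx φ hφ hφ2 ax s hy
  exact Subgroup.mul_mem _ (Subgroup.mul_mem _ (Subgroup.mul_mem _ h1 h2) (Subgroup.inv_mem _ h1)) (Subgroup.inv_mem _ h2)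

lemma comm_one {r s c : ℕ} (hok : okB r s = true) (hW : Wr r s = [c]) {x y : GL chevE6.Idx K} (hx : x ∈ Xr φ ax r)
    (hy : y ∈ Xr φ ax s) : x * y * x⁻¹ * y⁻¹ ∈ Xr φ ax c :=
  fix_one φ ax hok hW (comm_Xr φ ax hok hx hy) (comm_Fx φ hφ hφ2 ax hx hy)

lemma comm_two {τ : Kˣ} (hτ : ∀ {m n : ℤ}, smallP m n = true → τ ^ m * (φu φ τ) ^ n ≠ 1) {r s c d : ℕ} {l : List ℕ}
    (hok : okB r s = true) (hW : Wr r s = c :: d :: l) {x y : GL chevE6.Idx K} (hx : x ∈ Xr φ ax r)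
    (hy : y ∈ Xr φ ax s) : ∃ u ∈ Xr φ ax c, ∃ v ∈ Xr φ ax d, x * y * x⁻¹ * y⁻¹ = u * v :=
  fix_two φ hφ hφ2 ax hτ hok hW (comm_Xr φ ax hok hx hy) (comm_Fx φ hφ hφ2 ax hx hy)

lemma tor_xt {y : ℕ → Kˣ} (hy : tor chevE6 y ∈ twistedE6 K q) {r : ℕ} (hr : r < 72) {t : K} (ht : Par φ r t) :
    tor chevE6 y * xt φ ax r t * (tor chevE6 y)⁻¹ = xt φ ax r ((chi chevE6 y r : Kˣ) * t) :=
  (conj_xt φ ax (G1_le φ hφ hφ2 ax hy) (isNor_tor hE ax y) hr ht).1

include ax in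
lemma tor_par {y : ℕ → Kˣ} (hy : tor chevE6 y ∈ twistedE6 K q) {r : ℕ} (hr : r < 72) {t : K} (ht : Par φ r t) :
    Par φ r ((chi chevE6 y r : Kˣ) * t) :=
  (conj_xt φ ax (G1_le φ hφ hφ2 ax hy) (isNor_tor hE ax y) hr ht).2

/-- The action of a separating torus element. -/
theorem fpf_Xr {τ : Kˣ} (hτ : ∀ {m n : ℤ}, smallP m n = true → τ ^ m * (φu φ τ) ^ n ≠ 1) {r s : ℕ} (hok : okB r s = true) :
    ∃ h ∈ chevE6.diagonalSubgroup K ⊓ twistedE6 K q, (∀ y ∈ Xr φ ax s, h * y * h⁻¹ = y) ∧ (∀ x ∈ Xr φ ax r, h * x * h⁻¹ = x → x = 1) := by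
  obtain ⟨hr, hs, -⟩ := ok_spec hok
  obtain ⟨y, h1, h2, h3, -, h5, -⟩ := exists_sep φ hφ hφ2 ax hτ hok
  refine ⟨tor chevE6 y, ⟨h1, h2⟩, ?_, ?_⟩
  · intro g hg
    obtain ⟨t, ht, rfl⟩ := (mem_Xr φ ax hs).mp hg
    rw [tor_xt φ hφ hφ2 ax h2 hs ht, h3]
    simp
  · intro g hg e
    obtain ⟨t, ht, rfl⟩ := (mem_Xr φ ax hr).mp hg
    rw [tor_xt φ hφ hφ2 ax h2 hr ht] at e
    have e2 := xt_inj φ ax hr e
    have : ((chi chevE6 y r : Kˣ) - 1 : K) * t = 0 := by rw [sub_mul, e2, one_mul, sub_self]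
    rcases mul_eq_zero.mp this with h0 | h0
    · exact absurd (Units.ext (by simpa using sub_eq_zero.mp h0)) h5
    · rw [h0, xt_zero]

omit hφ hφ2

/-! ### The generation of the root subgroups by commutators -/

/-- The shape of a commutator. -/
def tm1 (a b p : ℕ) : Bool :=
  match chevE6.commTerms a b with
  | [(p', c, i, j)] => decide (p' = p) && decide (i = 1) && decide (j = 1) && (decide (c = 1) || decide (c = -1))
  | _ => false

lemma tm1_spec {a b p : ℕ} (h : tm1 a b p = true) : ∃ c : ℤ, chevE6.commTerms a b = [(p, c, 1, 1)] ∧ (c = 1 ∨ c = -1) := by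
  unfold tm1 at h
  rcases hh : chevE6.commTerms a b with _ | ⟨⟨p', c, i, j⟩, _ | ⟨x, l⟩⟩
  · rw [hh] at h
    simp at h
  · rw [hh] at h
    simp only [Bool.and_eq_true, decide_eq_true_eq, Bool.or_eq_true] at h
    obtain ⟨⟨⟨rfl, rfl⟩, rfl⟩, h4⟩ := h
    exact ⟨c, rfl, h4⟩
  · rw [hh] at h
    simp at h

/-- Two commuting roots. -/
def cpB (a b : ℕ) : Bool := decide (CommPair chevE6 a b)

/-- The table for the generation by commutators. -/
def chk5 (r : ℕ) : Bool :=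
  let d := iot TdP r
  let e := iot TeP r
  okB r d && okB r e && (Wr r d).isEmpty && (Wr r e).isEmpty && decide (e ≠ d) && decide (e ≠ negP d) && decide (d < 72) && decide (e < 72) &&
  tm1 d e r && cpB r d && cpB r e &&
  (if rhoP r = r then decide (rhoP d = d) && decide (rhoP e = e) else
    decide (rhoP d ≠ d) && decide (rhoP e ≠ e) && tm1 (rhoP d) (rhoP e) (rhoP r) && cpB d (rhoP e) && cpB (rhoP d) e &&
      cpB r (rhoP d) && cpB r (rhoP e) && cpB (rhoP r) d && cpB (rhoP r) e && cpB (rhoP r) (rhoP d) && cpB (rhoP r) (rhoP e) &&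
      decide (rhoP e ≠ rhoP d) && decide (rhoP e ≠ negP (rhoP d)))

theorem chk5_all : allBelow 72 chk5 = true := by decide +kernel

lemma chk5_dec {r : ℕ} (hr : r < 72) : okB r (iot TdP r) = true ∧ okB r (iot TeP r) = true ∧ Wr r (iot TdP r) = [] ∧ Wr r (iot TeP r) = [] ∧
    iot TeP r ≠ iot TdP r ∧ iot TeP r ≠ negP (iot TdP r) ∧ iot TdP r < 72 ∧ iot TeP r < 72 ∧ tm1 (iot TdP r) (iot TeP r) r = true ∧
    CommPair chevE6 r (iot TdP r) ∧ CommPair chevE6 r (iot TeP r) ∧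
    (if rhoP r = r then rhoP (iot TdP r) = iot TdP r ∧ rhoP (iot TeP r) = iot TeP r else
      rhoP (iot TdP r) ≠ iot TdP r ∧ rhoP (iot TeP r) ≠ iot TeP r ∧ tm1 (rhoP (iot TdP r)) (rhoP (iot TeP r)) (rhoP r) = true ∧
      CommPair chevE6 (iot TdP r) (rhoP (iot TeP r)) ∧ CommPair chevE6 (rhoP (iot TdP r)) (iot TeP r) ∧
      CommPair chevE6 r (rhoP (iot TdP r)) ∧ CommPair chevE6 r (rhoP (iot TeP r)) ∧ CommPair chevE6 (rhoP r) (iot TdP r) ∧
      CommPair chevE6 (rhoP r) (iot TeP r) ∧ CommPair chevE6 (rhoP r) (rhoP (iot TdP r)) ∧ CommPair chevE6 (rhoP r) (rhoP (iot TeP r)) ∧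
      rhoP (iot TeP r) ≠ rhoP (iot TdP r) ∧ rhoP (iot TeP r) ≠ negP (rhoP (iot TdP r))) := by
  have h := allBelow_spec chk5_all r hr
  have h' : (okB r (iot TdP r) && okB r (iot TeP r) && (Wr r (iot TdP r)).isEmpty && (Wr r (iot TeP r)).isEmpty &&
      decide (iot TeP r ≠ iot TdP r) && decide (iot TeP r ≠ negP (iot TdP r)) && decide (iot TdP r < 72) && decide (iot TeP r < 72) &&
      tm1 (iot TdP r) (iot TeP r) r && cpB r (iot TdP r) && cpB r (iot TeP r) &&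
      (if rhoP r = r then decide (rhoP (iot TdP r) = iot TdP r) && decide (rhoP (iot TeP r) = iot TeP r) else
        decide (rhoP (iot TdP r) ≠ iot TdP r) && decide (rhoP (iot TeP r) ≠ iot TeP r) && tm1 (rhoP (iot TdP r)) (rhoP (iot TeP r)) (rhoP r) &&
        cpB (iot TdP r) (rhoP (iot TeP r)) && cpB (rhoP (iot TdP r)) (iot TeP r) &&
        cpB r (rhoP (iot TdP r)) && cpB r (rhoP (iot TeP r)) && cpB (rhoP r) (iot TdP r) && cpB (rhoP r) (iot TeP r) &&
        cpB (rhoP r) (rhoP (iot TdP r)) && cpB (rhoP r) (rhoP (iot TeP r)) &&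
        decide (rhoP (iot TeP r) ≠ rhoP (iot TdP r)) && decide (rhoP (iot TeP r) ≠ negP (rhoP (iot TdP r))))) = true := h
  by_cases hh : rhoP r = r
  · simp only [if_pos hh, Bool.and_eq_true, decide_eq_true_eq, cpB, List.isEmpty_iff, and_assoc] at h' ⊢
    exact h'
  · simp only [if_neg hh, Bool.and_eq_true, decide_eq_true_eq, cpB, List.isEmpty_iff, and_assoc, not_false_eq_true] at h' ⊢
    exact h'

lemma comm_form {a b p : ℕ} {c : ℤ} (ha : a < 72) (hb : b < 72) (h1 : b ≠ a) (h2 : b ≠ negP a)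
    (h : chevE6.commTerms a b = [(p, c, 1, 1)]) (t u : K) :
    xG ax a t * xG ax b u = xG ax b u * xG ax a t * xG ax p ((c : K) * t * u) := by
  have e := xG_comm ax ha hb h1 (by rw [neg_eq ha]; exact h2) t u
  have w : wordG ax (chevE6.commWord K a b t u) = (xG ax p ((c : K) * t * u))⁻¹ := by
    simp only [commWord, h, List.map_cons, List.map_nil, wordG_cons, wordG_nil, mul_one, xG_inv]
    congr 1
    ring
  rw [e, w]
  group

lemma comm_z {G : Type*} [Group G] {A B Z : G} (h : A * B = B * A * Z) (hA : A * Z = Z * A) (hB : B * Z = Z * B) :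
    A * B * A⁻¹ * B⁻¹ = Z := by
  rw [h]
  have h1 : B * A * Z * A⁻¹ * B⁻¹ = B * (A * Z * A⁻¹) * B⁻¹ := by group
  rw [h1, hA]
  have h3 : Z * A * A⁻¹ = Z := by group
  rw [h3, hB]
  group

lemma comm_z2 {G : Type*} [Group G] {A A' B B' Z₁ Z₂ : G} (h1 : A * B = B * A * Z₁) (h2 : A' * B' = B' * A' * Z₂)
    (c1 : A' * B = B * A') (c2 : A * B' = B' * A) (c3 : Z₁ * A' = A' * Z₁) (c4 : Z₁ * B' = B' * Z₁)
    (hA : (A * A') * (Z₁ * Z₂) = (Z₁ * Z₂) * (A * A')) (hB : (B * B') * (Z₁ * Z₂) = (Z₁ * Z₂) * (B * B')) :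
    (A * A') * (B * B') * (A * A')⁻¹ * (B * B')⁻¹ = Z₁ * Z₂ := by
  refine comm_z ?_ hA hB
  calc (A * A') * (B * B') = A * (A' * B) * B' := by group
    _ = A * (B * A') * B' := by rw [c1]
    _ = (A * B) * (A' * B') := by group
    _ = (B * A * Z₁) * (B' * A' * Z₂) := by rw [h1, h2]
    _ = B * A * (Z₁ * B') * A' * Z₂ := by group
    _ = B * A * (B' * Z₁) * A' * Z₂ := by rw [c4]
    _ = B * (A * B') * (Z₁ * A') * Z₂ := by group
    _ = B * (B' * A) * (A' * Z₁) * Z₂ := by rw [c2, c3]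
    _ = _ := by group

include hφ hφ2

/-- Every element of a root subgroup is a commutator. -/
theorem gen_X {r : ℕ} (hr : r < 72) {t : K} (ht : Par φ r t) :
    ∃ x ∈ Xr φ ax (iot TdP r), ∃ y ∈ Xr φ ax (iot TeP r), x * y * x⁻¹ * y⁻¹ = xt φ ax r t := by
  obtain ⟨-, -, -, -, n1, n2, hd, he, tm, c1, c2, hdich⟩ := chk5_dec hr
  set d := iot TdP r with hdd
  set e := iot TeP r with hee
  obtain ⟨c, hcm, hc⟩ := tm1_spec tm
  have hcc : (c : K) * c = 1 := by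
    rcases hc with rfl | rfl <;> simp
  have hφc : φ (c : K) = c := map_intCast φ c
  have key := comm_form ax hd he n1 n2 hcm ((c : K) * t) 1
  have ev : (c : K) * ((c : K) * t) * 1 = t := by
    rw [mul_one, ← mul_assoc, hcc, one_mul]
  rw [ev] at key
  by_cases hh : rhoP r = r
  · rw [if_pos hh] at hdich
    obtain ⟨h3, h4⟩ := hdich
    have hρ : Se.ρ r = r := by rw [rho_eq hr]; exact hh
    have hρd : Se.ρ d = d := by rw [rho_eq hd]; exact h3
    have hρe : Se.ρ e = e := by rw [rho_eq he]; exact h4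
    refine ⟨xt φ ax d ((c : K) * t), (mem_Xr φ ax hd).mpr ⟨_, fun _ => ?_, rfl⟩, xt φ ax e 1, (mem_Xr φ ax he).mpr ⟨_, fun _ => map_one φ, rfl⟩, ?_⟩
    · rw [map_mul, hφc, ht hρ]
    · rw [xt_fix φ ax hρd, xt_fix φ ax hρe, xt_fix φ ax hρ]
      exact comm_z key (c1.comm ax _ _) (c2.comm ax _ _)
  · rw [if_neg hh] at hdich
    obtain ⟨h3, h4, tm2, c3, c4, c5, c6, c7, c8, c9, c10, n3, n4⟩ := hdich
    have hρ : Se.ρ r ≠ r := by rw [rho_eq hr]; exact hh
    have hρd : Se.ρ d ≠ d := by rw [rho_eq hd]; exact h3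
    have hρe : Se.ρ e ≠ e := by rw [rho_eq he]; exact h4
    obtain ⟨c', hcm', -⟩ := tm1_spec tm2
    have hd' := rho_lt hd
    have he' := rho_lt he
    set t₁ := gam K d * φ ((c : K) * t) with ht₁
    set u₁ := gam K e * φ (1 : K) with hu₁
    have key2 := comm_form ax hd' he' n3 n4 hcm' t₁ u₁
    refine ⟨xt φ ax d ((c : K) * t), (mem_Xr φ ax hd).mpr ⟨_, fun e => absurd e hρd, rfl⟩, xt φ ax e 1, (mem_Xr φ ax he).mpr ⟨_, fun e => absurd e hρe, rfl⟩, ?_⟩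
    have hfx : xt φ ax d ((c : K) * t) * xt φ ax e 1 * (xt φ ax d ((c : K) * t))⁻¹ * (xt φ ax e 1)⁻¹ ∈ (twE φ ax).Fx :=
      comm_Fx φ hφ hφ2 ax ((mem_Xr φ ax hd).mpr ⟨_, fun e => absurd e hρd, rfl⟩) ((mem_Xr φ ax he).mpr ⟨_, fun e => absurd e hρe, rfl⟩)
    rw [xt_pair φ ax hρd, xt_pair φ ax hρe, ← ht₁, ← hu₁, rho_eq hd, rho_eq he] at hfx ⊢
    have E1 : (xG ax d ((c : K) * t) * xG ax (rhoP d) t₁) * (xG ax e 1 * xG ax (rhoP e) u₁) *
        (xG ax d ((c : K) * t) * xG ax (rhoP d) t₁)⁻¹ * (xG ax e 1 * xG ax (rhoP e) u₁)⁻¹ =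
        xG ax r t * xG ax (rhoP r) ((c' : K) * t₁ * u₁) := by
      refine comm_z2 key key2 ((c4.comm ax _ _).symm) ((c3.comm ax _ _).symm) (c5.comm ax _ _).symm (c6.comm ax _ _).symm ?_ ?_
      · calc xG ax d ((c : K) * t) * xG ax (rhoP d) t₁ * (xG ax r t * xG ax (rhoP r) ((c' : K) * t₁ * u₁))
            = xG ax d ((c : K) * t) * (xG ax (rhoP d) t₁ * xG ax r t) * xG ax (rhoP r) ((c' : K) * t₁ * u₁) := by group
          _ = xG ax d ((c : K) * t) * (xG ax r t * xG ax (rhoP d) t₁) * xG ax (rhoP r) ((c' : K) * t₁ * u₁) := by rw [c5.comm ax]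
          _ = (xG ax d ((c : K) * t) * xG ax r t) * (xG ax (rhoP d) t₁ * xG ax (rhoP r) ((c' : K) * t₁ * u₁)) := by group
          _ = (xG ax r t * xG ax d ((c : K) * t)) * (xG ax (rhoP r) ((c' : K) * t₁ * u₁) * xG ax (rhoP d) t₁) := by rw [c1.comm ax, c9.comm ax]
          _ = xG ax r t * (xG ax d ((c : K) * t) * xG ax (rhoP r) ((c' : K) * t₁ * u₁)) * xG ax (rhoP d) t₁ := by group
          _ = xG ax r t * (xG ax (rhoP r) ((c' : K) * t₁ * u₁) * xG ax d ((c : K) * t)) * xG ax (rhoP d) t₁ := by rw [c7.comm ax]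
          _ = _ := by group
      · calc xG ax e 1 * xG ax (rhoP e) u₁ * (xG ax r t * xG ax (rhoP r) ((c' : K) * t₁ * u₁))
            = xG ax e 1 * (xG ax (rhoP e) u₁ * xG ax r t) * xG ax (rhoP r) ((c' : K) * t₁ * u₁) := by group
          _ = xG ax e 1 * (xG ax r t * xG ax (rhoP e) u₁) * xG ax (rhoP r) ((c' : K) * t₁ * u₁) := by rw [c6.comm ax]
          _ = (xG ax e 1 * xG ax r t) * (xG ax (rhoP e) u₁ * xG ax (rhoP r) ((c' : K) * t₁ * u₁)) := by group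
          _ = (xG ax r t * xG ax e 1) * (xG ax (rhoP r) ((c' : K) * t₁ * u₁) * xG ax (rhoP e) u₁) := by rw [c2.comm ax, c10.comm ax]
          _ = xG ax r t * (xG ax e 1 * xG ax (rhoP r) ((c' : K) * t₁ * u₁)) * xG ax (rhoP e) u₁ := by group
          _ = xG ax r t * (xG ax (rhoP r) ((c' : K) * t₁ * u₁) * xG ax e 1) * xG ax (rhoP e) u₁ := by rw [c8.comm ax]
          _ = _ := by group
    rw [E1] at hfx ⊢
    rw [← rho_eq hr] at hfx ⊢
    exact fix_pair φ ax hr hρ hfx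

end Cfsg.Agent.Lib.SchE6.Gx
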