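import Cfsg.Agent.Lib.SchE6.Gx4

/-!
Root subgroups in a central extension of `²E₆(q)`.
-/

set_option autoImplicit false
set_option linter.unusedSectionVars false
set_option linter.unusedVariables false
set_option linter.ambiguousOpen false
set_option linter.dupNamespace false
set_option linter.unusedSimpArgs false

namespace Cfsg.Agent.Lib.SchE6.Gx

open scoped MatrixGroups Matrix
open Cfsg Lie ChevalleyDatum
open Cfsg.Agent.Lib.Chev
open Tables Tables2 Tables3 Raise Basic AxBasic Torus Products Products2 Mono1 Mono2 Mono3 Bn ChevSimple Diag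
open Cfsg.Agent.Lib.Twisted.Fact Cfsg.Agent.Lib.Twisted.Bruhat Cfsg.Agent.Lib.Twisted.Tw
open Cfsg.Agent.Lib.Twisted.Struct Cfsg.Agent.Lib.Twisted.Check Cfsg.Agent.Lib.Twisted.Ortho
open Cfsg.Agent.Lib.GraphAut.Basic Cfsg.Agent.S1081
open Cfsg.Agent.Lib.Twisted.E6 Cfsg.Agent.Lib.Twisted.E6H
open Cfsg.Agent.Lib.SchE6.Can Cfsg.Agent.Lib.SchE6.Fam

theorem ex_ok_all : ∀ r : Fin 72, ∃ s : Fin 72, okB r s = true := by decide +kernel

variable {K : Type*} [Field K] {q : ℕ} (φ : K ≃+* K) (hφ : ∀ t, φ t = t ^ q) (hφ2 : ∀ t, φ (φ t) = t) (ax : Ax chevE6 K)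

lemma wr_lt {r s c : ℕ} (hok : okB r s = true) (hc' : c ∈ Wr r s) : c < 72 := by
  rcases hW : Wr r s with _ | ⟨c₁, _ | ⟨d, l⟩⟩
  · rw [hW] at hc'
    simp at hc'
  · rw [hW] at hc'
    obtain rfl : c = c₁ := by simpa using hc'
    exact (chk3_one hok hW).1
  · obtain ⟨rfl, h1, h2, -⟩ := chk3_two hok hW
    rw [hW] at hc'
    simp only [List.mem_cons, List.not_mem_nil, or_false] at hc'
    rcases hc' with rfl | rfl
    · exact h1
    · exact h2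

/-- The root subgroups in the group. -/
noncomputable def X0 (q : ℕ) (φ : K ≃+* K) (ax : Ax chevE6 K) (r : ℕ) : Subgroup ↥(twistedE6 K q) :=
  (Xr φ ax r).subgroupOf (twistedE6 K q)

/-- The torus in the group. -/
noncomputable def T0 (K : Type*) [Field K] (q : ℕ) : Subgroup ↥(twistedE6 K q) :=
  (chevE6.diagonalSubgroup K).subgroupOf (twistedE6 K q)

/-- The map into the group. -/
noncomputable def toG (q : ℕ) (g : GL chevE6.Idx K) : ↥(twistedE6 K q) := by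
  classical exact if h : g ∈ twistedE6 K q then ⟨g, h⟩ else 1

lemma toG_coe {g : GL chevE6.Idx K} (h : g ∈ twistedE6 K q) : ((toG q g : ↥(twistedE6 K q)) : GL chevE6.Idx K) = g := by
  simp only [toG]
  rw [dif_pos h]

variable {φ ax} in
lemma mem_X0 {r : ℕ} {g : ↥(twistedE6 K q)} : g ∈ X0 q φ ax r ↔ (g : GL chevE6.Idx K) ∈ Xr φ ax r := Subgroup.mem_subgroupOf

lemma mem_T0 {g : ↥(twistedE6 K q)} : g ∈ T0 K q ↔ (g : GL chevE6.Idx K) ∈ chevE6.diagonalSubgroup K := Subgroup.mem_subgroupOf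

include hφ hφ2

lemma xt_coe {r : ℕ} (hr : r < 72) {t : K} (ht : Par φ r t) :
    ((toG q (xt φ ax r t) : ↥(twistedE6 K q)) : GL chevE6.Idx K) = xt φ ax r t := toG_coe (xt_mem_G φ hφ hφ2 ax hr ht)

lemma xt_toG {r : ℕ} (hr : r < 72) {t : K} (ht : Par φ r t) : toG q (xt φ ax r t) ∈ X0 q φ ax r := by
  rw [mem_X0, xt_coe φ hφ hφ2 ax hr ht]
  exact (mem_Xr φ ax hr).mpr ⟨t, ht, rfl⟩

lemma toG_add {r : ℕ} (hr : r < 72) {t u : K} (ht : Par φ r t) (hu : Par φ r u) :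
    toG q (xt φ ax r (t + u)) = toG q (xt φ ax r t) * toG q (xt φ ax r u) := by
  apply Subtype.ext
  have hm : Par φ r (t + u) := fun h => by rw [map_add, ht h, hu h]
  rw [Subgroup.coe_mul, xt_coe φ hφ hφ2 ax hr hm, xt_coe φ hφ hφ2 ax hr ht, xt_coe φ hφ hφ2 ax hr hu, xt_add φ ax hr]

omit hφ hφ2 in
lemma Xr_ge (r : ℕ) (hr : ¬ r < 72) {g : GL chevE6.Idx K} (hg : g ∈ Xr φ ax r) : g = 1 := by
  simpa [Xr, hr] using hg

omit hφ hφ2 in
theorem X0_ab (r : ℕ) : ∀ x ∈ X0 q φ ax r, ∀ y ∈ X0 q φ ax r, x * y = y * x := by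
  intro x hx y hy
  rw [mem_X0] at hx hy
  apply Subtype.ext
  rw [Subgroup.coe_mul, Subgroup.coe_mul]
  by_cases hr : r < 72
  · obtain ⟨t, -, ht⟩ := (mem_Xr φ ax hr).mp hx
    obtain ⟨u, -, hu⟩ := (mem_Xr φ ax hr).mp hy
    rw [ht, hu, ← xt_add φ ax hr, ← xt_add φ ax hr, add_comm]
  · rw [Xr_ge φ ax r hr hx, Xr_ge φ ax r hr hy]

theorem X0_Tnorm (r : ℕ) : ∀ h ∈ T0 K q, ∀ x ∈ X0 q φ ax r, h * x * h⁻¹ ∈ X0 q φ ax r := by
  intro h hh x hx
  rw [mem_T0] at hh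
  rw [mem_X0] at hx ⊢
  by_cases hr : r < 72
  · obtain ⟨y, ey⟩ := exists_tor_of_mem ax hE hh
    have H : IsNor hE ax (h : GL chevE6.Idx K) 1 (fun s => chi chevE6 y s) := by
      rw [ey]
      exact isNor_tor hE ax y
    exact conj_Xr φ ax (G1_le φ hφ hφ2 ax h.2) H hr hx
  · have h1 := Xr_ge φ ax r hr hx
    simp only [Subgroup.coe_mul, Subgroup.coe_inv, h1, mul_one, mul_inv_cancel]
    exact Subgroup.one_mem _

omit hφ hφ2 in
include ax in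
theorem T0_comm : ∀ a ∈ T0 K q, ∀ b ∈ T0 K q, a * b = b * a := by
  intro a ha b hb
  rw [mem_T0] at ha hb
  apply Subtype.ext
  rw [Subgroup.coe_mul, Subgroup.coe_mul]
  exact diagonal_comm ax hE ha hb

section Lift

variable {τ : Kˣ} (hτ : ∀ {m n : ℤ}, smallP m n = true → τ ^ m * (φu φ τ) ^ n ≠ 1)

include hτ in
lemma exists_fpf {r : ℕ} (hr : r < 72) : ∃ h ∈ T0 K q, ∀ x ∈ X0 q φ ax r, h * x * h⁻¹ = x → x = 1 := by
  obtain ⟨s, hs⟩ := ex_ok_all ⟨r, hr⟩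
  obtain ⟨h, hh, -, h2⟩ := fpf_Xr φ hφ hφ2 ax hτ hs
  refine ⟨⟨h, hh.2⟩, mem_T0.mpr hh.1, ?_⟩
  intro x hx e
  rw [mem_X0] at hx
  have e2 : h * (x : GL chevE6.Idx K) * h⁻¹ = x := congrArg Subtype.val e
  exact Subtype.ext (h2 _ hx e2)

variable {E : Type*} [Group E] (σ : E →* ↥(twistedE6 K q)) (hs : Function.Surjective σ) (hc : CK σ)

include hs hc

omit hτ in
/-- The lifts of a root subgroup commute. -/
theorem hab_X0 {r : ℕ} (hr : r < 72) : ∀ a b : E, σ a ∈ X0 q φ ax r → σ b ∈ X0 q φ ax r → a * b = b * a := by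
  obtain ⟨ok1, ok2, w1, w2, -⟩ := chk5_dec hr
  refine ab_of_closure hs hc (D := X0 q φ ax (iot TdP r)) (F := X0 q φ ax (iot TeP r)) ?_ ?_ ?_
  · intro x hx d hd
    rw [mem_X0] at hx hd
    exact Subtype.ext (comm_nil φ hφ hφ2 ax ok1 w1 hx hd)
  · intro x hx d hd
    rw [mem_X0] at hx hd
    exact Subtype.ext (comm_nil φ hφ hφ2 ax ok2 w2 hx hd)
  · intro x hx
    rw [mem_X0] at hx
    obtain ⟨t, ht, e⟩ := (mem_Xr φ ax hr).mp hx
    obtain ⟨u, hu, v, hv, e2⟩ := gen_X φ hφ hφ2 ax hr ht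
    refine Subgroup.subset_closure ⟨⟨u, Xr_le_G φ hφ hφ2 ax _ hu⟩, mem_X0.mpr hu, ⟨v, Xr_le_G φ hφ hφ2 ax _ hv⟩, mem_X0.mpr hv, ?_⟩
    apply Subtype.ext
    show (x : GL chevE6.Idx K) = u * v * u⁻¹ * v⁻¹
    rw [e, e2]

include hτ

variable [Finite K]

/-- The canonical sections. -/
theorem exists_S : ∃ S : ℕ → ↥(twistedE6 K q) → E, ∀ r, r < 72 → IsCan σ (T0 K q) (X0 q φ ax r) (S r) := by
  have : ∀ r, ∃ s : ↥(twistedE6 K q) → E, r < 72 → IsCan σ (T0 K q) (X0 q φ ax r) s := by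
    intro r
    by_cases hr : r < 72
    · obtain ⟨h, hh, hf⟩ := exists_fpf φ hφ hφ2 ax hτ hr
      haveI : Finite (GL chevE6.Idx K) := inferInstance
      obtain ⟨s, hs'⟩ := exists_can (X := X0 q φ ax r) hs hc (T0_comm ax) (X0_Tnorm φ hφ hφ2 ax r) (hab_X0 φ hφ hφ2 ax σ hs hc hr) hh hf
      exact ⟨s, fun _ => hs'⟩
    · exact ⟨fun _ => 1, fun h => absurd h hr⟩
  choose S hS using this
  exact ⟨S, hS⟩

/-- The family of root groups. -/
theorem ctx {S : ℕ → ↥(twistedE6 K q) → E} (hS : ∀ r, r < 72 → IsCan σ (T0 K q) (X0 q φ ax r) (S r)) :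
    Ctx σ (T0 K q) (X0 q φ ax) S (· < 72) (fun r s => okB r s = true) (fun r s => roleB r s = true) Wr where
  hs := hs
  hc := hc
  can := hS
  ok_dom := fun h => ⟨(ok_spec h).1, (ok_spec h).2.1⟩
  ok_symm := ok_symm
  empty_symm := chk3_nil
  wr_symm := chk3_symm
  role_or := by
    intro r s _
    simp only [roleB, Bool.or_eq_true, decide_eq_true_eq]
    by_cases h1 : rhoP r = r
    · exact Or.inl (Or.inl h1)
    · by_cases h2 : rhoP s = s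
      · exact Or.inr (Or.inl h2)
      · exact Or.inl (Or.inr h2)
  role1 := fun h hW => (chk3_one h hW).2.1
  wr1 := fun h hW => ⟨(chk3_one h hW).1, (chk3_one h hW).2.2.1, (chk3_one h hW).2.2.2⟩
  wr2 := by
    intro r s c d hok hr hW
    obtain ⟨-, h1, h2, h3, h4, h5, h6, -, t1, t2, h7, h8⟩ := chk3_two hok hW
    obtain ⟨h9, h10, h11, h12⟩ := h8 hr
    refine ⟨h1, h2, h9, h10, h11, h12, h5, h6, ?_⟩
    rw [eq_bot_iff]
    rintro g ⟨g1, g2⟩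
    have g3 : (g : GL chevE6.Idx K) ∈ Xr φ ax c ⊓ Xr φ ax d := ⟨mem_X0.mp g1, mem_X0.mp g2⟩
    rw [inf_two φ hφ hφ2 ax hτ h5 h4 h3 t1 t2 h7] at g3
    exact (Subgroup.mem_bot).mpr (Subtype.ext g3)
  wr_len := by
    intro r s hok
    rcases hW : Wr r s with _ | ⟨c₁, _ | ⟨d, l⟩⟩
    · simp
    · simp
    · obtain ⟨rfl, -⟩ := chk3_two hok hW
      simp
  comm := by
    intro r s hok x hx y hy
    rw [mem_X0] at hx hy
    rcases hW : Wr r s with _ | ⟨c₁, _ | ⟨d, l⟩⟩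
    · simp only [Wg, Subgroup.mem_bot]
      apply Subtype.ext
      exact fix_nil ax hW (comm_Xr φ ax hok hx hy)
    · show _ ∈ X0 q φ ax c₁
      rw [mem_X0]
      exact comm_one φ hφ hφ2 ax hok hW hx hy
    · obtain ⟨u, hu, v, hv, e⟩ := comm_two φ hφ hφ2 ax hτ hok hW hx hy
      obtain ⟨rfl, -⟩ := chk3_two hok hW
      show _ ∈ X0 q φ ax c₁ ⊔ X0 q φ ax d
      have e2 : x * y * x⁻¹ * y⁻¹ = (⟨u, Xr_le_G φ hφ hφ2 ax _ hu⟩ : ↥(twistedE6 K q)) * ⟨v, Xr_le_G φ hφ hφ2 ax _ hv⟩ :=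
        Subtype.ext e
      rw [e2]
      exact Subgroup.mul_mem_sup (mem_X0.mpr hu) (mem_X0.mpr hv)
  fpf := by
    intro r s hok _
    obtain ⟨h, hh, h1, h2⟩ := fpf_Xr φ hφ hφ2 ax hτ hok
    refine ⟨⟨h, hh.2⟩, mem_T0.mpr hh.1, ?_, ?_⟩
    · intro y hy
      exact Subtype.ext (h1 _ (mem_X0.mp hy))
    · intro x hx e
      have e2 : h * (x : GL chevE6.Idx K) * h⁻¹ = x := congrArg Subtype.val e
      exact Subtype.ext (h2 _ (mem_X0.mp hx) e2)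
  fin := by
    intro r
    haveI : Finite (GL chevE6.Idx K) := inferInstance
    infer_instance
  ab := X0_ab φ ax
  Tnorm := X0_Tnorm φ hφ hφ2 ax

/-- Conjugation of canonical sections by elements acting monomially. -/
theorem can_mono {S : ℕ → ↥(twistedE6 K q) → E} (hS : ∀ r, r < 72 → IsCan σ (T0 K q) (X0 q φ ax r) (S r)) (ν : E)
    {π : Equiv.Perm (Fin chevE6.nroots)} {c : Fin chevE6.nroots → Kˣ} (H : IsNor hE ax ((σ ν : ↥(twistedE6 K q)) : GL chevE6.Idx K) π c)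
    {r : ℕ} (hr : r < 72) {t : K} (ht : Par φ r t) :
    ν * S r (toG q (xt φ ax r t)) * ν⁻¹ = S (π ⟨r, hr⟩) (toG q (xt φ ax (π ⟨r, hr⟩) ((c ⟨r, hr⟩ : K) * t))) := by
  set r' : ℕ := ((π ⟨r, hr⟩ : Fin chevE6.nroots) : ℕ) with hr'
  have hr'lt : r' < 72 := (π ⟨r, hr⟩).isLt
  have hg := G1_le φ hφ hφ2 ax (σ ν).2
  have hg' : ((σ ν : ↥(twistedE6 K q)) : GL chevE6.Idx K)⁻¹ ∈ (twE φ ax).Fx := Subgroup.inv_mem _ hg
  have Hi := IsNor.inv hE ax H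
  obtain ⟨h, hh, hf⟩ := exists_fpf (q := q) φ hφ hφ2 ax hτ hr'lt
  have hd := exists_delta (X := X0 q φ ax r') (X0_Tnorm φ hφ hφ2 ax r' h hh) (X0_ab φ ax r') hf
  have key := can_conj hs hc (hS r hr) (hS r' hr'lt) ν ?_ ?_ ?_ hh hd (X0_Tnorm φ hφ hφ2 ax r' h hh)
    (xt_toG φ hφ hφ2 ax hr ht)
  · rw [key]
    congr 1
    apply Subtype.ext
    obtain ⟨e1, e2⟩ := conj_xt φ ax hg H hr ht
    rw [xt_coe φ hφ hφ2 ax hr'lt e2]
    simp only [Subgroup.coe_mul, Subgroup.coe_inv]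
    rw [xt_coe φ hφ hφ2 ax hr ht, e1]
  · intro a ha
    rw [mem_T0] at ha ⊢
    have := Hi.conj_mem_H hE ax ha
    simp only [inv_inv] at this
    exact this
  · intro x hx
    rw [mem_X0] at hx ⊢
    exact conj_Xr φ ax hg H hr hx
  · intro y hy
    rw [mem_X0] at hy ⊢
    have := conj_Xr φ ax hg' Hi hr'lt hy
    simp only [inv_inv] at this
    have e3 : ((π⁻¹ ⟨r', hr'lt⟩ : Fin chevE6.nroots) : ℕ) = r := by
      have : (⟨r', hr'lt⟩ : Fin chevE6.nroots) = π ⟨r, hr⟩ := rfl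
      rw [this]
      simp
    rw [e3] at this
    exact this

end Lift

omit hφ hφ2

lemma xt_rho (hφ2 : ∀ t, φ (φ t) = t) {r : ℕ} (hr : r < 72) (h : Se.ρ r ≠ r) (t : K) :
    xt φ ax (Se.ρ r) t = xt φ ax r (gam K r * φ t) := by
  have h2 := (tab_rho ⟨r, hr⟩).2.1
  simp only at h2
  have h3 : Se.ρ (Se.ρ r) ≠ Se.ρ r := by rw [h2]; exact fun e => h e.symm
  rw [xt_pair φ ax h3, xt_pair φ ax h, h2, gam_rho hr, map_mul, phi_gam, hφ2, ← mul_assoc, gam_sq hr, one_mul]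
  exact (comm_rho ax hr h _ _).symm

/-- The lifted root elements. -/
structure Lf (φ : K ≃+* K) (ax : Ax chevE6 K) {E : Type*} [Group E] (σ : E →* ↥(twistedE6 K q)) (xh : ℕ → K → E) : Prop where
  sec : ∀ {r t}, r < 72 → Par φ r t → ((σ (xh r t) : ↥(twistedE6 K q)) : GL chevE6.Idx K) = xt φ ax r t
  add : ∀ {r t u}, r < 72 → Par φ r t → Par φ r u → xh r (t + u) = xh r t * xh r u
  conj : ∀ (ν : E) {π : Equiv.Perm (Fin chevE6.nroots)} {c : Fin chevE6.nroots → Kˣ},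
    IsNor hE ax ((σ ν : ↥(twistedE6 K q)) : GL chevE6.Idx K) π c → ∀ {r t} (hr : r < 72), Par φ r t →
    ν * xh r t * ν⁻¹ = xh (π ⟨r, hr⟩) ((c ⟨r, hr⟩ : K) * t)
  rho : ∀ {r t}, r < 72 → Se.ρ r ≠ r → xh (Se.ρ r) t = xh r (gam K r * φ t)
  brk : ∀ {r s t u}, okB r s = true → Par φ r t → Par φ s u →
    xh r t * xh s u * (xh r t)⁻¹ * (xh s u)⁻¹ ∈ Subgroup.closure {g | ∃ c ∈ Wr r s, ∃ w, Par φ c w ∧ g = xh c w}

include hφ hφ2

/-- The existence of lifted root elements. -/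
theorem exists_lf [Finite K] {τ : Kˣ} (hτ : ∀ {m n : ℤ}, smallP m n = true → τ ^ m * (φu φ τ) ^ n ≠ 1)
    {E : Type*} [Group E] (σ : E →* ↥(twistedE6 K q)) (hs : Function.Surjective σ) (hc : CK σ) :
    ∃ xh : ℕ → K → E, Lf φ ax σ xh := by
  obtain ⟨S, hS⟩ := exists_S φ hφ hφ2 ax hτ σ hs hc
  have C := ctx φ hφ hφ2 ax hτ σ hs hc hS
  refine ⟨fun r t => S r (toG q (xt φ ax r t)), ?_, ?_, ?_, ?_, ?_⟩
  · intro r t hr ht
    show ((σ (S r (toG q (xt φ ax r t))) : ↥(twistedE6 K q)) : GL chevE6.Idx K) = _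
    rw [(hS r hr).sec _ (xt_toG φ hφ hφ2 ax hr ht), xt_coe φ hφ hφ2 ax hr ht]
  · intro r t u hr ht hu
    show S r (toG q (xt φ ax r (t + u))) = S r (toG q (xt φ ax r t)) * S r (toG q (xt φ ax r u))
    rw [toG_add φ hφ hφ2 ax hr ht hu]
    exact (hS r hr).mul _ (xt_toG φ hφ hφ2 ax hr ht) _ (xt_toG φ hφ hφ2 ax hr hu)
  · intro ν π c H r t hr ht
    exact can_mono φ hφ hφ2 ax hτ σ hs hc hS ν H hr ht
  · intro r t hr h
    show S (Se.ρ r) (toG q (xt φ ax (Se.ρ r) t)) = S r (toG q (xt φ ax r (gam K r * φ t)))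
    rw [xt_rho φ ax hφ2 hr h]
    have hX : X0 q φ ax (Se.ρ r) = X0 q φ ax r := by
      simp only [X0]
      rw [Xr_rho φ hφ2 ax hr]
    have hr' : Se.ρ r < 72 := (tab_rho ⟨r, hr⟩).1
    have H1 := hS _ hr'
    rw [hX] at H1
    obtain ⟨h₀, hh, hf⟩ := exists_fpf (q := q) φ hφ hφ2 ax hτ hr
    haveI : Finite (GL chevE6.Idx K) := inferInstance
    have hd := exists_delta (X := X0 q φ ax r) (X0_Tnorm φ hφ hφ2 ax r h₀ hh) (X0_ab φ ax r) hf
    have hpar : Par φ r (gam K r * φ t) := fun e => absurd e h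
    exact can_unique hs hc H1 (hS r hr) hh hd (X0_Tnorm φ hφ hφ2 ax r h₀ hh) (xt_toG φ hφ hφ2 ax hr hpar)
  · intro r s t u hok ht hu
    have h1 := C.bracket_mem (r := r) (s := s) hok (xt_toG φ hφ hφ2 ax (ok_spec hok).1 ht) (xt_toG φ hφ hφ2 ax (ok_spec hok).2.1 hu)
    refine Subgroup.closure_mono ?_ h1
    rintro g ⟨c, hc', w, hw, rfl⟩
    have hc2 := wr_lt hok hc'
    rw [mem_X0] at hw
    obtain ⟨t', ht', e⟩ := (mem_Xr φ ax hc2).mp hw
    refine ⟨c, hc', t', ht', ?_⟩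
    show S c w = S c (toG q (xt φ ax c t'))
    congr 1
    apply Subtype.ext
    rw [xt_coe φ hφ hφ2 ax hc2 ht', e]

end Cfsg.Agent.Lib.SchE6.Gx
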