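import Cfsg.Agent.Lib.SchE6.Gx5

/-!
The rank one subgroups of `²E₆(q)` attached to the simple relative roots.
-/

set_option autoImplicit false
set_option linter.unusedSectionVars false
set_option linter.unusedVariables false
set_option linter.ambiguousOpen false
set_option linter.dupNamespace false
set_option linter.unusedSimpArgs false

namespace Cfsg.Agent.Lib.SchE6.Gx

open scoped MatrixGroups Matrix
open Cfsg Lie ChevalleyDatum
open Cfsg.Agent.Lib.Chev
open Tables Tables2 Tables3 Raise Basic AxBasic Torus Products Products2 Mono1 Mono2 Mono3 Bn ChevSimple Diag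
open Cfsg.Agent.Lib.Twisted.Fact Cfsg.Agent.Lib.Twisted.Bruhat Cfsg.Agent.Lib.Twisted.Tw
open Cfsg.Agent.Lib.Twisted.Struct Cfsg.Agent.Lib.Twisted.Check Cfsg.Agent.Lib.Twisted.Ortho
open Cfsg.Agent.Lib.Twisted.TorusFix
open Cfsg.Agent.Lib.GraphAut.Basic Cfsg.Agent.S1081
open Cfsg.Agent.Lib.Twisted.E6 Cfsg.Agent.Lib.Twisted.E6H

/-- The simple relative roots, in the order of the Coxeter matrix of `F₄`. -/
def a4 : Fin 4 → ℕ := ![46, 39, 42, 56]

/-- The second root. -/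
def b4 : Fin 4 → ℕ := ![46, 39, 37, 36]

/-- The words of the reflections. -/
def wl4 : Fin 4 → List ℕ := ![[1], [3], [2, 4], [0, 5]]

/-- The data of a simple relative root of long type. -/
structure Sg (a i : ℕ) : Prop where
  hi : i < 6
  ea : chevE6.simple i = a
  hρ : Se.ρ a = a
  hρn : Se.ρ (chevE6.neg a) = chevE6.neg a
  p1 : pair chevE6 a (chevE6.neg a) = -2
  p2 : pair chevE6 a a = 2

/-- The data of a simple relative root of short type. -/
structure Pr (a a' i i' : ℕ) : Prop where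
  hi : i < 6
  hi' : i' < 6
  ea : chevE6.simple i = a
  ea' : chevE6.simple i' = a'
  hρ : Se.ρ a = a'
  hρ' : Se.ρ a' = a
  hρn : Se.ρ (chevE6.neg a) = chevE6.neg a'
  hne : a ≠ a'
  hnn : chevE6.neg a ≠ chevE6.neg a'
  γ1 : Se.γ a = 1
  γ2 : Se.γ (chevE6.neg a) = 1
  H1 : CommPair chevE6 a a'
  H2 : CommPair chevE6 (chevE6.neg a) a'
  H3 : CommPair chevE6 a (chevE6.neg a')
  H4 : CommPair chevE6 (chevE6.neg a) (chevE6.neg a')
  p1 : pair chevE6 a (chevE6.neg a) = -2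
  p2 : pair chevE6 a' (chevE6.neg a') = -2
  p3 : pair chevE6 a a = 2
  p4 : pair chevE6 a' a' = 2

theorem sg0 : Sg 46 1 := ⟨by decide, by decide +kernel, by decide +kernel, by decide +kernel, by decide +kernel, by decide +kernel⟩
theorem sg1 : Sg 39 3 := ⟨by decide, by decide +kernel, by decide +kernel, by decide +kernel, by decide +kernel, by decide +kernel⟩
theorem pr2 : Pr 42 37 2 4 := ⟨by decide, by decide, by decide +kernel, by decide +kernel, by decide +kernel, by decide +kernel, by decide +kernel, by decide,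
  by decide +kernel, by decide +kernel, by decide +kernel, by decide +kernel, by decide +kernel, by decide +kernel, by decide +kernel, by decide +kernel,
  by decide +kernel, by decide +kernel, by decide +kernel⟩
theorem pr3 : Pr 56 36 0 5 := ⟨by decide, by decide, by decide +kernel, by decide +kernel, by decide +kernel, by decide +kernel, by decide +kernel, by decide,
  by decide +kernel, by decide +kernel, by decide +kernel, by decide +kernel, by decide +kernel, by decide +kernel, by decide +kernel, by decide +kernel,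
  by decide +kernel, by decide +kernel, by decide +kernel⟩

variable {K : Type*} [Field K] {q : ℕ} (φ : K ≃+* K) (hφ : ∀ t, φ t = t ^ q) (hφ2 : ∀ t, φ (φ t) = t) (ax : Ax chevE6 K)

/-! ### Conjugation by the elements `n_r(s)` -/

lemma hG_conj {r b : ℕ} (hr : r < 72) (hb : b < 72) (c : Kˣ) (t : K) :
    hG ax r (c : K) * xG ax b t * (hG ax r (c : K))⁻¹ = xG ax b (((c ^ pair chevE6 r b : Kˣ) : K) * t) := by
  rw [hG_eq_tor ax hE hr c, tor_conj_xG ax hE _ hb, chi_hW hE _ _ hb]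

lemma nG_eq {i : ℕ} (s : K) : nG ax (chevE6.simple i) s = hG ax (chevE6.simple i) s * sG ax i := by
  simp only [hG, sG]
  have : nG ax (chevE6.simple i) (-1) = (nG ax (chevE6.simple i) 1)⁻¹ := by rw [nG_inv]
  rw [this]
  group

lemma n_conj_x {a i : ℕ} (hi : i < 6) (ea : chevE6.simple i = a) (p1 : pair chevE6 a (chevE6.neg a) = -2) {s : K} (hs : s ≠ 0) (u : K) :
    nG ax a s * xG ax a u * (nG ax a s)⁻¹ = xG ax (chevE6.neg a) (-(s⁻¹ ^ 2 * u)) := by
  subst ea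
  have ha : chevE6.simple i < 72 := hE.simple_lt i hi
  have hn : chevE6.neg (chevE6.simple i) < 72 := hE.neg_lt _ ha
  have e1 := sG_mul_x hE hE2 ax hi u
  have e2 : nG ax (chevE6.simple i) s * xG ax (chevE6.simple i) u * (nG ax (chevE6.simple i) s)⁻¹ =
      hG ax (chevE6.simple i) s * (sG ax i * xG ax (chevE6.simple i) u * (sG ax i)⁻¹) * (hG ax (chevE6.simple i) s)⁻¹ := by
    rw [nG_eq]
    group
  have e3 : sG ax i * xG ax (chevE6.simple i) u * (sG ax i)⁻¹ = xG ax (chevE6.neg (chevE6.simple i)) (-u) := by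
    rw [e1]
    group
  rw [e2, e3]
  have := hG_conj ax ha hn (Units.mk0 s hs) (-u)
  simp only [Units.val_mk0] at this
  rw [this, p1]
  congr 1
  simp only [Units.val_zpow_eq_zpow_val, Units.val_mk0]
  rw [zpow_neg, zpow_two]
  field_simp

lemma n_conj_y {a i : ℕ} (hi : i < 6) (ea : chevE6.simple i = a) (p2 : pair chevE6 a a = 2) {s : K} (hs : s ≠ 0) (u : K) :
    nG ax a s * xG ax (chevE6.neg a) u * (nG ax a s)⁻¹ = xG ax a (-(s ^ 2 * u)) := by
  subst ea
  have ha : chevE6.simple i < 72 := hE.simple_lt i hi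
  have e1 := sG_mul_x' hE hE2 ax hi u
  have e2 : nG ax (chevE6.simple i) s * xG ax (chevE6.neg (chevE6.simple i)) u * (nG ax (chevE6.simple i) s)⁻¹ =
      hG ax (chevE6.simple i) s * (sG ax i * xG ax (chevE6.neg (chevE6.simple i)) u * (sG ax i)⁻¹) * (hG ax (chevE6.simple i) s)⁻¹ := by
    rw [nG_eq]
    group
  have e3 : sG ax i * xG ax (chevE6.neg (chevE6.simple i)) u * (sG ax i)⁻¹ = xG ax (chevE6.simple i) (-u) := by
    rw [e1]
    group
  rw [e2, e3]
  have := hG_conj ax ha ha (Units.mk0 s hs) (-u)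
  simp only [Units.val_mk0] at this
  rw [this, p2]
  congr 1
  simp only [Units.val_zpow_eq_zpow_val, Units.val_mk0]
  rw [zpow_two]
  ring

lemma nG_comm_xG {p q : ℕ} (h1 : ∀ t u : K, xG ax p t * xG ax q u = xG ax q u * xG ax p t)
    (h2 : ∀ t u : K, xG ax (chevE6.neg p) t * xG ax q u = xG ax q u * xG ax (chevE6.neg p) t) (s t : K) :
    nG ax p s * xG ax q t = xG ax q t * nG ax p s := by
  simp only [nG]
  calc xG ax p s * xG ax (chevE6.neg p) (-s⁻¹) * xG ax p s * xG ax q t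
      = xG ax p s * xG ax (chevE6.neg p) (-s⁻¹) * (xG ax p s * xG ax q t) := by group
    _ = xG ax p s * xG ax (chevE6.neg p) (-s⁻¹) * (xG ax q t * xG ax p s) := by rw [h1]
    _ = xG ax p s * (xG ax (chevE6.neg p) (-s⁻¹) * xG ax q t) * xG ax p s := by group
    _ = xG ax p s * (xG ax q t * xG ax (chevE6.neg p) (-s⁻¹)) * xG ax p s := by rw [h2]
    _ = (xG ax p s * xG ax q t) * xG ax (chevE6.neg p) (-s⁻¹) * xG ax p s := by group
    _ = (xG ax q t * xG ax p s) * xG ax (chevE6.neg p) (-s⁻¹) * xG ax p s := by rw [h1]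
    _ = _ := by group

lemma conj_two {G : Type*} [Group G] {N N' X X' Y' : G} (c1 : N' * X = X * N') (c2 : N' * X' * N'⁻¹ = Y') (c3 : N * Y' = Y' * N) :
    (N * N') * (X * X') * (N * N')⁻¹ = (N * X * N⁻¹) * Y' := by
  have e1 : (N * N') * (X * X') * (N * N')⁻¹ = N * (N' * X) * X' * N'⁻¹ * N⁻¹ := by group
  rw [e1, c1]
  have e2 : N * (X * N') * X' * N'⁻¹ * N⁻¹ = N * X * (N' * X' * N'⁻¹) * N⁻¹ := by group
  rw [e2, c2]
  have e3 : N * X * Y' * N⁻¹ = N * X * N⁻¹ * (N * Y') * N⁻¹ := by group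
  rw [e3, c3]
  group

/-! ### The Weyl elements -/

/-- The Weyl element of a relative root. -/
noncomputable def wt (a : ℕ) (s : K) : GL chevE6.Idx K := xt φ ax a s * xt φ ax (chevE6.neg a) (-s⁻¹) * xt φ ax a s

section Single

variable {a i : ℕ} (H : Sg a i)
include H

lemma wt_sg (s : K) : wt φ ax a s = nG ax a s := by
  simp only [wt, xt_fix φ ax H.hρ, xt_fix φ ax H.hρn, nG]

lemma Wx_sg {s : K} (hs : s ≠ 0) (u : K) :
    wt φ ax a s * xt φ ax a u * (wt φ ax a s)⁻¹ = xt φ ax (chevE6.neg a) (-(s⁻¹ ^ 2 * u)) := by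
  rw [wt_sg φ ax H, xt_fix φ ax H.hρ, xt_fix φ ax H.hρn]
  exact n_conj_x ax H.hi H.ea H.p1 hs u

lemma Wy_sg {s : K} (hs : s ≠ 0) (u : K) :
    wt φ ax a s * xt φ ax (chevE6.neg a) u * (wt φ ax a s)⁻¹ = xt φ ax a (-(s ^ 2 * u)) := by
  rw [wt_sg φ ax H, xt_fix φ ax H.hρ, xt_fix φ ax H.hρn]
  exact n_conj_y ax H.hi H.ea H.p2 hs u

end Single

section Pair

variable {a a' i i' : ℕ} (H : Pr a a' i i')
include H

lemma xt_pr (u : K) : xt φ ax a u = xG ax a u * xG ax a' (φ u) := by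
  have h : Se.ρ a ≠ a := by rw [H.hρ]; exact H.hne.symm
  have hg : gam K a = 1 := by simp [gam, H.γ1]
  rw [xt_pair φ ax h, H.hρ, hg, one_mul]

lemma xt_pr' (u : K) : xt φ ax (chevE6.neg a) u = xG ax (chevE6.neg a) u * xG ax (chevE6.neg a') (φ u) := by
  have h : Se.ρ (chevE6.neg a) ≠ chevE6.neg a := by rw [H.hρn]; exact H.hnn.symm
  have hg : gam K (chevE6.neg a) = 1 := by simp [gam, H.γ2]
  rw [xt_pair φ ax h, H.hρn, hg, one_mul]

lemma wt_pr (s : K) : wt φ ax a s = nG ax a s * nG ax a' (φ s) := by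
  rw [nG_pair' H.H1 H.H2 H.H3]
  simp only [wt, xt_pr φ ax H, xt_pr' φ ax H, map_neg, map_inv₀]

lemma Wx_pr {s : K} (hs : s ≠ 0) (u : K) :
    wt φ ax a s * xt φ ax a u * (wt φ ax a s)⁻¹ = xt φ ax (chevE6.neg a) (-(s⁻¹ ^ 2 * u)) := by
  have hs' : φ s ≠ 0 := by simpa using hs
  rw [wt_pr φ ax H, xt_pr φ ax H, xt_pr' φ ax H]
  have c1 := nG_comm_xG (p := a') (q := a) ax (fun t u => (H.H1.comm ax u t)) (fun t u => (H.H3.comm ax u t)) (φ s) u
  have c2 := n_conj_x ax (a := a') H.hi' H.ea' H.p2 hs' (φ u)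
  have c3 := nG_comm_xG (p := a) (q := chevE6.neg a') ax (fun t u => (H.H3.comm ax t u).symm) (fun t u => (H.H4.comm ax t u).symm) s
    (-((φ s)⁻¹ ^ 2 * φ u))
  rw [conj_two c1 c2 c3, n_conj_x ax H.hi H.ea H.p1 hs u]
  simp only [map_neg, map_mul, map_pow, map_inv₀]

lemma Wy_pr {s : K} (hs : s ≠ 0) (u : K) :
    wt φ ax a s * xt φ ax (chevE6.neg a) u * (wt φ ax a s)⁻¹ = xt φ ax a (-(s ^ 2 * u)) := by
  have hs' : φ s ≠ 0 := by simpa using hs
  rw [wt_pr φ ax H, xt_pr φ ax H, xt_pr' φ ax H]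
  have c1 := nG_comm_xG (p := a') (q := chevE6.neg a) ax (fun t u => (H.H2.comm ax u t)) (fun t u => (H.H4.comm ax u t)) (φ s) u
  have c2 := n_conj_y ax (a := a') H.hi' H.ea' H.p4 hs' (φ u)
  have c3 := nG_comm_xG (p := a) (q := a') ax (fun t u => (H.H1.comm ax t u).symm) (fun t u => (H.H2.comm ax t u).symm) s
    (-(φ s ^ 2 * φ u))
  rw [conj_two c1 c2 c3, n_conj_y ax H.hi H.ea H.p3 hs u]
  simp only [map_neg, map_mul, map_pow]

end Pair

/-- The torus part of the Weyl elements. -/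
noncomputable def hJ (j : Fin 4) (s : K) : GL chevE6.Idx K :=
  if a4 j = b4 j then hG ax (a4 j) s else hG ax (a4 j) s * hG ax (b4 j) (φ s)

lemma hJ_0 (s : K) : hJ φ ax 0 s = hG ax 46 s := by simp [hJ, a4, b4]
lemma hJ_1 (s : K) : hJ φ ax 1 s = hG ax 39 s := by simp [hJ, a4, b4]
lemma hJ_2 (s : K) : hJ φ ax 2 s = hG ax 42 s * hG ax 37 (φ s) := by simp [hJ, a4, b4]
lemma hJ_3 (s : K) : hJ φ ax 3 s = hG ax 56 s * hG ax 36 (φ s) := by simp [hJ, a4, b4]

lemma fin4 {P : Fin 4 → Prop} (h0 : P 0) (h1 : P 1) (h2 : P 2) (h3 : P 3) (j : Fin 4) : P j := by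
  fin_cases j
  · exact h0
  · exact h1
  · exact h2
  · exact h3

lemma a4_0 : a4 0 = 46 := rfl
lemma a4_1 : a4 1 = 39 := rfl
lemma a4_2 : a4 2 = 42 := rfl
lemma a4_3 : a4 3 = 56 := rfl

lemma a4_lt (j : Fin 4) : a4 j < 72 := by
  fin_cases j <;> decide

/-- The formula for the conjugation. -/
theorem Wx (j : Fin 4) {s : K} (hs : s ≠ 0) (u : K) :
    wt φ ax (a4 j) s * xt φ ax (a4 j) u * (wt φ ax (a4 j) s)⁻¹ = xt φ ax (chevE6.neg (a4 j)) (-(s⁻¹ ^ 2 * u)) := by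
  revert j
  apply fin4
  · exact Wx_sg φ ax sg0 hs u
  · exact Wx_sg φ ax sg1 hs u
  · exact Wx_pr φ ax pr2 hs u
  · exact Wx_pr φ ax pr3 hs u

/-- The formula for the conjugation. -/
theorem Wy (j : Fin 4) {s : K} (hs : s ≠ 0) (u : K) :
    wt φ ax (a4 j) s * xt φ ax (chevE6.neg (a4 j)) u * (wt φ ax (a4 j) s)⁻¹ = xt φ ax (a4 j) (-(s ^ 2 * u)) := by
  revert j
  apply fin4
  · exact Wy_sg φ ax sg0 hs u
  · exact Wy_sg φ ax sg1 hs u
  · exact Wy_pr φ ax pr2 hs u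
  · exact Wy_pr φ ax pr3 hs u

lemma wt_hJ_sg {a i : ℕ} (H : Sg a i) (s : K) : wt φ ax a s = hG ax a s * nw chevE6 ax [i] := by
  rw [wt_sg φ ax H, nw_cons, nw_nil, mul_one, ← H.ea, nG_eq]

lemma wt_hJ_pr {a a' i i' : ℕ} (H : Pr a a' i i') (s : K) :
    wt φ ax a s = (hG ax a s * hG ax a' (φ s)) * nw chevE6 ax [i, i'] := by
  rw [wt_pr φ ax H, nw_cons, nw_cons, nw_nil, mul_one, hG_pair H.H1 H.H2 H.H3 H.H4]
  have e1 : sG ax i = nG ax a 1 := by simp only [sG, H.ea]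
  have e2 : sG ax i' = nG ax a' 1 := by simp only [sG, H.ea']
  rw [e1, e2]
  have e3 : nG ax a (-1) = (nG ax a 1)⁻¹ := by rw [nG_inv]
  have e4 : nG ax a' (-1) = (nG ax a' 1)⁻¹ := by rw [nG_inv]
  rw [e3, e4]
  have c := nG_commute (ax := ax) H.H1 H.H2 H.H3 H.H4 1 1
  have c' : (nG ax a 1)⁻¹ * (nG ax a' 1)⁻¹ = (nG ax a' 1)⁻¹ * (nG ax a 1)⁻¹ := by
    rw [← mul_inv_rev, ← mul_inv_rev, c]
  rw [c']
  group

/-- The Weyl element in terms of the monomial representatives. -/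
theorem wt_eq (j : Fin 4) (s : K) : wt φ ax (a4 j) s = hJ φ ax j s * nw chevE6 ax (wl4 j) := by
  revert j
  apply fin4
  · rw [hJ_0]
    exact wt_hJ_sg φ ax sg0 s
  · rw [hJ_1]
    exact wt_hJ_sg φ ax sg1 s
  · rw [hJ_2]
    exact wt_hJ_pr φ ax pr2 s
  · rw [hJ_3]
    exact wt_hJ_pr φ ax pr3 s

lemma hJ_mem (j : Fin 4) {s : K} (hs : s ≠ 0) : hJ φ ax j s ∈ chevE6.diagonalSubgroup K := by
  have hs' : φ s ≠ 0 := by simpa using hs
  revert j
  apply fin4
  · rw [hJ_0]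
    exact hG_mem_diagonal ax (by decide) hs
  · rw [hJ_1]
    exact hG_mem_diagonal ax (by decide) hs
  · rw [hJ_2]
    exact Subgroup.mul_mem _ (hG_mem_diagonal ax (by decide) hs) (hG_mem_diagonal ax (by decide) hs')
  · rw [hJ_3]
    exact Subgroup.mul_mem _ (hG_mem_diagonal ax (by decide) hs) (hG_mem_diagonal ax (by decide) hs')

lemma hG_one' {r : ℕ} : hG ax r (1 : K) = 1 := by
  simp only [hG]
  have : nG ax r (-1) = (nG ax r 1)⁻¹ := by rw [nG_inv]
  rw [this, mul_inv_cancel]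

lemma hJ_one (j : Fin 4) : hJ φ ax j 1 = 1 := by
  revert j
  apply fin4
  · rw [hJ_0, hG_one']
  · rw [hJ_1, hG_one']
  · rw [hJ_2, map_one, hG_one', hG_one', one_mul]
  · rw [hJ_3, map_one, hG_one', hG_one', one_mul]

lemma wt_one (j : Fin 4) : wt φ ax (a4 j) 1 = nw chevE6 ax (wl4 j) := by
  rw [wt_eq, hJ_one, one_mul]

lemma wl4_lt (j : Fin 4) : ∀ i ∈ wl4 j, i < chevE6.rank := by
  revert j
  apply fin4 <;> decide

lemma wt_nor (j : Fin 4) {s : K} (hs : s ≠ 0) : ∃ c, IsNor hE ax (wt φ ax (a4 j) s) (wPw hE (wl4 j)) c := by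
  rw [wt_eq]
  exact isNor_mul_nw hE hE2 ax (hJ_mem φ ax j hs) (wl4_lt j)

lemma wt_mono (j : Fin 4) {s : K} (hs : s ≠ 0) : wt φ ax (a4 j) s ∈ chevE6.monomialSubgroup K := by
  rw [wt_eq]
  exact Subgroup.mul_mem _ ((le_sup_left : chevE6.diagonalSubgroup K ≤ chevE6.monomialSubgroup K) (hJ_mem φ ax j hs))
    (nw_mem_monomial_aux hE hE2 ax (wl4_lt j))

/-- The permutation of a word, computed. -/
def reflL (l : List ℕ) (s : ℕ) : ℕ := l.foldr (fun i x => chevE6.reflectRoot i x) s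

lemma wPw_val (l : List ℕ) (hl : ∀ i ∈ l, i < chevE6.rank) (s : Fin chevE6.nroots) :
    ((wPw hE l s : Fin chevE6.nroots) : ℕ) = reflL l s := by
  induction l with
  | nil => rfl
  | cons a l ih =>
    rw [wPw_cons, Equiv.Perm.mul_apply, wP_of_lt hE (hl a (by simp)), wF_val]
    rw [ih (fun i hi => hl i (by simp [hi]))]
    rfl

/-- The action on the simple root. -/
theorem reflL_self : ∀ j : Fin 4, reflL (wl4 j) (a4 j) = chevE6.neg (a4 j) ∧ reflL (wl4 j) (chevE6.neg (a4 j)) = a4 j := by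
  decide +kernel

/-- Fixed parameters -/
lemma par_neg_iff {r : ℕ} (hr : r < 72) {t : K} (h : Par φ r t) : Par φ (chevE6.neg r) t := by
  intro e
  obtain ⟨-, -, -, -, -, -, h7, -, h9, h10, -⟩ := tab_rho ⟨r, hr⟩
  simp only at h7 h9 h10
  apply h
  have h11 := (tab_rho ⟨Se.ρ r, (tab_rho ⟨r, hr⟩).1⟩).2.2.2.2.2.2.2.2.2.1
  simp only at h11
  rw [h7] at e
  have := congrArg chevE6.neg e
  rwa [h11, h10] at this

end Cfsg.Agent.Lib.SchE6.Gx
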