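import Cfsg.Agent.Lib.SchE6.Gx6

/-!
Rank one systems and the Bruhat closure in a central extension of `²E₆(q)`.
-/

set_option autoImplicit false
set_option linter.unusedSectionVars false
set_option linter.unusedVariables false
set_option linter.ambiguousOpen false
set_option linter.dupNamespace false
set_option linter.unusedSimpArgs false

namespace Cfsg.Agent.Lib.SchE6.Gx

open scoped MatrixGroups Matrix
open Cfsg Lie ChevalleyDatum
open Cfsg.Agent.Lib.Chev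
open Tables Tables2 Tables3 Raise Basic AxBasic Torus Products Products2 Mono1 Mono2 Mono3 Bn ChevSimple Diag
open Cfsg.Agent.Lib.Twisted.Fact Cfsg.Agent.Lib.Twisted.Bruhat Cfsg.Agent.Lib.Twisted.Tw
open Cfsg.Agent.Lib.Twisted.Struct Cfsg.Agent.Lib.Twisted.Check Cfsg.Agent.Lib.Twisted.Ortho
open Cfsg.Agent.Lib.Twisted.TorusFix
open Cfsg.Agent.Lib.GraphAut.Basic Cfsg.Agent.S1081
open Cfsg.Agent.Lib.Twisted.E6 Cfsg.Agent.Lib.Twisted.E6H
open Cfsg.Agent.Lib.SchD4.Abs Cfsg.Agent.Lib.SchE6.Brh Cfsg.Agent.Lib.SchE6.Zc Cfsg.Agent.Lib.SchE6.Can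
open Cfsg.Agent.Lib.Classical.StSL2 (Sys)

/-- The field of parameters. -/
def FP {K : Type*} [Field K] (φ : K ≃+* K) (r : ℕ) : Subfield K where
  carrier := {t | Par φ r t}
  mul_mem' ha hb := fun h => by rw [map_mul, ha h, hb h]
  one_mem' := fun _ => map_one φ
  add_mem' ha hb := fun h => by rw [map_add, ha h, hb h]
  zero_mem' := fun _ => map_zero φ
  neg_mem' ha := fun h => by rw [map_neg, ha h]
  inv_mem' _ ha := fun h => by rw [map_inv₀, ha h]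

lemma sys_of {E F : Type*} [Group E] [Field F] {x y : F → E} (hax : ∀ t u, x (t + u) = x t * x u) (hay : ∀ t u, y (t + u) = y t * y u)
    (hi : ∀ t u, t ≠ 0 → (x t * y (-t⁻¹) * x t) * x u * (x t * y (-t⁻¹) * x t)⁻¹ = y (-(t⁻¹ ^ 2 * u)))
    (hii : ∀ t u, t ≠ 0 → (x t * y (-t⁻¹) * x t) * y u * (x t * y (-t⁻¹) * x t)⁻¹ = x (-(t ^ 2 * u))) : Sys x y := by
  refine ⟨hax, hay, hi, ?_⟩
  intro t u ht
  have hs0 : -t⁻¹ ≠ 0 := neg_ne_zero.mpr (inv_ne_zero ht)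
  have e1 : -(-t⁻¹)⁻¹ = t := by
    rw [inv_neg, neg_neg, inv_inv]
  have h1 := hi (-t⁻¹) (-t⁻¹) hs0
  rw [e1] at h1
  have e2 : -((-t⁻¹)⁻¹ ^ 2 * (-t⁻¹)) = t := by
    field_simp
  rw [e2] at h1
  have h2 : y t * x (-t⁻¹) * y t = x (-t⁻¹) * y t * x (-t⁻¹) := by
    have h4 := mul_inv_eq_iff_eq_mul.mp h1
    have h3 : (x (-t⁻¹) * y t * x (-t⁻¹)) * x (-t⁻¹) = (y t * x (-t⁻¹) * y t) * x (-t⁻¹) := by
      rw [h4]
      group
    exact (mul_right_cancel h3).symm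
  rw [h2]
  have h3 := hii (-t⁻¹) u hs0
  rw [e1] at h3
  rw [h3]
  congr 2
  ring

theorem neg_pos_all : ∀ r : Fin 72, chevE6.IsNegRoot r → chevE6.IsPosRoot (chevE6.neg r) := by decide +kernel

variable {K : Type*} [Field K] {q : ℕ} {φ : K ≃+* K} (hφ : ∀ t, φ t = t ^ q) (hφ2 : ∀ t, φ (φ t) = t) {ax : Ax chevE6 K}
variable {E : Type*} [Group E] {σ : E →* ↥(twistedE6 K q)} {xh : ℕ → K → E} (L : Lf φ ax σ xh)

lemma neg_lt {r : ℕ} (hr : r < 72) : chevE6.neg r < 72 := (tab_rho ⟨r, hr⟩).2.2.2.2.2.2.2.2.1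

lemma par_ninv {r : ℕ} {t : K} (ht : Par φ r t) : Par φ r (-t⁻¹) := fun h => by rw [map_neg, map_inv₀, ht h]

lemma par_one (r : ℕ) : Par φ r 1 := fun _ => map_one φ

include L

lemma L_zero {r : ℕ} (hr : r < 72) : xh r 0 = 1 := by
  have := L.add hr (t := 0) (u := 0) (fun _ => map_zero φ) (fun _ => map_zero φ)
  rw [add_zero] at this
  exact mul_eq_left.mp this.symm

lemma L_neg {r : ℕ} (hr : r < 72) {t : K} (ht : Par φ r t) : xh r (-t) = (xh r t)⁻¹ := by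
  have hn : Par φ r (-t) := fun h => by rw [map_neg, ht h]
  have := L.add hr ht hn
  rw [add_neg_cancel, L_zero L hr] at this
  exact eq_inv_of_mul_eq_one_right this.symm

include hφ hφ2 in
/-- Conjugation in a known form. -/
theorem conj' (ν : E) {π : Equiv.Perm (Fin chevE6.nroots)} {c : Fin chevE6.nroots → Kˣ}
    (H : IsNor hE ax ((σ ν : ↥(twistedE6 K q)) : GL chevE6.Idx K) π c) {r r' : ℕ} {t t' : K} (hr : r < 72) (hr' : r' < 72)
    (hπ : ((π ⟨r, hr⟩ : Fin chevE6.nroots) : ℕ) = r') (ht : Par φ r t)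
    (e : ((σ ν : ↥(twistedE6 K q)) : GL chevE6.Idx K) * xt φ ax r t * ((σ ν : ↥(twistedE6 K q)) : GL chevE6.Idx K)⁻¹ = xt φ ax r' t') :
    ν * xh r t * ν⁻¹ = xh r' t' := by
  obtain ⟨e1, -⟩ := conj_xt φ ax (G1_le φ hφ hφ2 ax (σ ν).2) H hr ht
  rw [L.conj ν H hr ht]
  rw [hπ] at e1 ⊢
  rw [xt_inj φ ax hr' (e1.symm.trans e)]

omit L in
/-- The Weyl element in the extension. -/
def wE (xh : ℕ → K → E) (a : ℕ) (t : K) : E := xh a t * xh (chevE6.neg a) (-t⁻¹) * xh a t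

lemma sec_w {a : ℕ} {t : K} (ha : a < 72) (ht : Par φ a t) :
    ((σ (wE xh a t) : ↥(twistedE6 K q)) : GL chevE6.Idx K) = wt φ ax a t := by
  simp only [wE, map_mul, Subgroup.coe_mul, wt]
  rw [L.sec ha ht, L.sec (neg_lt ha) (par_neg_iff φ ha (par_ninv ht))]

lemma nor_w (j : Fin 4) {t : K} (h0 : t ≠ 0) (ht : Par φ (a4 j) t) :
    ∃ c, IsNor hE ax ((σ (wE xh (a4 j) t) : ↥(twistedE6 K q)) : GL chevE6.Idx K) (wPw hE (wl4 j)) c := by
  rw [sec_w L (a4_lt j) ht]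
  exact wt_nor φ ax j h0

omit L in
lemma pi_self (j : Fin 4) : ((wPw hE (wl4 j) ⟨a4 j, a4_lt j⟩ : Fin chevE6.nroots) : ℕ) = chevE6.neg (a4 j) := by
  rw [wPw_val _ (wl4_lt j)]
  exact (reflL_self j).1

omit L in
lemma pi_self' (j : Fin 4) : ((wPw hE (wl4 j) ⟨chevE6.neg (a4 j), neg_lt (a4_lt j)⟩ : Fin chevE6.nroots) : ℕ) = a4 j := by
  rw [wPw_val _ (wl4_lt j)]
  exact (reflL_self j).2

include hφ hφ2

theorem Ex (j : Fin 4) {t : K} (h0 : t ≠ 0) (ht : Par φ (a4 j) t) {u : K} (hu : Par φ (a4 j) u) :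
    wE xh (a4 j) t * xh (a4 j) u * (wE xh (a4 j) t)⁻¹ = xh (chevE6.neg (a4 j)) (-(t⁻¹ ^ 2 * u)) := by
  obtain ⟨c, H⟩ := nor_w L j h0 ht
  refine conj' hφ hφ2 L _ H (a4_lt j) (neg_lt (a4_lt j)) (pi_self j) hu ?_
  rw [sec_w L (a4_lt j) ht]
  exact Wx φ ax j h0 u

theorem Ey (j : Fin 4) {t : K} (h0 : t ≠ 0) (ht : Par φ (a4 j) t) {u : K} (hu : Par φ (a4 j) u) :
    wE xh (a4 j) t * xh (chevE6.neg (a4 j)) u * (wE xh (a4 j) t)⁻¹ = xh (a4 j) (-(t ^ 2 * u)) := by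
  obtain ⟨c, H⟩ := nor_w L j h0 ht
  refine conj' hφ hφ2 L _ H (neg_lt (a4_lt j)) (a4_lt j) (pi_self' j) (par_neg_iff φ (a4_lt j) hu) ?_
  rw [sec_w L (a4_lt j) ht]
  exact Wy φ ax j h0 u

omit hφ hφ2 L in
/-- The root elements as a function of the field of parameters. -/
def xJ (xh : ℕ → K → E) (φ : K ≃+* K) (j : Fin 4) (t : FP φ (a4 j)) : E := xh (a4 j) t

omit hφ hφ2 L in
/-- The root elements as a function of the field of parameters. -/
def yJ (xh : ℕ → K → E) (φ : K ≃+* K) (j : Fin 4) (t : FP φ (a4 j)) : E := xh (chevE6.neg (a4 j)) t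

/-- The rank one systems. -/
theorem sysJ (j : Fin 4) : Sys (xJ xh φ j) (yJ xh φ j) := by
  refine sys_of ?_ ?_ ?_ ?_
  · intro t u
    exact L.add (a4_lt j) t.2 u.2
  · intro t u
    exact L.add (neg_lt (a4_lt j)) (par_neg_iff φ (a4_lt j) t.2) (par_neg_iff φ (a4_lt j) u.2)
  · intro t u ht
    have ht0 : (t : K) ≠ 0 := by simpa using ht
    exact Ex hφ hφ2 L j ht0 t.2 u.2
  · intro t u ht
    have ht0 : (t : K) ≠ 0 := by simpa using ht
    exact Ey hφ hφ2 L j ht0 t.2 u.2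

omit hφ hφ2 L in
/-- The Weyl type elements. -/
def WJ (xh : ℕ → K → E) (φ : K ≃+* K) (j : Fin 4) : Set E := {g | ∃ t, Par φ (a4 j) t ∧ t ≠ 0 ∧ g = wE xh (a4 j) t}

omit hφ hφ2 L in
/-- The representatives. -/
def nJ (xh : ℕ → K → E) (j : Fin 4) : E := wE xh (a4 j) 1

omit hφ hφ2 L in
lemma nJ_mem (j : Fin 4) : nJ xh j ∈ WJ xh φ j := ⟨1, par_one _, one_ne_zero, rfl⟩

omit hφ hφ2 in
lemma wE_inv (j : Fin 4) {t : K} (ht : Par φ (a4 j) t) : (wE xh (a4 j) t)⁻¹ = wE xh (a4 j) (-t) := by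
  have hn := par_neg_iff φ (a4_lt j) (par_ninv ht)
  simp only [wE]
  rw [L_neg L (a4_lt j) ht]
  have e : -(-t)⁻¹ = - (-t⁻¹) := by rw [inv_neg]
  rw [e, L_neg L (neg_lt (a4_lt j)) hn]
  group

omit hφ hφ2 in
lemma WJ_inv (j : Fin 4) : ∀ g ∈ WJ xh φ j, g⁻¹ ∈ WJ xh φ j := by
  rintro _ ⟨t, ht, h0, rfl⟩
  exact ⟨-t, fun h => by rw [map_neg, ht h], neg_ne_zero.mpr h0, wE_inv L j ht⟩

/-- A torus element scales. -/
theorem scale_x {g : E} {y : ℕ → Kˣ} (hg : ((σ g : ↥(twistedE6 K q)) : GL chevE6.Idx K) = tor chevE6 y) {r : ℕ} (hr : r < 72) {t : K}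
    (ht : Par φ r t) : g * xh r t * g⁻¹ = xh r ((chi chevE6 y r : Kˣ) * t) := by
  have H : IsNor hE ax ((σ g : ↥(twistedE6 K q)) : GL chevE6.Idx K) 1 (fun s => chi chevE6 y s) := by
    rw [hg]
    exact isNor_tor hE ax y
  exact L.conj g H hr ht

theorem WJ_conj (j : Fin 4) {g : E} (hg : ((σ g : ↥(twistedE6 K q)) : GL chevE6.Idx K) ∈ chevE6.diagonalSubgroup K) :
    ∀ w ∈ WJ xh φ j, g * w * g⁻¹ ∈ WJ xh φ j := by
  rintro _ ⟨t, ht, h0, rfl⟩
  obtain ⟨y, ey⟩ := exists_tor_of_mem ax hE hg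
  have hmem : tor chevE6 y ∈ twistedE6 K q := by
    rw [← ey]
    exact (σ g).2
  have ha := a4_lt j
  have e1 := scale_x hφ hφ2 L ey ha ht
  have e2 := scale_x hφ hφ2 L ey (neg_lt ha) (par_neg_iff φ ha (par_ninv ht))
  have hs : chi chevE6 y (chevE6.neg (a4 j)) = (chi chevE6 y (a4 j))⁻¹ := chi_neg hE y ha
  refine ⟨(chi chevE6 y (a4 j) : Kˣ) * t, tor_par φ hφ hφ2 ax hmem ha ht, mul_ne_zero (Units.ne_zero _) h0, ?_⟩
  have e3 : g * wE xh (a4 j) t * g⁻¹ = (g * xh (a4 j) t * g⁻¹) * (g * xh (chevE6.neg (a4 j)) (-t⁻¹) * g⁻¹) * (g * xh (a4 j) t * g⁻¹) := by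
    simp only [wE]
    group
  rw [e3, e1, e2, hs]
  simp only [wE]
  congr 3
  rw [Units.val_inv_eq_inv_val]
  have := (chi chevE6 y (a4 j)).ne_zero
  field_simp

/-! ### The subgroups for the Bruhat closure -/

omit hφ hφ2 L in
/-- The lifted unipotent group. -/
def Ut (φ : K ≃+* K) (xh : ℕ → K → E) : Subgroup E :=
  Subgroup.closure {g | ∃ r, chevE6.IsPosRoot r ∧ ∃ t, Par φ r t ∧ g = xh r t}

omit hφ hφ2 L in
/-- The complement of a root group in the lifted unipotent group. -/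
def Mt (φ : K ≃+* K) (xh : ℕ → K → E) (j : Fin 4) : Subgroup E :=
  Subgroup.closure {g | ∃ r, chevE6.IsPosRoot r ∧ r ≠ a4 j ∧ r ≠ Se.ρ (a4 j) ∧ ∃ t, Par φ r t ∧ g = xh r t}

omit hφ hφ2 L in
/-- The positive roots. -/
def posB (r : ℕ) : Bool := decide (chevE6.IsPosRoot r)

omit hφ hφ2 L in
/-- The root conditions. -/
def goodB (a c : ℕ) : Bool := posB c && decide (c ≠ a) && decide (c ≠ rhoP a)

omit hφ hφ2 L in
/-- The table for a simple relative root. -/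
def chkB (a : ℕ) : Bool :=
  allBelow 72 fun b => !(posB b) || decide (b = a) || decide (b = rhoP a) ||
    (okB a b && okB (negP a) b && (Wr a b).all (goodB a) && (Wr (negP a) b).all (goodB a))

omit hφ hφ2 L in
theorem chkB_all : ∀ j : Fin 4, chkB (a4 j) = true := by decide +kernel

omit hφ hφ2 L in
theorem pos_a4 : ∀ j : Fin 4, chevE6.IsPosRoot (a4 j) := by decide +kernel

omit hφ hφ2 L in
lemma chkB_dec (j : Fin 4) {b : ℕ} (hb : chevE6.IsPosRoot b) (h1 : b ≠ a4 j) (h2 : b ≠ Se.ρ (a4 j)) :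
    okB (a4 j) b = true ∧ okB (chevE6.neg (a4 j)) b = true ∧ (∀ c ∈ Wr (a4 j) b, chevE6.IsPosRoot c ∧ c ≠ a4 j ∧ c ≠ Se.ρ (a4 j)) ∧
      (∀ c ∈ Wr (chevE6.neg (a4 j)) b, chevE6.IsPosRoot c ∧ c ≠ a4 j ∧ c ≠ Se.ρ (a4 j)) := by
  have h := allBelow_spec (chkB_all j) b hb.1
  have hp : posB b = true := by simpa [posB] using hb
  rw [← rho_eq (a4_lt j), ← neg_eq (a4_lt j)] at *
  have h' : (okB (a4 j) b && okB (chevE6.neg (a4 j)) b && (Wr (a4 j) b).all (goodB (a4 j)) && (Wr (chevE6.neg (a4 j)) b).all (goodB (a4 j))) = true := by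
    have h3 : rhoP (a4 j) = Se.ρ (a4 j) := (rho_eq (a4_lt j)).symm
    simpa [hp, h1, h2, h3] using h
  simp only [Bool.and_eq_true, List.all_eq_true] at h'
  obtain ⟨⟨⟨k1, k2⟩, k3⟩, k4⟩ := h'
  have dec : ∀ c, goodB (a4 j) c = true → chevE6.IsPosRoot c ∧ c ≠ a4 j ∧ c ≠ Se.ρ (a4 j) := by
    intro c hc
    simp only [goodB, posB, Bool.and_eq_true, decide_eq_true_eq] at hc
    refine ⟨hc.1.1, hc.1.2, ?_⟩
    rw [rho_eq (a4_lt j)]
    exact hc.2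
  exact ⟨k1, k2, fun c hc => dec c (k3 c hc), fun c hc => dec c (k4 c hc)⟩

lemma xt_mem_Ut {r : ℕ} (hr : chevE6.IsPosRoot r) {t : K} (ht : Par φ r t) : xh r t ∈ Ut φ xh :=
  Subgroup.subset_closure ⟨r, hr, t, ht, rfl⟩

omit hφ hφ2 in
lemma Mt_le (j : Fin 4) : Mt φ xh j ≤ Ut φ xh := by
  apply Subgroup.closure_mono
  rintro g ⟨r, hr, -, -, h⟩
  exact ⟨r, hr, h⟩

omit hφ hφ2 in
/-- The normalisation of the complement. -/
lemma Mt_nor (j : Fin 4) {a : ℕ} (hab : ∀ b, chevE6.IsPosRoot b → b ≠ a4 j → b ≠ Se.ρ (a4 j) → okB a b = true ∧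
      ∀ c ∈ Wr a b, chevE6.IsPosRoot c ∧ c ≠ a4 j ∧ c ≠ Se.ρ (a4 j)) {t : K} (ht : Par φ a t) :
    ∀ m ∈ Mt φ xh j, xh a t * m * (xh a t)⁻¹ ∈ Mt φ xh j := by
  intro m hm
  induction hm using Subgroup.closure_induction with
  | mem g hg =>
    obtain ⟨b, hb, h1, h2, u, hu, rfl⟩ := hg
    obtain ⟨ok, hc⟩ := hab b hb h1 h2
    have k := L.brk ok ht hu
    have e : xh a t * xh b u * (xh a t)⁻¹ = (xh a t * xh b u * (xh a t)⁻¹ * (xh b u)⁻¹) * xh b u := by group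
    rw [e]
    refine Subgroup.mul_mem _ ?_ (Subgroup.subset_closure ⟨b, hb, h1, h2, u, hu, rfl⟩)
    refine (Subgroup.closure_le _).mpr ?_ k
    rintro g ⟨c, hc', w, hw, rfl⟩
    obtain ⟨c1, c2, c3⟩ := hc c hc'
    exact Subgroup.subset_closure ⟨c, c1, c2, c3, w, hw, rfl⟩
  | one => simp [Subgroup.one_mem]
  | mul x y _ _ hx hy =>
    have : xh a t * (x * y) * (xh a t)⁻¹ = (xh a t * x * (xh a t)⁻¹) * (xh a t * y * (xh a t)⁻¹) := by group
    rw [this]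
    exact Subgroup.mul_mem _ hx hy
  | inv x _ hx =>
    have : xh a t * x⁻¹ * (xh a t)⁻¹ = (xh a t * x * (xh a t)⁻¹)⁻¹ := by group
    rw [this]
    exact Subgroup.inv_mem _ hx

omit hφ hφ2 in
lemma Ut_le (j : Fin 4) : Ut φ xh ≤ Subgroup.closure (Set.range (xJ xh φ j) ∪ (Mt φ xh j : Set E)) := by
  rw [Ut, Subgroup.closure_le]
  rintro g ⟨r, hr, t, ht, rfl⟩
  by_cases h1 : r = a4 j
  · subst h1
    exact Subgroup.subset_closure (Or.inl ⟨⟨t, ht⟩, rfl⟩)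
  · by_cases h2 : r = Se.ρ (a4 j)
    · have hne : Se.ρ (a4 j) ≠ a4 j := by
        rw [← h2]
        exact h1
      rw [h2, L.rho (a4_lt j) hne]
      exact Subgroup.subset_closure (Or.inl ⟨⟨_, fun e => absurd e hne⟩, rfl⟩)
    · exact Subgroup.subset_closure (Or.inr (Subgroup.subset_closure ⟨r, hr, h1, h2, t, ht, rfl⟩))

omit hφ hφ2 L in
/-- The monomial part of the extension. -/
abbrev Nt (φ : K ≃+* K) (xh : ℕ → K → E) : Subgroup E := N₀ (WJ xh φ)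

omit hφ hφ2 in
lemma mono_of_N {ν : E} (hν : ν ∈ Nt φ xh) : ((σ ν : ↥(twistedE6 K q)) : GL chevE6.Idx K) ∈ chevE6.monomialSubgroup K := by
  induction hν using Subgroup.closure_induction with
  | mem g hg =>
    obtain ⟨j, t, ht, h0, rfl⟩ := hg
    rw [sec_w L (a4_lt j) ht]
    exact wt_mono φ ax j h0
  | one => simp [Subgroup.one_mem]
  | mul x y _ _ hx hy =>
    rw [map_mul, Subgroup.coe_mul]
    exact Subgroup.mul_mem _ hx hy
  | inv x _ hx =>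
    rw [map_inv, Subgroup.coe_inv]
    exact Subgroup.inv_mem _ hx

/-- Conjugation of positive root elements into the lifted unipotent group. -/
lemma conj_U (ν : E) {π : Equiv.Perm (Fin chevE6.nroots)} {c : Fin chevE6.nroots → Kˣ}
    (H : IsNor hE ax ((σ ν : ↥(twistedE6 K q)) : GL chevE6.Idx K) π c) {r : ℕ} {t : K} (hr : r < 72) (ht : Par φ r t)
    (hp : chevE6.IsPosRoot (π ⟨r, hr⟩)) : ν * xh r t * ν⁻¹ ∈ Ut φ xh := by
  rw [L.conj ν H hr ht]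
  exact xt_mem_Ut hφ hφ2 L hp (conj_xt φ ax (G1_le φ hφ hφ2 ax (σ ν).2) H hr ht).2

/-- The dichotomy. -/
lemma dichJ (j : Fin 4) : ∀ ν ∈ Nt φ xh, (∀ c, ν⁻¹ * xJ xh φ j c * ν ∈ Ut φ xh) ∨ (∀ c, ν⁻¹ * yJ xh φ j c * ν ∈ Ut φ xh) := by
  intro ν hν
  obtain ⟨π, c, H⟩ := exists_isNor hE hE2 ax (mono_of_N L hν)
  have Hi := IsNor.inv hE ax H
  have Hi' : IsNor hE ax ((σ ν⁻¹ : ↥(twistedE6 K q)) : GL chevE6.Idx K) π⁻¹ (fun s => (c (π⁻¹ s))⁻¹) := by
    rw [map_inv, Subgroup.coe_inv]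
    exact Hi
  have ha := a4_lt j
  rcases (tab_rho ((π⁻¹ ⟨a4 j, ha⟩ : Fin chevE6.nroots))).2.2.2.2.2.2.2.2.2.2 with hp | hp
  · left
    intro t
    have := conj_U hφ hφ2 L ν⁻¹ Hi' ha t.2 hp
    rwa [inv_inv] at this
  · right
    intro t
    have hp2 := neg_pos_all _ hp
    have hneg := Hi.neg ⟨a4 j, ha⟩
    have hnn : (negF hE ⟨a4 j, ha⟩ : Fin chevE6.nroots) = ⟨chevE6.neg (a4 j), neg_lt ha⟩ := rfl
    rw [hnn] at hneg
    have hp3 : chevE6.IsPosRoot (π⁻¹ ⟨chevE6.neg (a4 j), neg_lt ha⟩) := by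
      rw [hneg]
      exact hp2
    have := conj_U hφ hφ2 L ν⁻¹ Hi' (neg_lt ha) (par_neg_iff φ ha t.2) hp3
    rwa [inv_inv] at this

/-- The Bruhat closure. -/
theorem closedJ (j : Fin 4) {t : K} (ht : Par φ (a4 j) t) {g : E} (hg : g ∈ UNU (Ut φ xh) (Nt φ xh)) :
    xh (chevE6.neg (a4 j)) t * g ∈ UNU (Ut φ xh) (Nt φ xh) := by
  have S := sysJ hφ hφ2 L j
  have hneg := par_neg_iff φ (a4_lt j) ht
  have hxM : ∀ (a : FP φ (a4 j)), ∀ m ∈ Mt φ xh j, xJ xh φ j a * m * (xJ xh φ j a)⁻¹ ∈ Mt φ xh j := by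
    intro a
    refine Mt_nor L j (fun b hb h1 h2 => ?_) a.2
    obtain ⟨k1, -, k3, -⟩ := chkB_dec j hb h1 h2
    exact ⟨k1, k3⟩
  have hyM : ∀ (a : FP φ (a4 j)), ∀ m ∈ Mt φ xh j, yJ xh φ j a * m * (yJ xh φ j a)⁻¹ ∈ Mt φ xh j := by
    intro a
    refine Mt_nor L j (fun b hb h1 h2 => ?_) (par_neg_iff φ (a4_lt j) a.2)
    obtain ⟨-, k2, -, k4⟩ := chkB_dec j hb h1 h2
    exact ⟨k2, k4⟩
  refine closed_y S (Ut φ xh) (Nt φ xh) (Mt φ xh j) ?_ (Mt_le L j) (form_U S (Ut_le L j) hxM) hxM hyM ?_ (dichJ hφ hφ2 L j) ⟨t, ht⟩ hg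
  · intro a
    exact xt_mem_Ut hφ hφ2 L (pos_a4 j) a.2
  · intro a ha
    refine Subgroup.subset_closure ⟨j, a, a.2, by simpa using ha, rfl⟩

omit hφ hφ2 L in
/-- The subgroup generated by the lifted unipotent group and the negative simple root elements. -/
def E0 (φ : K ≃+* K) (xh : ℕ → K → E) : Subgroup E :=
  Subgroup.closure ((Ut φ xh : Set E) ∪ {g | ∃ j : Fin 4, ∃ t, Par φ (a4 j) t ∧ g = xh (chevE6.neg (a4 j)) t})

/-- The subgroup is contained in the big cell. -/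
theorem E0_UNU {g : E} (hg : g ∈ E0 φ xh) : g ∈ UNU (Ut φ xh) (Nt φ xh) := by
  rw [E0] at hg
  induction hg using Subgroup.closure_induction_left with
  | one => exact one_mem_UNU _ _
  | mul_left g hg' y _ ih =>
    rcases hg' with h1 | ⟨j, t, ht, rfl⟩
    · exact left_mem_UNU h1 ih
    · exact closedJ hφ hφ2 L j ht ih
  | inv_mul_cancel g hg' y _ ih =>
    rcases hg' with h1 | ⟨j, t, ht, rfl⟩
    · exact left_mem_UNU ((Ut φ xh).inv_mem h1) ih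
    · rw [← L_neg L (neg_lt (a4_lt j)) (par_neg_iff φ (a4_lt j) ht)]
      exact closedJ hφ hφ2 L j (fun h => by rw [map_neg, ht h]) ih

lemma xJ_mem_E0 {j : Fin 4} {t : K} (ht : Par φ (a4 j) t) : xh (a4 j) t ∈ E0 φ xh :=
  Subgroup.subset_closure (Or.inl (xt_mem_Ut hφ hφ2 L (pos_a4 j) ht))

omit hφ hφ2 L in
lemma yJ_mem_E0 {j : Fin 4} {t : K} (ht : Par φ (a4 j) t) : xh (chevE6.neg (a4 j)) t ∈ E0 φ xh :=
  Subgroup.subset_closure (Or.inr ⟨j, t, ht, rfl⟩)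

/-- The subgroup covers the group. -/
theorem E0_surj (g : ↥(twistedE6 K q)) : ∃ e ∈ E0 φ xh, σ e = g := by
  have hle : twistedE6 K q ≤ ((E0 φ xh).map σ).map (twistedE6 K q).subtype := by
    change Subgroup.closure {g : GL chevE6.Idx K | ∃ w ∈ e6Words K q, (g : Matrix chevE6.Idx chevE6.Idx K) = chevE6.wordMat K w} ≤ _
    rw [Subgroup.closure_le]
    rintro g ⟨w, hw, hg⟩
    have hX : ∀ j : Fin 4, ∀ {t : K}, Par φ (a4 j) t → xt φ ax (a4 j) t ∈ ((E0 φ xh).map σ).map (twistedE6 K q).subtype := by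
      intro j t ht
      refine ⟨σ (xh (a4 j) t), ⟨_, xJ_mem_E0 hφ hφ2 L ht, rfl⟩, ?_⟩
      exact L.sec (a4_lt j) ht
    have hY : ∀ j : Fin 4, ∀ {t : K}, Par φ (a4 j) t → xt φ ax (chevE6.neg (a4 j)) t ∈ ((E0 φ xh).map σ).map (twistedE6 K q).subtype := by
      intro j t ht
      refine ⟨σ (xh (chevE6.neg (a4 j)) t), ⟨_, yJ_mem_E0 ht, rfl⟩, ?_⟩
      exact L.sec (neg_lt (a4_lt j)) (par_neg_iff φ (a4_lt j) ht)
    rcases hw with ⟨t, ht, r, hr, rfl⟩ | ⟨t, rs, hrs, rfl⟩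
    · have e : g = xG ax r t := Units.ext (by rw [hg, xG_val, word_single])
      rw [e]
      have hφt : φ t = t := by rw [hφ, ht]
      simp only [List.mem_cons, List.not_mem_nil, or_false] at hr
      rcases hr with rfl | rfl | rfl | rfl
      · have h := hX 0 (t := t) (fun _ => hφt)
        rwa [show a4 0 = e6p2 from rfl, xt_fix φ ax (by decide +kernel)] at h
      · have h := hY 0 (t := t) (fun _ => hφt)
        rwa [show chevE6.neg (a4 0) = e6m2 by decide +kernel, xt_fix φ ax (by decide +kernel)] at h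
      · have h := hX 1 (t := t) (fun _ => hφt)
        rwa [show a4 1 = e6p4 from rfl, xt_fix φ ax (by decide +kernel)] at h
      · have h := hY 1 (t := t) (fun _ => hφt)
        rwa [show chevE6.neg (a4 1) = e6m4 by decide +kernel, xt_fix φ ax (by decide +kernel)] at h
    · have e : g = xG ax rs.1 t * xG ax rs.2 (t ^ q) := Units.ext (by rw [hg, word_pair]; simp)
      rw [e, ← hφ]
      have hpt : ∀ j : Fin 4, Se.ρ (a4 j) ≠ a4 j → Par φ (a4 j) t := fun j h e => absurd e h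
      simp only [List.mem_cons, List.not_mem_nil, or_false] at hrs
      rcases hrs with rfl | rfl | rfl | rfl
      · have h := hX 3 (hpt 3 (by decide +kernel))
        rwa [show a4 3 = 56 from rfl, xt_pr φ ax pr3] at h
      · have h := hY 3 (hpt 3 (by decide +kernel))
        rwa [show a4 3 = 56 from rfl, xt_pr' φ ax pr3] at h
      · have h := hX 2 (hpt 2 (by decide +kernel))
        rwa [show a4 2 = 42 from rfl, xt_pr φ ax pr2] at h
      · have h := hY 2 (hpt 2 (by decide +kernel))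
        rwa [show a4 2 = 42 from rfl, xt_pr' φ ax pr2] at h
  obtain ⟨_, ⟨e, he, rfl⟩, h2⟩ := hle g.2
  exact ⟨e, he, Subtype.ext h2⟩

omit hφ hφ2 L in
lemma U_inf_mono {g : GL chevE6.Idx K} (ax : Ax chevE6 K) (h1 : g ∈ chevE6.posUnipotent K) (h2 : g ∈ chevE6.monomialSubgroup K) : g = 1 := by
  have h3 : g ∈ chevE6.diagonalSubgroup K := by
    rw [← borel_inf_monomial hE hE2 ax]
    exact ⟨Subgroup.mem_sup_left h1, h2⟩
  have h4 : g ∈ (⊥ : Subgroup (GL chevE6.Idx K)) := by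
    rw [← U_inf_H ax hE]
    exact ⟨h1, h3⟩
  exact Subgroup.mem_bot.mp h4

omit hφ hφ2 L in
lemma xt_mem_posU (ax : Ax chevE6 K) {r : ℕ} (hr : chevE6.IsPosRoot r) (t : K) : xt φ ax r t ∈ chevE6.posUnipotent K := by
  by_cases h : Se.ρ r = r
  · rw [xt_fix φ ax h]
    exact xG_mem_U ax hr t
  · rw [xt_pair φ ax h]
    exact Subgroup.mul_mem _ (xG_mem_U ax hr t) (xG_mem_U ax (rho_pos hr.1 hr) _)

omit hφ hφ2 in
lemma Ut_image {u : E} (hu : u ∈ Ut φ xh) : ((σ u : ↥(twistedE6 K q)) : GL chevE6.Idx K) ∈ chevE6.posUnipotent K := by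
  induction hu using Subgroup.closure_induction with
  | mem g hg =>
    obtain ⟨r, hr, t, ht, rfl⟩ := hg
    rw [L.sec hr.1 ht]
    exact xt_mem_posU ax hr t
  | one => simp [Subgroup.one_mem]
  | mul x y _ _ hx hy =>
    rw [map_mul, Subgroup.coe_mul]
    exact Subgroup.mul_mem _ hx hy
  | inv x _ hx =>
    rw [map_inv, Subgroup.coe_inv]
    exact Subgroup.inv_mem _ hx

/-- The image of the lifted unipotent group. -/
theorem Ut_surj {g : ↥(twistedE6 K q)} (hg : (g : GL chevE6.Idx K) ∈ chevE6.posUnipotent K) : ∃ u ∈ Ut φ xh, σ u = g := by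
  obtain ⟨e, he, rfl⟩ := E0_surj hφ hφ2 L g
  obtain ⟨u₁, h1, ν, hν, u₂, h2, rfl⟩ := E0_UNU hφ hφ2 L he
  have hU : ((σ ν : ↥(twistedE6 K q)) : GL chevE6.Idx K) ∈ chevE6.posUnipotent K := by
    have e1 : ((σ ν : ↥(twistedE6 K q)) : GL chevE6.Idx K) =
        ((σ u₁ : ↥(twistedE6 K q)) : GL chevE6.Idx K)⁻¹ * ((σ (u₁ * ν * u₂) : ↥(twistedE6 K q)) : GL chevE6.Idx K) *
          ((σ u₂ : ↥(twistedE6 K q)) : GL chevE6.Idx K)⁻¹ := by
      simp only [map_mul, Subgroup.coe_mul]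
      group
    rw [e1]
    exact Subgroup.mul_mem _ (Subgroup.mul_mem _ (Subgroup.inv_mem _ (Ut_image L h1)) hg) (Subgroup.inv_mem _ (Ut_image L h2))
  have h3 := U_inf_mono ax hU (mono_of_N L hν)
  have h4 : σ ν = 1 := Subtype.ext h3
  refine ⟨u₁ * u₂, Subgroup.mul_mem _ h1 h2, ?_⟩
  simp only [map_mul, h4, mul_one]

omit hφ hφ2 in
/-- The monomial part meets the lifted unipotent group trivially modulo the kernel. -/
lemma hI_main : ∀ ν ∈ Nt φ xh, ∀ u ∈ Ut φ xh, σ ν = σ u → σ ν = 1 := by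
  intro ν hν u hu e
  have h1 : ((σ ν : ↥(twistedE6 K q)) : GL chevE6.Idx K) ∈ chevE6.posUnipotent K := by
    rw [e]
    exact Ut_image L hu
  exact Subtype.ext (U_inf_mono ax h1 (mono_of_N L hν))

end Cfsg.Agent.Lib.SchE6.Gx
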