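import Cfsg.Agent.Lib.SchE6.Gx7
import Cfsg.Agent.Lib.Twisted.E6c

/-!
The lifted unipotent group and the kernel of a stem extension of `²E₆(q)`.
-/

set_option autoImplicit false
set_option linter.unusedSectionVars false
set_option linter.unusedVariables false
set_option linter.ambiguousOpen false
set_option linter.dupNamespace false
set_option linter.unusedSimpArgs false

namespace Cfsg.Agent.Lib.SchE6.Gx

open scoped MatrixGroups Matrix
open Cfsg Lie ChevalleyDatum
open Cfsg.Agent.Lib.Chev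
open Tables Tables2 Tables3 Raise Basic AxBasic Torus Products Products2 Mono1 Mono2 Mono3 Bn ChevSimple Diag
open Cfsg.Agent.Lib.Twisted.Fact Cfsg.Agent.Lib.Twisted.Bruhat Cfsg.Agent.Lib.Twisted.Tw
open Cfsg.Agent.Lib.Twisted.Struct Cfsg.Agent.Lib.Twisted.Check Cfsg.Agent.Lib.Twisted.Ortho
open Cfsg.Agent.Lib.Twisted.TorusFix
open Cfsg.Agent.Lib.GraphAut.Basic Cfsg.Agent.S1081
open Cfsg.Agent.Lib.Twisted.E6 Cfsg.Agent.Lib.Twisted.E6H
open Cfsg.Agent.Lib.SchD4.Abs Cfsg.Agent.Lib.SchE6.Brh Cfsg.Agent.Lib.SchE6.Zc Cfsg.Agent.Lib.SchE6.Can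
open Cfsg.Agent.Lib.Classical.StSL2 (Sys)

/-- The positive relative roots. -/
def repP : List ℕ := [36, 37, 38, 39, 40, 41, 44, 45, 46, 47, 48, 49, 51, 52, 53, 54, 55, 60, 63, 65, 66, 69, 70, 71]

/-- The chain condition. -/
def chkChain : List ℕ → Bool
  | [] => true
  | r :: l => l.all (fun s => okB r s && (Wr r s).all (fun c => l.contains c)) && decide (r < 72) && chkChain l

theorem chkChain_rep : chkChain repP = true := by decide +kernel

theorem rep_cover : ∀ r : Fin 72, chevE6.IsPosRoot r → (r : ℕ) ∈ repP ∨ (Se.ρ r ∈ repP ∧ Se.ρ r ≠ r) := by decide +kernel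

theorem rep_count : (repP.map fun r => if rhoP r = r then 1 else 2).sum = 36 := by decide +kernel

theorem rep_lt : ∀ r ∈ repP, r < 72 := by decide +kernel

lemma prod_map_le {α : Type*} (l : List α) {f g : α → ℕ} (h : ∀ x ∈ l, f x ≤ g x) : (l.map f).prod ≤ (l.map g).prod := by
  induction l with
  | nil => simp
  | cons a l ih =>
    simp only [List.map_cons, List.prod_cons]
    exact Nat.mul_le_mul (h a (by simp)) (ih fun x hx => h x (by simp [hx]))

lemma prod_pow {α : Type*} (l : List α) (q : ℕ) (e : α → ℕ) : (l.map fun x => q ^ e x).prod = q ^ (l.map e).sum := by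
  induction l with
  | nil => simp
  | cons a l ih => simp only [List.map_cons, List.prod_cons, List.sum_cons, ih, pow_add]

variable {K : Type*} [Field K] {q : ℕ} {φ : K ≃+* K} (hφ : ∀ t, φ t = t ^ q) (hφ2 : ∀ t, φ (φ t) = t) {ax : Ax chevE6 K}
variable {E : Type*} [Group E] {σ : E →* ↥(twistedE6 K q)} {xh : ℕ → K → E} (L : Lf φ ax σ xh)

/-- The lifted root subgroup. -/
def Ar (φ : K ≃+* K) (xh : ℕ → K → E) (r : ℕ) : Subgroup E := Subgroup.closure {g | ∃ t, Par φ r t ∧ g = xh r t}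

include L

lemma mem_Ar {r : ℕ} (hr : r < 72) {g : E} (hg : g ∈ Ar φ xh r) : ∃ t, Par φ r t ∧ g = xh r t := by
  induction hg using Subgroup.closure_induction with
  | mem g hg => exact hg
  | one => exact ⟨0, fun _ => map_zero φ, (L_zero L hr).symm⟩
  | mul x y _ _ hx hy =>
    obtain ⟨t, ht, rfl⟩ := hx
    obtain ⟨u, hu, rfl⟩ := hy
    exact ⟨t + u, fun h => by rw [map_add, ht h, hu h], (L.add hr ht hu).symm⟩
  | inv x _ hx =>
    obtain ⟨t, ht, rfl⟩ := hx
    exact ⟨-t, fun h => by rw [map_neg, ht h], (L_neg L hr ht).symm⟩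

/-- The chain condition for the lifted root subgroups. -/
theorem ch_of : ∀ l : List ℕ, chkChain l = true → Ch (l.map (Ar φ xh))
  | [], _ => trivial
  | r :: l, h => by
    simp only [chkChain, Bool.and_eq_true, List.all_eq_true, List.contains_iff_mem, decide_eq_true_eq] at h
    obtain ⟨⟨h1, hr⟩, h3⟩ := h
    refine ⟨?_, ch_of l h3⟩
    intro a ha B hB b hb
    obtain ⟨s, hs, rfl⟩ := List.mem_map.mp hB
    obtain ⟨ok, hc⟩ := h1 s hs
    obtain ⟨t, ht, rfl⟩ := mem_Ar L hr ha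
    obtain ⟨u, hu, rfl⟩ := mem_Ar L (ok_spec ok).2.1 hb
    have e : xh r t * xh s u * (xh r t)⁻¹ = (xh r t * xh s u * (xh r t)⁻¹ * (xh s u)⁻¹) * xh s u := by group
    rw [e]
    refine Subgroup.mul_mem _ ?_ (Subgroup.subset_closure ⟨_, hB, hb⟩)
    refine (Subgroup.closure_le _).mpr ?_ (L.brk ok ht hu)
    rintro g ⟨c, hc', w, hw, rfl⟩
    exact Subgroup.subset_closure ⟨Ar φ xh c, List.mem_map.mpr ⟨c, hc c hc', rfl⟩, Subgroup.subset_closure ⟨w, hw, rfl⟩⟩

include hφ hφ2 in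
lemma Ut_le_clo : Ut φ xh ≤ clo (repP.map (Ar φ xh)) := by
  rw [Ut, Subgroup.closure_le]
  rintro g ⟨r, hr, t, ht, rfl⟩
  rcases rep_cover ⟨r, hr.1⟩ hr with h | ⟨h1, h2⟩
  · exact Subgroup.subset_closure ⟨Ar φ xh r, List.mem_map.mpr ⟨r, h, rfl⟩, Subgroup.subset_closure ⟨t, ht, rfl⟩⟩
  · simp only at h1 h2
    have hr' : Se.ρ r < 72 := (tab_rho ⟨r, hr.1⟩).1
    have h3 : Se.ρ (Se.ρ r) = r := (tab_rho ⟨r, hr.1⟩).2.1
    have h4 : Se.ρ (Se.ρ r) ≠ Se.ρ r := by rw [h3]; exact fun e => h2 e.symm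
    have e := L.rho (t := t) hr' h4
    rw [h3] at e
    rw [e]
    exact Subgroup.subset_closure ⟨Ar φ xh (Se.ρ r), List.mem_map.mpr ⟨_, h1, rfl⟩,
      Subgroup.subset_closure ⟨_, fun h => by rw [h3] at h; exact absurd h.symm h2, rfl⟩⟩

omit L in
include hφ in
/-- The parameters. -/
lemma card_par {r : ℕ} (hr : r < 72) (hFq : Nat.card {t : K // t ^ q = t} = q) (hK : Nat.card K = q ^ 2) :
    Nat.card {t : K // Par φ r t} = if rhoP r = r then q else q ^ 2 := by
  by_cases h : rhoP r = r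
  · rw [if_pos h, ← hFq]
    have h' : Se.ρ r = r := by rw [rho_eq hr]; exact h
    apply Nat.card_congr
    refine Equiv.subtypeEquivRight fun t => ?_
    rw [← hφ]
    exact ⟨fun e => e h', fun e _ => e⟩
  · rw [if_neg h, ← hK]
    have h' : Se.ρ r ≠ r := by rw [rho_eq hr]; exact h
    apply Nat.card_congr
    exact Equiv.subtypeUnivEquiv fun t e => absurd e h'

include hφ in
lemma card_Ar {r : ℕ} (hr : r < 72) (hFq : Nat.card {t : K // t ^ q = t} = q) (hK : Nat.card K = q ^ 2) [Finite K] :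
    Nat.card (Ar φ xh r) ≤ if rhoP r = r then q else q ^ 2 := by
  rw [← card_par hφ hr hFq hK]
  have : Function.Surjective (fun t : {t : K // Par φ r t} => (⟨xh r t.1, Subgroup.subset_closure ⟨t.1, t.2, rfl⟩⟩ : Ar φ xh r)) := by
    rintro ⟨g, hg⟩
    obtain ⟨t, ht, rfl⟩ := mem_Ar L hr hg
    exact ⟨⟨t, ht⟩, rfl⟩
  exact Nat.card_le_card_of_surjective _ this

include hφ hφ2

/-- The order of the lifted unipotent group. -/
theorem card_Ut [Finite E] [Finite K] (hFq : Nat.card {t : K // t ^ q = t} = q) (hK : Nat.card K = q ^ 2) : Nat.card (Ut φ xh) ≤ q ^ 36 := by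
  have h1 := Subgroup.card_le_of_le (Ut_le_clo hφ hφ2 L)
  have h2 := card_clo_le _ (ch_of L _ chkChain_rep)
  rw [List.map_map] at h2
  have h3 : ((repP.map ((fun A : Subgroup E => Nat.card A) ∘ Ar φ xh))).prod ≤ (repP.map fun r => if rhoP r = r then q else q ^ 2).prod := by
    apply prod_map_le
    intro r hr
    exact card_Ar hφ L (rep_lt r hr) hFq hK
  have h4 : (repP.map fun r => if rhoP r = r then q else q ^ 2).prod = q ^ 36 := by
    have e : (fun r => if rhoP r = r then q else q ^ 2) = fun r => q ^ (if rhoP r = r then 1 else 2) := by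
      funext r
      split_ifs <;> simp
    rw [e, prod_pow, rep_count]
  omega

/-- The lifted unipotent group maps isomorphically. -/
theorem Ut_inj [Finite E] [Finite K] (hFq : Nat.card {t : K // t ^ q = t} = q) (hK : Nat.card K = q ^ 2)
    (hU : Nat.card ↥(chevE6.posUnipotent K ⊓ twistedE6 K q) = q ^ 36) : ∀ v ∈ Ut φ xh, σ v = 1 → v = 1 := by
  let f : Ut φ xh → ↥(chevE6.posUnipotent K ⊓ twistedE6 K q) := fun u =>
    ⟨σ u.1, Ut_image L u.2, (σ u.1).2⟩
  have hf : Function.Surjective f := by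
    rintro ⟨g, h1, h2⟩
    obtain ⟨u, hu, e⟩ := Ut_surj hφ hφ2 L (g := ⟨g, h2⟩) h1
    refine ⟨⟨u, hu⟩, Subtype.ext ?_⟩
    show ((σ u : ↥(twistedE6 K q)) : GL chevE6.Idx K) = g
    rw [e]
  have hb := hf.bijective_of_nat_card_le (by rw [hU]; exact card_Ut hφ hφ2 L hFq hK)
  intro v hv e
  have : f ⟨v, hv⟩ = f 1 := by
    apply Subtype.ext
    show ((σ v : ↥(twistedE6 K q)) : GL chevE6.Idx K) = ((σ 1 : ↥(twistedE6 K q)) : GL chevE6.Idx K)
    rw [e, map_one]
  have h3 := hb.1 this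
  exact congrArg Subtype.val h3

/-- The kernel lies in the monomial part. -/
theorem ker_mem_N [Finite E] [Finite K] (hFq : Nat.card {t : K // t ^ q = t} = q) (hK : Nat.card K = q ^ 2)
    (hU : Nat.card ↥(chevE6.posUnipotent K ⊓ twistedE6 K q) = q ^ 36) (hs : Function.Surjective σ) (hc : CK σ) {z : E} (hz : σ z = 1)
    (hzc : z ∈ commutator E) : z ∈ Nt φ xh := by
  have h1 := ker_le_of_gen hs hc (E0_surj hφ hφ2 L) hzc
  exact mem_N_of_central (Ut_inj hφ hφ2 L hFq hK hU) (hI_main L) (hc z hz) hz (E0_UNU hφ hφ2 L h1)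

end Cfsg.Agent.Lib.SchE6.Gx
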