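import Cfsg.Agent.Lib.SchE6.Gx8

/-!
The kernel of a stem extension of `²E₆(q)` lies in the torus part.
-/

set_option autoImplicit false
set_option linter.unusedSectionVars false
set_option linter.unusedVariables false
set_option linter.ambiguousOpen false
set_option linter.dupNamespace false
set_option linter.unusedSimpArgs false

namespace Cfsg.Agent.Lib.SchE6.Gx

open scoped MatrixGroups Matrix
open Cfsg Lie ChevalleyDatum
open Cfsg.Agent.Lib.Chev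
open Tables Tables2 Tables3 Raise Basic AxBasic Torus Products Products2 Mono1 Mono2 Mono3 Bn ChevSimple Diag
open Cfsg.Agent.Lib.Twisted.Fact Cfsg.Agent.Lib.Twisted.Bruhat Cfsg.Agent.Lib.Twisted.Tw
open Cfsg.Agent.Lib.Twisted.Struct Cfsg.Agent.Lib.Twisted.Check Cfsg.Agent.Lib.Twisted.Ortho
open Cfsg.Agent.Lib.Twisted.TorusFix
open Cfsg.Agent.Lib.GraphAut.Basic Cfsg.Agent.S1081
open Cfsg.Agent.Lib.Twisted.E6 Cfsg.Agent.Lib.Twisted.E6H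
open Cfsg.Agent.Lib.SchD4.Abs Cfsg.Agent.Lib.SchE6.Brh Cfsg.Agent.Lib.SchE6.Zc Cfsg.Agent.Lib.SchE6.Can
open Cfsg.Agent.Lib.Classical.StSL2 (Sys)

section Abstract

universe u

variable {E : Type u} [Group E] {ι : Type} {W : ι → Set E} {n : ι → E} (hn : ∀ i, n i ∈ W i) {Tt : Set E}
  (hTA : ∀ a ∈ A₀ W n, a ∈ Tt) (hinv : ∀ i, ∀ w ∈ W i, w⁻¹ ∈ W i)
  (hconj : ∀ i, ∀ g ∈ Tt, ∀ w ∈ W i, g * w * g⁻¹ ∈ W i)

include hn hTA hinv hconj

lemma cox2' {i j : ι} (hi : n i * n i ∈ A₀ W n) (hj : n j * n j ∈ A₀ W n) (hm : n i * n j * (n i)⁻¹ ∈ W j) :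
    (n i * n j) ^ 2 ∈ A₀ W n := by
  refine cox_of_quot hn hTA hinv hconj hi hj ?_
  intro Q _ f hA hW
  have hnN : ∀ i, n i ∈ N₀ W := fun i => Subgroup.subset_closure ⟨i, hn i⟩
  have ha := hA _ (Subgroup.mul_mem _ (hnN i) (hnN i)) hi
  have hb := hA _ (Subgroup.mul_mem _ (hnN j) (hnN j)) hj
  have ha' : f ⟨n i, hnN i⟩ * f ⟨n i, hnN i⟩ = 1 := by rw [← map_mul]; exact ha
  have hb' : f ⟨n j, hnN j⟩ * f ⟨n j, hnN j⟩ = 1 := by rw [← map_mul]; exact hb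
  refine coxA2 ha' hb' ?_
  have hc := hW j (n i * n j * (n i)⁻¹) (Subgroup.subset_closure ⟨j, hm⟩) hm
  refine Eq.trans ?_ hc
  rw [← map_inv, ← map_mul, ← map_mul]
  rfl

lemma cox3' {i j : ι} (hi : n i * n i ∈ A₀ W n) (hj : n j * n j ∈ A₀ W n) (hm : (n i * n j) * n i * (n i * n j)⁻¹ ∈ W j) :
    (n i * n j) ^ 3 ∈ A₀ W n := by
  refine cox_of_quot hn hTA hinv hconj hi hj ?_
  intro Q _ f hA hW
  have hnN : ∀ i, n i ∈ N₀ W := fun i => Subgroup.subset_closure ⟨i, hn i⟩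
  have ha := hA _ (Subgroup.mul_mem _ (hnN i) (hnN i)) hi
  have hb := hA _ (Subgroup.mul_mem _ (hnN j) (hnN j)) hj
  have ha' : f ⟨n i, hnN i⟩ * f ⟨n i, hnN i⟩ = 1 := by rw [← map_mul]; exact ha
  have hb' : f ⟨n j, hnN j⟩ * f ⟨n j, hnN j⟩ = 1 := by rw [← map_mul]; exact hb
  refine coxA3 ha' hb' ?_
  have hc := hW j _ (Subgroup.subset_closure ⟨j, hm⟩) hm
  refine Eq.trans ?_ hc
  rw [← map_mul, ← map_inv, ← map_mul, ← map_mul]
  rfl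

lemma cox4' {i j : ι} (hi : n i * n i ∈ A₀ W n) (hj : n j * n j ∈ A₀ W n) (hm : (n i * n j * n i) * n j * (n i * n j * n i)⁻¹ ∈ W j) :
    (n i * n j) ^ 4 ∈ A₀ W n := by
  refine cox_of_quot hn hTA hinv hconj hi hj ?_
  intro Q _ f hA hW
  have hnN : ∀ i, n i ∈ N₀ W := fun i => Subgroup.subset_closure ⟨i, hn i⟩
  have ha := hA _ (Subgroup.mul_mem _ (hnN i) (hnN i)) hi
  have hb := hA _ (Subgroup.mul_mem _ (hnN j) (hnN j)) hj
  have ha' : f ⟨n i, hnN i⟩ * f ⟨n i, hnN i⟩ = 1 := by rw [← map_mul]; exact ha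
  have hb' : f ⟨n j, hnN j⟩ * f ⟨n j, hnN j⟩ = 1 := by rw [← map_mul]; exact hb
  refine coxB2 ha' hb' ?_
  have hc := hW j _ (Subgroup.subset_closure ⟨j, hm⟩) hm
  refine Eq.trans ?_ hc
  rw [← map_mul, ← map_mul, ← map_inv, ← map_mul, ← map_mul]
  rfl

lemma cox_swap {i j : ι} {m : ℕ} (h : (n i * n j) ^ m ∈ A₀ W n) : (n j * n i) ^ m ∈ A₀ W n := by
  have hnN : n j ∈ N₀ W := Subgroup.subset_closure ⟨j, hn j⟩
  have h1 := conj_A hTA hinv hconj hnN h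
  have e : (n j * n i) ^ m = n j * (n i * n j) ^ m * (n j)⁻¹ := by
    rw [← conj_pow]
    congr 1
    group
  rw [e]
  exact h1

end Abstract

/-- The possible images of a simple relative root. -/
def imC (l : List ℕ) (j k : Fin 4) : Prop :=
  reflL l (a4 j) = a4 k ∨ reflL l (a4 j) = chevE6.neg (a4 k) ∨ reflL l (a4 j) = Se.ρ (a4 k) ∧ Se.ρ (a4 k) ≠ a4 k

instance (l : List ℕ) (j k : Fin 4) : Decidable (imC l j k) := by unfold imC; infer_instance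

theorem tC01 : imC (wl4 0 ++ wl4 1) 0 1 := by decide +kernel
theorem tC02 : imC (wl4 0) 2 2 := by decide +kernel
theorem tC03 : imC (wl4 0) 3 3 := by decide +kernel
theorem tC13 : imC (wl4 1) 3 3 := by decide +kernel
theorem tC12 : imC (wl4 1 ++ wl4 2 ++ wl4 1) 2 2 := by decide +kernel
theorem tC23 : imC (wl4 2 ++ wl4 3) 2 3 := by decide +kernel

variable {K : Type*} [Field K] {q : ℕ} {φ : K ≃+* K} (hφ : ∀ t, φ t = t ^ q) (hφ2 : ∀ t, φ (φ t) = t) {ax : Ax chevE6 K}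
variable {E : Type*} [Group E] {σ : E →* ↥(twistedE6 K q)} {xh : ℕ → K → E} (L : Lf φ ax σ xh)

/-- The lifts of the torus. -/
def TtS (σ : E →* ↥(twistedE6 K q)) : Set E := {g | ((σ g : ↥(twistedE6 K q)) : GL chevE6.Idx K) ∈ chevE6.diagonalSubgroup K}

include L

lemma sec_n (j : Fin 4) : ((σ (nJ xh j) : ↥(twistedE6 K q)) : GL chevE6.Idx K) = nw chevE6 ax (wl4 j) := by
  rw [nJ, sec_w L (a4_lt j) (par_one _), wt_one]

/-- The torus part of the Weyl elements. -/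
lemma sec_h (j : Fin 4) {t : K} (ht : Par φ (a4 j) t) :
    ((σ (wE xh (a4 j) t * (nJ xh j)⁻¹) : ↥(twistedE6 K q)) : GL chevE6.Idx K) = hJ φ ax j t := by
  rw [map_mul, map_inv, Subgroup.coe_mul, Subgroup.coe_inv, sec_n L, sec_w L (a4_lt j) ht, wt_eq]
  group

lemma hTA_main : ∀ a ∈ A₀ (WJ xh φ) (nJ xh), a ∈ TtS σ := by
  intro a ha
  refine A_induct (P := fun a => a ∈ TtS σ) ?_ ?_ ?_ ?_ ha
  · show ((σ 1 : ↥(twistedE6 K q)) : GL chevE6.Idx K) ∈ chevE6.diagonalSubgroup K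
    rw [map_one]
    exact Subgroup.one_mem _
  · intro a b ha hb
    show ((σ (a * b) : ↥(twistedE6 K q)) : GL chevE6.Idx K) ∈ chevE6.diagonalSubgroup K
    rw [map_mul, Subgroup.coe_mul]
    exact Subgroup.mul_mem _ ha hb
  · intro a ha
    show ((σ a⁻¹ : ↥(twistedE6 K q)) : GL chevE6.Idx K) ∈ chevE6.diagonalSubgroup K
    rw [map_inv, Subgroup.coe_inv]
    exact Subgroup.inv_mem _ ha
  · rintro j _ ⟨t, ht, h0, rfl⟩
    show ((σ (wE xh (a4 j) t * (nJ xh j)⁻¹) : ↥(twistedE6 K q)) : GL chevE6.Idx K) ∈ chevE6.diagonalSubgroup K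
    rw [sec_h L j ht]
    exact hJ_mem φ ax j h0

include hφ hφ2

/-- The braid relation. -/
lemma braidE (k : Fin 4) {u : K} (hu : Par φ (a4 k) u) (h0 : u ≠ 0) :
    xh (a4 k) u * xh (chevE6.neg (a4 k)) (-u⁻¹) * xh (a4 k) u =
      xh (chevE6.neg (a4 k)) (-u⁻¹) * xh (a4 k) u * xh (chevE6.neg (a4 k)) (-u⁻¹) :=
  (sysJ hφ hφ2 L k).braid (t := ⟨u, hu⟩) (fun e => h0 (congrArg Subtype.val e))

/-- Conjugation of the Weyl type elements. -/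
theorem conj_WJ (ν : E) (l : List ℕ) (hl : ∀ i ∈ l, i < chevE6.rank)
    (hσ : ((σ ν : ↥(twistedE6 K q)) : GL chevE6.Idx K) = nw chevE6 ax l) (j k : Fin 4)
    (e : imC l j k) : ∀ w ∈ WJ xh φ j, ν * w * ν⁻¹ ∈ WJ xh φ k := by
  rintro _ ⟨t, ht, h0, rfl⟩
  obtain ⟨c, H⟩ := exists_isNor_nw hE hE2 ax (F := K) hl
  rw [← hσ] at H
  have ha := a4_lt j
  have hπ : ((wPw hE l ⟨a4 j, ha⟩ : Fin chevE6.nroots) : ℕ) = reflL l (a4 j) := wPw_val l hl _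
  have e1 := L.conj ν H ha ht
  have hp := (conj_xt φ ax (G1_le φ hφ hφ2 ax (σ ν).2) H ha ht).2
  have e2 := L.conj ν H (neg_lt ha) (par_neg_iff φ ha (par_ninv ht))
  have hn := H.neg ⟨a4 j, ha⟩
  have hs := H.sign ⟨a4 j, ha⟩
  have hnn : (negF hE ⟨a4 j, ha⟩ : Fin chevE6.nroots) = ⟨chevE6.neg (a4 j), neg_lt ha⟩ := rfl
  rw [hnn] at hn hs
  rw [hn, hs] at e2
  have hv : ((negF hE (wPw hE l ⟨a4 j, ha⟩) : Fin chevE6.nroots) : ℕ) = chevE6.neg (reflL l (a4 j)) := by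
    show chevE6.neg ((wPw hE l ⟨a4 j, ha⟩ : Fin chevE6.nroots) : ℕ) = _
    rw [hπ]
  rw [hv] at e2
  rw [hπ] at e1 hp
  set s : K := (c ⟨a4 j, ha⟩ : K) * t with hs'
  have hs0 : s ≠ 0 := mul_ne_zero (Units.ne_zero _) h0
  have e3 : ((c ⟨a4 j, ha⟩)⁻¹ : Kˣ) * (-t⁻¹) = -s⁻¹ := by
    rw [Units.val_inv_eq_inv_val, hs', mul_inv]
    ring
  rw [e3] at e2
  have e4 : ν * wE xh (a4 j) t * ν⁻¹ = (ν * xh (a4 j) t * ν⁻¹) * (ν * xh (chevE6.neg (a4 j)) (-t⁻¹) * ν⁻¹) * (ν * xh (a4 j) t * ν⁻¹) := by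
    simp only [wE]
    group
  rw [e4, e1, e2]
  rcases e with e | e | ⟨e, hne⟩
  · rw [e] at hp ⊢
    exact ⟨s, hp, hs0, rfl⟩
  · rw [e] at hp ⊢
    have hk := a4_lt k
    have hpk : Par φ (a4 k) s := by
      have h5 := par_neg_iff φ (neg_lt hk) hp
      rwa [(tab_rho ⟨a4 k, hk⟩).2.2.2.2.2.2.2.2.2.1] at h5
    have hu0 : -s⁻¹ ≠ 0 := neg_ne_zero.mpr (inv_ne_zero hs0)
    have e5 := braidE hφ hφ2 L k (par_ninv hpk) hu0
    have e6 : -(-s⁻¹)⁻¹ = s := by rw [inv_neg, neg_neg, inv_inv]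
    rw [e6] at e5
    rw [(tab_rho ⟨a4 k, hk⟩).2.2.2.2.2.2.2.2.2.1]
    refine ⟨-s⁻¹, par_ninv hpk, hu0, ?_⟩
    simp only [wE]
    rw [e6, e5]
  · rw [e]
    have hk := a4_lt k
    have hnρ : chevE6.neg (Se.ρ (a4 k)) = Se.ρ (chevE6.neg (a4 k)) := ((tab_rho ⟨a4 k, hk⟩).2.2.2.2.2.2.1).symm
    have hne' : Se.ρ (chevE6.neg (a4 k)) ≠ chevE6.neg (a4 k) := by
      intro e7
      have h8 := congrArg chevE6.neg e7
      rw [← hnρ, (tab_rho ⟨a4 k, hk⟩).2.2.2.2.2.2.2.2.2.1, (tab_rho ⟨Se.ρ (a4 k), (tab_rho ⟨a4 k, hk⟩).1⟩).2.2.2.2.2.2.2.2.2.1] at h8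
      exact hne h8
    have hγ : gam K (chevE6.neg (a4 k)) = gam K (a4 k) := by
      simp only [gam]
      rw [(tab_rho ⟨a4 k, hk⟩).2.2.2.2.2.2.2.1]
    have hγ2 := gam_sq (K := K) hk
    rw [hnρ, L.rho hk hne, L.rho (neg_lt hk) hne', hγ]
    have hγ0 : gam K (a4 k) ≠ 0 := by
      intro h0
      rw [h0] at hγ2
      simp at hγ2
    have e8 : gam K (a4 k) * φ (-s⁻¹) = -(gam K (a4 k) * φ s)⁻¹ := by
      rw [map_neg, map_inv₀, mul_neg, mul_inv, neg_inj]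
      congr 1
      field_simp
      rw [pow_two, hγ2]
    rw [e8]
    refine ⟨gam K (a4 k) * φ s, fun h => absurd h hne, mul_ne_zero hγ0 (by simpa using hs0), rfl⟩

lemma hn_sq (j : Fin 4) : nJ xh j * nJ xh j ∈ A₀ (WJ xh φ) (nJ xh) := by
  have h1 := ratio_mem (n := nJ xh) (nJ_mem (φ := φ) (xh := xh) j) (WJ_inv L j _ (nJ_mem (φ := φ) (xh := xh) j))
  rwa [inv_inv] at h1

lemma l_lt {i : Fin 4} : ∀ k ∈ wl4 i, k < chevE6.rank := wl4_lt i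

/-- The Coxeter relations modulo the torus part. -/
theorem hcox (i j : Fin 4) : (nJ xh i * nJ xh j) ^ CoxeterMatrix.F₄ i j ∈ A₀ (WJ xh φ) (nJ xh) := by
  have hn : ∀ i, nJ xh i ∈ WJ xh φ i := fun i => nJ_mem i
  have hTA := hTA_main L
  have hinv := WJ_inv (xh := xh) L
  have hconj : ∀ i, ∀ g ∈ TtS σ, ∀ w ∈ WJ xh φ i, g * w * g⁻¹ ∈ WJ xh φ i := fun i g hg => WJ_conj hφ hφ2 L i hg
  have hsq := hn_sq hφ hφ2 L
  have sec2 : ∀ a b : Fin 4, ((σ (nJ xh a * nJ xh b) : ↥(twistedE6 K q)) : GL chevE6.Idx K) = nw chevE6 ax (wl4 a ++ wl4 b) := by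
    intro a b
    rw [map_mul, Subgroup.coe_mul, sec_n L, sec_n L, nw_append]
  have sec3 : ∀ a b : Fin 4, ((σ (nJ xh a * nJ xh b * nJ xh a) : ↥(twistedE6 K q)) : GL chevE6.Idx K) = nw chevE6 ax (wl4 a ++ wl4 b ++ wl4 a) := by
    intro a b
    rw [map_mul, Subgroup.coe_mul, sec2, sec_n L]
    simp only [nw_append]
  have lt2 : ∀ a b : Fin 4, ∀ k ∈ wl4 a ++ wl4 b, k < chevE6.rank := by
    intro a b k hk
    rcases List.mem_append.mp hk with h | h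
    · exact wl4_lt a k h
    · exact wl4_lt b k h
  have lt3 : ∀ a b : Fin 4, ∀ k ∈ wl4 a ++ wl4 b ++ wl4 a, k < chevE6.rank := by
    intro a b k hk
    rcases List.mem_append.mp hk with h | h
    · exact lt2 a b k h
    · exact wl4_lt a k h
  have h01 : (nJ xh 0 * nJ xh 1) ^ 3 ∈ A₀ (WJ xh φ) (nJ xh) :=
    cox3' hn hTA hinv hconj (hsq _) (hsq _)
      (conj_WJ hφ hφ2 L _ _ (lt2 0 1) (sec2 0 1) 0 1 tC01 _ (hn 0))
  have h02 : (nJ xh 0 * nJ xh 2) ^ 2 ∈ A₀ (WJ xh φ) (nJ xh) :=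
    cox2' hn hTA hinv hconj (hsq _) (hsq _) (conj_WJ hφ hφ2 L _ _ (wl4_lt 0) (sec_n L 0) 2 2 tC02 _ (hn 2))
  have h03 : (nJ xh 0 * nJ xh 3) ^ 2 ∈ A₀ (WJ xh φ) (nJ xh) :=
    cox2' hn hTA hinv hconj (hsq _) (hsq _) (conj_WJ hφ hφ2 L _ _ (wl4_lt 0) (sec_n L 0) 3 3 tC03 _ (hn 3))
  have h13 : (nJ xh 1 * nJ xh 3) ^ 2 ∈ A₀ (WJ xh φ) (nJ xh) :=
    cox2' hn hTA hinv hconj (hsq _) (hsq _) (conj_WJ hφ hφ2 L _ _ (wl4_lt 1) (sec_n L 1) 3 3 tC13 _ (hn 3))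
  have h12 : (nJ xh 1 * nJ xh 2) ^ 4 ∈ A₀ (WJ xh φ) (nJ xh) :=
    cox4' hn hTA hinv hconj (hsq _) (hsq _) (conj_WJ hφ hφ2 L _ _ (lt3 1 2) (sec3 1 2) 2 2 tC12 _ (hn 2))
  have h23 : (nJ xh 2 * nJ xh 3) ^ 3 ∈ A₀ (WJ xh φ) (nJ xh) :=
    cox3' hn hTA hinv hconj (hsq _) (hsq _)
      (conj_WJ hφ hφ2 L _ _ (lt2 2 3) (sec2 2 3) 2 3 tC23 _ (hn 2))
  have hd : ∀ i, (nJ xh i * nJ xh i) ^ 1 ∈ A₀ (WJ xh φ) (nJ xh) := fun i => by
    rw [pow_one]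
    exact hsq i
  fin_cases i <;> fin_cases j
  · exact hd 0
  · exact h01
  · exact h02
  · exact h03
  · exact cox_swap hn hTA hinv hconj h01
  · exact hd 1
  · exact h12
  · exact h13
  · exact cox_swap hn hTA hinv hconj h02
  · exact cox_swap hn hTA hinv hconj h12
  · exact hd 2
  · exact h23
  · exact cox_swap hn hTA hinv hconj h03
  · exact cox_swap hn hTA hinv hconj h13
  · exact cox_swap hn hTA hinv hconj h23
  · exact hd 3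

/-- Lifting the representatives in the group. -/
lemma lift_n (p : GL chevE6.Idx K) (hp : p ∈ Subgroup.closure (Set.range (TE φ hφ hφ2 ax).n)) :
    ∃ ν ∈ Nt φ xh, ((σ ν : ↥(twistedE6 K q)) : GL chevE6.Idx K) = p := by
  have hnN : ∀ i, nJ xh i ∈ Nt φ xh := fun i => Subgroup.subset_closure ⟨i, nJ_mem i⟩
  induction hp using Subgroup.closure_induction with
  | mem g hg =>
    obtain ⟨j, rfl⟩ := hg
    have key : ∀ j : Fin 4, ∃ ν ∈ Nt φ xh, ((σ ν : ↥(twistedE6 K q)) : GL chevE6.Idx K) = nE ax j := by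
      intro j
      fin_cases j
      · exact ⟨nJ xh 0, hnN 0, sec_n L 0⟩
      · exact ⟨nJ xh 1, hnN 1, sec_n L 1⟩
      · exact ⟨nJ xh 3, hnN 3, sec_n L 3⟩
      · exact ⟨nJ xh 2, hnN 2, sec_n L 2⟩
    exact key j
  | one => exact ⟨1, Subgroup.one_mem _, by simp⟩
  | mul x y _ _ hx hy =>
    obtain ⟨a, ha, rfl⟩ := hx
    obtain ⟨b, hb, rfl⟩ := hy
    exact ⟨a * b, Subgroup.mul_mem _ ha hb, by simp⟩
  | inv x _ hx =>
    obtain ⟨a, ha, rfl⟩ := hx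
    exact ⟨a⁻¹, Subgroup.inv_mem _ ha, by simp⟩

/-- The kernel of a stem extension lies in the torus part. -/
theorem ker_mem_A [Finite E] [Finite K] (hFq : Nat.card {t : K // t ^ q = t} = q) (hK : Nat.card K = q ^ 2)
    (hU : Nat.card ↥(chevE6.posUnipotent K ⊓ twistedE6 K q) = q ^ 36) (hs : Function.Surjective σ) (hc : CK σ) {z : E} (hz : σ z = 1)
    (hzc : z ∈ commutator E) : z ∈ A₀ (WJ xh φ) (nJ xh) := by
  have hzN := ker_mem_N hφ hφ2 L hFq hK hU hs hc hz hzc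
  have T := TE φ hφ hφ2 ax
  obtain ⟨f, hf, hker⟩ := quot_E6 φ hφ hφ2 ax
  have hmono : ∀ ν : Nt φ xh, ((σ ν.1 : ↥(twistedE6 K q)) : GL chevE6.Idx K) ∈ chevE6.monomialSubgroup K ⊓ twistedE6 K q :=
    fun ν => ⟨mono_of_N L ν.2, (σ ν.1).2⟩
  let σ' : Nt φ xh →* ↥(chevE6.monomialSubgroup K ⊓ twistedE6 K q) :=
    { toFun := fun ν => ⟨(σ ν.1 : ↥(twistedE6 K q)), hmono ν⟩
      map_one' := by
        apply Subtype.ext
        simp
      map_mul' := by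
        intro a b
        apply Subtype.ext
        simp }
  haveI : Finite (GL chevE6.Idx K) := inferInstance
  haveI : Finite (CoxeterMatrix.F₄.Group) := Finite.of_surjective f hf
  have hdiag : ∀ m : ↥(chevE6.monomialSubgroup K ⊓ twistedE6 K q), (m : GL chevE6.Idx K) ∈ chevE6.diagonalSubgroup K → f m = 1 := by
    intro m hm
    have : m ∈ f.ker := by
      rw [hker, Subgroup.mem_subgroupOf]
      exact ⟨hm, m.2.2⟩
    exact this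
  refine mem_A_of_ker (M := CoxeterMatrix.F₄) (fun i => nJ_mem i) (hTA_main L) (WJ_inv (xh := xh) L)
    (fun i g hg => WJ_conj hφ hφ2 L i hg) (hcox hφ hφ2 L) (f.comp σ') ?_ ?_ hzN ?_
  · intro v
    obtain ⟨m, rfl⟩ := hf v
    obtain ⟨a, ha, p, hp, e⟩ := (TE φ hφ hφ2 ax).N1_form hE2 m.2.1 m.2.2
    obtain ⟨ν, hν, e2⟩ := lift_n hφ hφ2 L p hp
    refine ⟨⟨ν, hν⟩, ?_⟩
    have hpm : p ∈ chevE6.monomialSubgroup K ⊓ twistedE6 K q := by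
      rw [← e2]
      exact hmono ⟨ν, hν⟩
    have hm : m = ⟨a, (le_sup_left : chevE6.diagonalSubgroup K ≤ chevE6.monomialSubgroup K) ha.1, ha.2⟩ * ⟨p, hpm⟩ := Subtype.ext e
    rw [hm, map_mul, hdiag _ ha.1, one_mul]
    show f _ = f _
    congr 1
    exact Subtype.ext e2
  · intro a ha ha'
    exact hdiag _ (hTA_main L a ha)
  · show f (σ' ⟨z, hzN⟩) = 1
    apply hdiag
    show ((σ z : ↥(twistedE6 K q)) : GL chevE6.Idx K) ∈ _
    rw [hz]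
    exact Subgroup.one_mem _

end Cfsg.Agent.Lib.SchE6.Gx
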