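import Cfsg.Agent.Lib.SchE6.Gx10
import Cfsg.Agent.Lib.Steinberg.Schur

/-!
The lower bound for the Schur multiplier of `²E₆(q)`: the preimage of the twisted group in the universal group.
-/

set_option autoImplicit false
set_option linter.unusedSectionVars false
set_option linter.unusedVariables false
set_option linter.ambiguousOpen false
set_option linter.dupNamespace false
set_option linter.unusedSimpArgs false

namespace Cfsg.Agent.Lib.SchE6.Lo

open scoped MatrixGroups Matrix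
open Cfsg Lie ChevalleyDatum
open Cfsg.Agent.Lib.Chev
open Tables Tables2 Raise Basic AxBasic Products Mono1 Mono2
open Cfsg.Agent.Lib.Steinberg.Rel Cfsg.Agent.Lib.Steinberg.Conj Cfsg.Agent.Lib.Steinberg.Bruhat
open Cfsg.Agent.Lib.Steinberg.Exch Cfsg.Agent.Lib.Steinberg.TorusY
open Cfsg.Agent.Lib.Steinberg.Present Cfsg.Agent.Lib.Steinberg.Center Cfsg.Agent.Lib.Steinberg.CenterCert
open Cfsg.Agent.Lib.Twisted.Ortho
open Cfsg.Agent.Lib.Lie.Facts (IsData)
open Cfsg.Agent.Lib.Lie.AxOf (ax_of_mem)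

universe u

/-! ### Abstract consequences of the relations -/

section abs

variable {D : ChevalleyDatum} {F : Type*} [Field F] {Γ : Type*} [Group Γ] {y : ℕ → F → Γ}

lemma commY (hy : StRel D y) {r s : ℕ} (H : CommPair D r s) (t u : F) : y s u * y r t = y r t * y s u := by
  obtain ⟨hr, hs, h1, h3, h4⟩ := H
  have := hy.comm r s hr hs h1 h3 t u
  simp only [commWord, h4, List.map_nil, wY_nil, mul_one] at this
  exact this

lemma y_pow (hy : StRel D y) {r : ℕ} (hr : r < D.nroots) (t : F) (n : ℕ) : y r t ^ n = y r ((n : F) * t) := by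
  induction n with
  | zero => simp [hy.zero hr]
  | succ n ih =>
    rw [pow_succ, ih, hy.add r hr]
    congr 1
    push_cast
    ring

lemma nY_commY (hy : StRel D y) {a b : ℕ} (H1 : CommPair D a b) (H2 : CommPair D (D.neg a) b) (H3 : CommPair D a (D.neg b))
    (H4 : CommPair D (D.neg a) (D.neg b)) (x x' : F) : nY D y a x * nY D y b x' = nY D y b x' * nY D y a x := by
  have c1 : ∀ s t : F, y a s * y b t = y b t * y a s := fun s t => (commY hy H1 s t).symm
  have c2 : ∀ s t : F, y (D.neg a) s * y b t = y b t * y (D.neg a) s := fun s t => (commY hy H2 s t).symm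
  have c3 : ∀ s t : F, y a s * y (D.neg b) t = y (D.neg b) t * y a s := fun s t => (commY hy H3 s t).symm
  have c4 : ∀ s t : F, y (D.neg a) s * y (D.neg b) t = y (D.neg b) t * y (D.neg a) s :=
    fun s t => (commY hy H4 s t).symm
  have n1 : ∀ t : F, nY D y a x * y b t = y b t * nY D y a x := by
    intro t
    simp only [nY]
    calc y a x * y (D.neg a) (-x⁻¹) * y a x * y b t
        = y a x * y (D.neg a) (-x⁻¹) * (y a x * y b t) := by group
      _ = y a x * (y (D.neg a) (-x⁻¹) * y b t) * y a x := by rw [c1]; group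
      _ = (y a x * y b t) * y (D.neg a) (-x⁻¹) * y a x := by rw [c2]; group
      _ = _ := by rw [c1]; group
  have n2 : ∀ t : F, nY D y a x * y (D.neg b) t = y (D.neg b) t * nY D y a x := by
    intro t
    simp only [nY]
    calc y a x * y (D.neg a) (-x⁻¹) * y a x * y (D.neg b) t
        = y a x * y (D.neg a) (-x⁻¹) * (y a x * y (D.neg b) t) := by group
      _ = y a x * (y (D.neg a) (-x⁻¹) * y (D.neg b) t) * y a x := by rw [c3]; group
      _ = (y a x * y (D.neg b) t) * y (D.neg a) (-x⁻¹) * y a x := by rw [c4]; group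
      _ = _ := by rw [c3]; group
  conv_lhs => rw [nY.eq_def D y b]
  conv_rhs => rw [nY.eq_def D y b]
  calc nY D y a x * (y b x' * y (D.neg b) (-x'⁻¹) * y b x')
      = (nY D y a x * y b x') * y (D.neg b) (-x'⁻¹) * y b x' := by group
    _ = y b x' * (nY D y a x * y (D.neg b) (-x'⁻¹)) * y b x' := by rw [n1]; group
    _ = y b x' * y (D.neg b) (-x'⁻¹) * (nY D y a x * y b x') := by rw [n2]; group
    _ = _ := by rw [n1]; group

lemma hY_pair (hy : StRel D y) {a b : ℕ} (H1 : CommPair D a b) (H2 : CommPair D (D.neg a) b) (H3 : CommPair D a (D.neg b))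
    (H4 : CommPair D (D.neg a) (D.neg b)) (x x' : F) :
    hY D y a x * hY D y b x' = (nY D y a x * nY D y b x') * (nY D y a (-1) * nY D y b (-1)) := by
  simp only [hY]
  have := nY_commY hy H1 H2 H3 H4 (-1) x'
  calc nY D y a x * nY D y a (-1) * (nY D y b x' * nY D y b (-1))
      = nY D y a x * (nY D y a (-1) * nY D y b x') * nY D y b (-1) := by group
    _ = _ := by rw [this]; group

/-- `n_a(x) n_b(x')` as a product of pairs. -/
lemma nY_pair (hy : StRel D y) {a b : ℕ} (H1 : CommPair D a b) (H2 : CommPair D (D.neg a) b) (H3 : CommPair D a (D.neg b))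
    (x x' : F) :
    nY D y a x * nY D y b x' = (y a x * y b x') * (y (D.neg a) (-x⁻¹) * y (D.neg b) (-x'⁻¹)) * (y a x * y b x') := by
  simp only [nY]
  refine three_mul (commY hy H2 _ _) (commY hy H1 _ _) (commY hy H3 _ _)

end abs

/-- A surjection onto a perfect group with central kernel of exponent `d`, whose source is generated by elements of order
prime to `d`, has perfect source. -/
theorem perfect_of_gens {Γ G : Type*} [Group Γ] [Group G] (σ : Γ →* G) (hs : Function.Surjective σ)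
    (hG : commutator G = ⊤) (hc : σ.ker ≤ Subgroup.center Γ) {d : ℕ} (hz : ∀ z ∈ σ.ker, z ^ d = 1) {x : Γ} {p : ℕ}
    (hcop : Nat.Coprime d p) (hx : x ^ p = 1) : x ∈ commutator Γ := by
  have h1 : ∀ g : Γ, g ^ d ∈ commutator Γ := by
    intro g
    have hm : (commutator Γ).map σ = ⊤ := by
      rw [commutator_def, Subgroup.map_commutator, Subgroup.map_top_of_surjective _ hs, ← commutator_def, hG]
    have hg : σ g ∈ (commutator Γ).map σ := by rw [hm]; exact Subgroup.mem_top _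
    obtain ⟨c, hcm, hcg⟩ := hg
    have hk : c⁻¹ * g ∈ σ.ker := by
      rw [MonoidHom.mem_ker, map_mul, map_inv, hcg, inv_mul_cancel]
    have hcen : Commute c (c⁻¹ * g) := Subgroup.mem_center_iff.mp (hc hk) c
    have e : g = c * (c⁻¹ * g) := by group
    rw [e, hcen.mul_pow, hz _ hk, mul_one]
    exact Subgroup.pow_mem _ hcm _
  have h2 := Nat.gcd_eq_gcd_ab d p
  rw [hcop] at h2
  have e : x = (x ^ d) ^ (Nat.gcdA d p) * (x ^ p) ^ (Nat.gcdB d p) := by
    rw [← zpow_natCast, ← zpow_natCast, ← zpow_mul, ← zpow_mul, ← zpow_add, ← h2]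
    simp
  rw [e, hx, one_zpow, mul_one]
  exact Subgroup.zpow_mem _ (h1 x) _

/-! ### The group -/

theorem hD : IsData chevE6 := by simp [IsData]

variable {K : Type u} [Field K] {q : ℕ}

/-- The preimage of `²E₆(q)`, up to the centre. -/
def HH (K : Type u) [Field K] (q : ℕ) : Subgroup (chevE6.SteinbergGroup K) :=
  Subgroup.closure {g | ∃ w ∈ e6Words K q, g = wY (ySt chevE6 K) w}

lemma single_mem {r : ℕ} (hr : r ∈ [e6p2, e6m2, e6p4, e6m4]) {t : K} (ht : t ^ q = t) : ySt chevE6 K r t ∈ HH K q :=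
  Subgroup.subset_closure ⟨[(r, t)], Or.inl ⟨t, ht, r, hr, rfl⟩, by simp [wY]⟩

lemma pair_mem {rs : ℕ × ℕ} (hrs : rs ∈ [(e6p1, e6p6), (e6m1, e6m6), (e6p3, e6p5), (e6m3, e6m5)]) (t : K) :
    ySt chevE6 K rs.1 t * ySt chevE6 K rs.2 (t ^ q) ∈ HH K q :=
  Subgroup.subset_closure ⟨[(rs.1, t), (rs.2, t ^ q)], Or.inr ⟨t, rs, hrs, rfl⟩, by simp [wY]⟩

lemma th_word (ax : Ax chevE6 K) (w : List (ℕ × K)) : thetaSt ax hD (wY (ySt chevE6 K) w) = wordG ax w := by
  rw [← map_stWord (PresentedGroup.mk _) w, thetaSt_mk, lift_stWord]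

lemma map_HH (ax : Ax chevE6 K) : (HH K q).map (thetaSt ax hD) = twistedE6 K q := by
  rw [HH, MonoidHom.map_closure]
  show _ = Subgroup.closure {g : GL chevE6.Idx K | ∃ w ∈ e6Words K q, (g : Matrix chevE6.Idx chevE6.Idx K) = chevE6.wordMat K w}
  congr 1
  ext g
  constructor
  · rintro ⟨_, ⟨w, hw, rfl⟩, rfl⟩
    exact ⟨w, hw, by rw [th_word, wordG_val]⟩
  · rintro ⟨w, hw, hg⟩
    exact ⟨_, ⟨w, hw, rfl⟩, Units.ext (by rw [th_word, wordG_val, hg])⟩

/-- The map onto `²E₆(q)`. -/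
noncomputable def sg (K : Type u) [Field K] (q : ℕ) : ↥(HH K q) →* ↥(twistedE6 K q) :=
  ((thetaSt (ax_of_mem hD) hD).comp (HH K q).subtype).codRestrict (twistedE6 K q) (fun x => by
    rw [← map_HH (ax_of_mem hD)]
    exact ⟨x, x.2, rfl⟩)

lemma sg_surj : Function.Surjective (sg K q) := by
  rintro ⟨g, hg⟩
  rw [← map_HH (ax_of_mem hD)] at hg
  obtain ⟨x, hx, rfl⟩ := hg
  exact ⟨⟨x, hx⟩, rfl⟩

lemma sg_ker {x : ↥(HH K q)} : x ∈ (sg K q).ker ↔ (x : chevE6.SteinbergGroup K) ∈ Subgroup.center (chevE6.SteinbergGroup K) := by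
  rw [← ker_thSt_eq hD, MonoidHom.mem_ker, MonoidHom.mem_ker]
  constructor <;> intro h
  · have e : thetaSt (ax_of_mem hD) hD (x : chevE6.SteinbergGroup K) = 1 := congrArg Subtype.val h
    exact Subtype.ext e
  · have e : thetaSt (ax_of_mem hD) hD (x : chevE6.SteinbergGroup K) = 1 := congrArg Subtype.val h
    exact Subtype.ext e

lemma sg_ker_central : (sg K q).ker ≤ Subgroup.center ↥(HH K q) := by
  intro x hx
  rw [Subgroup.mem_center_iff]
  intro g
  apply Subtype.ext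
  exact Subgroup.mem_center_iff.mp (sg_ker.mp hx) (g : chevE6.SteinbergGroup K)

/-! ### The centre lies in the group -/

lemma hR3' {i : ℕ} (hi : i < chevE6.rank) (a b : K) (ha : a ≠ 0) (hb : b ≠ 0) :
    hY chevE6 (ySt chevE6 K) (chevE6.simple i) a * hY chevE6 (ySt chevE6 K) (chevE6.simple i) b =
      hY chevE6 (ySt chevE6 K) (chevE6.simple i) (a * b) :=
  hR3_St ((tab_of_mem hD).simple_lt i hi) ha hb

lemma hth (r : ℕ) (t : K) (hr : r < chevE6.nroots) :
    thetaSt (ax_of_mem hD) hD (ySt chevE6 K r t) = xG (ax_of_mem hD) r t := thetaSt_gen _ hD r t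

lemma hY_comm' {j i : ℕ} (hj : j < chevE6.rank) (hi : i < chevE6.rank) {t d : K} (ht : t ≠ 0) (hd : d ≠ 0) :
    hY chevE6 (ySt chevE6 K) (chevE6.simple j) t * hY chevE6 (ySt chevE6 K) (chevE6.simple i) d =
      hY chevE6 (ySt chevE6 K) (chevE6.simple i) d * hY chevE6 (ySt chevE6 K) (chevE6.simple j) t :=
  hY_comm hD stRel_St (ax_of_mem hD) (thetaSt (ax_of_mem hD) hD) hth
    (fun i hi a b ha hb => hR3' hi a b ha hb) hj hi ht hd

lemma hY_one' {i : ℕ} (hi : i < chevE6.rank) : hY chevE6 (ySt chevE6 K) (chevE6.simple i) (1 : K) = 1 :=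
  hY_one (fun i hi a b ha hb => hR3' hi a b ha hb) hi

/-- The torus elements of the group. -/
lemma hh_mem (hφ : (-1 : K) ^ q = -1) {a b : ℕ} (hm : (a, b) ∈ [(e6p1, e6p6), (e6m1, e6m6), (e6p3, e6p5), (e6m3, e6m5)])
    (hm' : (chevE6.neg a, chevE6.neg b) ∈ [(e6p1, e6p6), (e6m1, e6m6), (e6p3, e6p5), (e6m3, e6m5)])
    (H1 : CommPair chevE6 a b) (H2 : CommPair chevE6 (chevE6.neg a) b) (H3 : CommPair chevE6 a (chevE6.neg b))
    (H4 : CommPair chevE6 (chevE6.neg a) (chevE6.neg b)) (c : K) :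
    hY chevE6 (ySt chevE6 K) a c * hY chevE6 (ySt chevE6 K) b (c ^ q) ∈ HH K q := by
  have hn : ∀ x : K, nY chevE6 (ySt chevE6 K) a x * nY chevE6 (ySt chevE6 K) b (x ^ q) ∈ HH K q := by
    intro x
    rw [nY_pair stRel_St H1 H2 H3]
    have h1 := pair_mem (q := q) hm x
    have h2 := pair_mem (q := q) hm' (-x⁻¹)
    simp only at h1 h2
    have e : (-x⁻¹) ^ q = -(x ^ q)⁻¹ := by
      have e1 : -x⁻¹ = (-1) * x⁻¹ := by ring
      have e2 : -(x ^ q)⁻¹ = (-1) * (x ^ q)⁻¹ := by ring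
      rw [e1, e2, mul_pow, hφ, inv_pow]
    rw [e] at h2
    exact Subgroup.mul_mem _ (Subgroup.mul_mem _ h1 h2) h1
  rw [hY_pair stRel_St H1 H2 H3 H4]
  refine Subgroup.mul_mem _ (hn c) ?_
  have := hn (-1)
  rwa [hφ] at this

/-- The values of the fundamental roots. -/
theorem s_val : chevE6.simple 0 = 56 ∧ chevE6.simple 1 = 46 ∧ chevE6.simple 2 = 42 ∧ chevE6.simple 3 = 39 ∧ chevE6.simple 4 = 37 ∧
    chevE6.simple 5 = 36 := by decide +kernel

lemma rank_E6 : chevE6.rank = 6 := rfl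

lemma tProd_E6 (t : ℕ → Kˣ) : tProd chevE6 (ySt chevE6 K) t chevE6.rank =
    hY chevE6 (ySt chevE6 K) 56 (t 0) * hY chevE6 (ySt chevE6 K) 46 (t 1) * hY chevE6 (ySt chevE6 K) 42 (t 2) *
      hY chevE6 (ySt chevE6 K) 39 (t 3) * hY chevE6 (ySt chevE6 K) 37 (t 4) * hY chevE6 (ySt chevE6 K) 36 (t 5) := by
  obtain ⟨s0, s1, s2, s3, s4, s5⟩ := s_val
  rw [rank_E6]
  simp only [tProd, one_mul, s0, s1, s2, s3, s4, s5]

/-- The centre of the universal group lies in the group `HH`. -/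
theorem center_le (h3 : 3 ∣ q + 1) (hφ : (-1 : K) ^ q = -1) {z : chevE6.SteinbergGroup K}
    (hz : z ∈ Subgroup.center (chevE6.SteinbergGroup K)) : z ∈ HH K q := by
  obtain ⟨ζ, hζ, rfl⟩ := central_form hD cert_E6 hz
  obtain ⟨s0, s1, s2, s3, s4, s5⟩ := s_val
  set a : K := (ζ : K) with ha
  have ha0 : a ≠ 0 := ζ.ne_zero
  have ha3 : a ^ 3 = 1 := by
    have := congrArg (Units.val) hζ
    simpa using this
  have hq1 : a ^ q * a = 1 := by
    obtain ⟨m, hm⟩ := h3
    rw [← pow_succ, hm, pow_mul, ha3, one_pow]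
  have hq2 : a ^ q = a ^ 2 := by
    calc a ^ q = a ^ q * a ^ 3 := by rw [ha3, mul_one]
      _ = (a ^ q * a) * a ^ 2 := by ring
      _ = a ^ 2 := by rw [hq1, one_mul]
  have hq3 : (a ^ 2) ^ q = a := by
    rw [← pow_mul, mul_comm, pow_mul, hq2]
    calc (a ^ 2) ^ 2 = a ^ 3 * a := by ring
      _ = a := by rw [ha3, one_mul]
  rw [tProd_E6]
  have e0 : ((ζ ^ lz [1, 0, 2, 0, 1, 2] 0 : Kˣ) : K) = a := by simp [lz, ha]
  have e1 : ((ζ ^ lz [1, 0, 2, 0, 1, 2] 1 : Kˣ) : K) = 1 := by simp [lz]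
  have e2 : ((ζ ^ lz [1, 0, 2, 0, 1, 2] 2 : Kˣ) : K) = a ^ 2 := by simp [lz, ha]
  have e3 : ((ζ ^ lz [1, 0, 2, 0, 1, 2] 3 : Kˣ) : K) = 1 := by simp [lz]
  have e4 : ((ζ ^ lz [1, 0, 2, 0, 1, 2] 4 : Kˣ) : K) = a := by simp [lz, ha]
  have e5 : ((ζ ^ lz [1, 0, 2, 0, 1, 2] 5 : Kˣ) : K) = a ^ 2 := by simp [lz, ha]
  simp only [e0, e1, e2, e3, e4, e5]
  have o1 : hY chevE6 (ySt chevE6 K) 46 (1 : K) = 1 := by
    have := hY_one' (K := K) (i := 1) (by rw [rank_E6]; norm_num)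
    rwa [s1] at this
  have o3 : hY chevE6 (ySt chevE6 K) 39 (1 : K) = 1 := by
    have := hY_one' (K := K) (i := 3) (by rw [rank_E6]; norm_num)
    rwa [s3] at this
  have ha2 : a ^ 2 ≠ 0 := pow_ne_zero _ ha0
  have c1 : hY chevE6 (ySt chevE6 K) 37 a * hY chevE6 (ySt chevE6 K) 36 (a ^ 2) =
      hY chevE6 (ySt chevE6 K) 36 (a ^ 2) * hY chevE6 (ySt chevE6 K) 37 a := by
    have := hY_comm' (K := K) (j := 4) (i := 5) (by rw [rank_E6]; norm_num) (by rw [rank_E6]; norm_num) ha0 ha2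
    rwa [s4, s5] at this
  have c2 : hY chevE6 (ySt chevE6 K) 42 (a ^ 2) * hY chevE6 (ySt chevE6 K) 36 (a ^ 2) =
      hY chevE6 (ySt chevE6 K) 36 (a ^ 2) * hY chevE6 (ySt chevE6 K) 42 (a ^ 2) := by
    have := hY_comm' (K := K) (j := 2) (i := 5) (by rw [rank_E6]; norm_num) (by rw [rank_E6]; norm_num) ha2 ha2
    rwa [s2, s5] at this
  rw [o1, o3, mul_one, mul_one]
  have e : hY chevE6 (ySt chevE6 K) 56 a * hY chevE6 (ySt chevE6 K) 42 (a ^ 2) * hY chevE6 (ySt chevE6 K) 37 a *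
      hY chevE6 (ySt chevE6 K) 36 (a ^ 2) =
      (hY chevE6 (ySt chevE6 K) 56 a * hY chevE6 (ySt chevE6 K) 36 (a ^ q)) *
        (hY chevE6 (ySt chevE6 K) 42 (a ^ 2) * hY chevE6 (ySt chevE6 K) 37 ((a ^ 2) ^ q)) := by
    rw [hq2, hq3]
    calc _ = hY chevE6 (ySt chevE6 K) 56 a * hY chevE6 (ySt chevE6 K) 42 (a ^ 2) *
          (hY chevE6 (ySt chevE6 K) 37 a * hY chevE6 (ySt chevE6 K) 36 (a ^ 2)) := by group
      _ = hY chevE6 (ySt chevE6 K) 56 a * (hY chevE6 (ySt chevE6 K) 42 (a ^ 2) * hY chevE6 (ySt chevE6 K) 36 (a ^ 2)) *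
          hY chevE6 (ySt chevE6 K) 37 a := by rw [c1]; group
      _ = _ := by rw [c2]; group
  rw [e]
  refine Subgroup.mul_mem _ (hh_mem hφ (a := 56) (b := 36) (by decide +kernel) (by decide +kernel) (by decide +kernel)
    (by decide +kernel) (by decide +kernel) (by decide +kernel) a)
    (hh_mem hφ (a := 42) (b := 37) (by decide +kernel) (by decide +kernel) (by decide +kernel)
    (by decide +kernel) (by decide +kernel) (by decide +kernel) (a ^ 2))

/-! ### Orders of the generators -/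

lemma gen_pow {p : ℕ} [CharP K p] {w : List (ℕ × K)} (hw : w ∈ e6Words K q) : wY (ySt chevE6 K) w ^ p = 1 := by
  have hz : (p : K) = 0 := CharP.cast_eq_zero K p
  have hy := stRel_St (D := chevE6) (F := K)
  rcases hw with ⟨t, ht, r, hr, rfl⟩ | ⟨t, rs, hrs, rfl⟩
  · have hr' : r < chevE6.nroots := by
      have : ∀ r ∈ [e6p2, e6m2, e6p4, e6m4], r < chevE6.nroots := by decide +kernel
      exact this r hr
    simp only [wY, List.map_cons, List.map_nil, List.prod_cons, List.prod_nil, mul_one]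
    rw [y_pow hy hr', hz, zero_mul, hy.zero hr']
  · have hc : ∀ rs ∈ [(e6p1, e6p6), (e6m1, e6m6), (e6p3, e6p5), (e6m3, e6m5)], CommPair chevE6 rs.1 rs.2 := by decide +kernel
    have H := hc rs hrs
    have hcm : Commute (ySt chevE6 K rs.1 t) (ySt chevE6 K rs.2 (t ^ q)) := (commY hy H t (t ^ q)).symm
    simp only [wY, List.map_cons, List.map_nil, List.prod_cons, List.prod_nil, mul_one]
    rw [hcm.mul_pow, y_pow hy H.1, y_pow hy H.2.1, hz, zero_mul, zero_mul, hy.zero H.1, hy.zero H.2.1, mul_one]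

/-! ### The stem extension -/

section main

variable [Fintype K]

lemma card_center {n : ℕ} (hK : Fintype.card K = n) (h : 3 ∣ n - 1) : Nat.card (Subgroup.center (chevE6.SteinbergGroup K)) = 3 := by
  rw [card_center_E6, Cfsg.Agent.Lib.Steinberg.Schur.gcd_card 3 hK]
  exact Nat.gcd_eq_left h

lemma three_dvd (hq : 3 ∣ q + 1) : 3 ∣ q ^ 2 - 1 := by
  have e : q ^ 2 - 1 = (q + 1) * (q - 1) := by
    have := Nat.sq_sub_sq q 1
    simpa using this
  rw [e]
  exact Dvd.dvd.mul_right hq _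

lemma pow_three_of_center (hK : Fintype.card K = q ^ 2) (h3 : 3 ∣ q + 1) {z : chevE6.SteinbergGroup K}
    (hz : z ∈ Subgroup.center (chevE6.SteinbergGroup K)) : z ^ 3 = 1 := by
  have h := pow_card_eq_one' (x := (⟨z, hz⟩ : Subgroup.center (chevE6.SteinbergGroup K)))
  rw [card_center hK (three_dvd h3)] at h
  exact congrArg Subtype.val h

theorem perfect_HH (hq : IsPrimePow q) (hK : Fintype.card K = q ^ 2) (h3 : 3 ∣ q + 1) : commutator ↥(HH K q) = ⊤ := by
  obtain ⟨p, hp⟩ := CharP.exists K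
  have hpp : p.Prime := CharP.char_is_prime K p
  have hcop : Nat.Coprime 3 p := by
    rw [Nat.coprime_primes Nat.prime_three hpp]
    rintro rfl
    obtain ⟨n, -, hn⟩ := FiniteField.card K 3
    have h1 : 3 ∣ q ^ 2 := by
      rw [← hK, hn]
      exact dvd_pow_self _ n.ne_zero
    have h2 : 3 ∣ q := Nat.prime_three.dvd_of_dvd_pow h1
    have h4 : 3 ∣ 1 := (Nat.dvd_add_right h2).mp h3
    omega
  have hG : commutator ↥(twistedE6 K q) = ⊤ := Cfsg.Agent.Lib.Twisted.E6.perfect_main hq hK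
  have hz : ∀ z ∈ (sg K q).ker, z ^ 3 = 1 := by
    intro z hz
    exact Subtype.ext (pow_three_of_center hK h3 (sg_ker.mp hz))
  apply Cfsg.Agent.Lib.Twisted.Perf.top_of_le
  show HH K q ≤ _
  conv_lhs => rw [HH]
  rw [Subgroup.closure_le]
  rintro g ⟨w, hw, rfl⟩
  have hm : wY (ySt chevE6 K) w ∈ HH K q := Subgroup.subset_closure ⟨w, hw, rfl⟩
  refine ⟨⟨_, hm⟩, ?_, rfl⟩
  refine perfect_of_gens (sg K q) sg_surj hG sg_ker_central hz hcop (p := p) ?_
  exact Subtype.ext (gen_pow hw)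

theorem lower (hq : IsPrimePow q) (hK : Fintype.card K = q ^ 2) (h3 : 3 ∣ q + 1) :
    Finite ↥(HH K q) ∧ IsStemExtension (sg K q) ∧ Nat.card (sg K q).ker = 3 := by
  have hcard := card_center hK (three_dvd h3)
  have hφ : (-1 : K) ^ q = -1 := by
    obtain ⟨φ, hφ, hφ2⟩ := Cfsg.Agent.Lib.Twisted.E6.exists_φ hq hK
    rw [← hφ, map_neg, map_one]
  refine ⟨?_, ⟨sg_surj, sg_ker_central, ?_⟩, ?_⟩
  · have h0 : Finite (Subgroup.center (chevE6.SteinbergGroup K)) := Nat.finite_of_card_ne_zero (by rw [hcard]; norm_num)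
    have h1 : Finite ↥(chevE6.group K) := inferInstance
    have h2 : Finite (thSt hD K).ker := by rw [ker_thSt_eq hD]; infer_instance
    have h3' : Finite (chevE6.SteinbergGroup K ⧸ (thSt hD K).ker) :=
      Finite.of_equiv _ (QuotientGroup.quotientKerEquivOfSurjective _ (thSt_surj hD)).symm.toEquiv
    have h4 : Finite (chevE6.SteinbergGroup K) :=
      Finite.of_equiv _ (Subgroup.groupEquivQuotientProdSubgroup (s := (thSt hD K).ker)).symm
    infer_instance
  · rw [perfect_HH hq hK h3]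
    exact le_top
  · rw [← hcard]
    refine Nat.card_congr (Equiv.ofBijective (fun x => ⟨(x.1 : chevE6.SteinbergGroup K), sg_ker.mp x.2⟩) ⟨?_, ?_⟩)
    · rintro ⟨⟨x, hx⟩, _⟩ ⟨⟨x', hx'⟩, _⟩ e
      have : x = x' := congrArg Subtype.val e
      subst this
      rfl
    · rintro ⟨z, hz⟩
      have hm := center_le h3 hφ hz
      exact ⟨⟨⟨z, hm⟩, sg_ker.mpr hz⟩, rfl⟩

end main

end Cfsg.Agent.Lib.SchE6.Lo
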