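import Cfsg.Agent.Lib.SchE6.Brh

/-!
The monomial part in a central extension: the kernel lies in the torus part.
-/

set_option autoImplicit false
set_option linter.unusedSectionVars false
set_option linter.unusedVariables false

namespace Cfsg.Agent.Lib.SchE6.Zc

open Cfsg.Agent.Lib.SchE6.Can

universe u v

variable {E : Type u} [Group E] {G : Type v} [Group G] {ι : Type} (W : ι → Set E) (n : ι → E)

/-- The subgroup generated by the Weyl type elements. -/
def N₀ : Subgroup E := Subgroup.closure {g | ∃ i, g ∈ W i}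

/-- The torus part. -/
def A₀ : Subgroup E := Subgroup.closure {g | ∃ i, ∃ w ∈ W i, g = w * (n i)⁻¹}

variable {W n}

lemma ratio_mem {i : ι} {w w' : E} (hw : w ∈ W i) (hw' : w' ∈ W i) : w * w'⁻¹ ∈ A₀ W n := by
  have e : w * w'⁻¹ = (w * (n i)⁻¹) * (w' * (n i)⁻¹)⁻¹ := by group
  rw [e]
  exact Subgroup.mul_mem _ (Subgroup.subset_closure ⟨i, w, hw, rfl⟩)
    (Subgroup.inv_mem _ (Subgroup.subset_closure ⟨i, w', hw', rfl⟩))

lemma A_le_N (hn : ∀ i, n i ∈ W i) : A₀ W n ≤ N₀ W := by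
  rw [A₀, Subgroup.closure_le]
  rintro _ ⟨i, w, hw, rfl⟩
  exact Subgroup.mul_mem _ (Subgroup.subset_closure ⟨i, hw⟩) (Subgroup.inv_mem _ (Subgroup.subset_closure ⟨i, hn i⟩))

/-- `A₀` consists of elements acting through the torus. -/
lemma A_induct {P : E → Prop} (h1 : P 1) (hm : ∀ a b, P a → P b → P (a * b)) (hi : ∀ a, P a → P a⁻¹)
    (hg : ∀ i, ∀ w ∈ W i, P (w * (n i)⁻¹)) {a : E} (ha : a ∈ A₀ W n) : P a := by
  induction ha using Subgroup.closure_induction with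
  | mem g hx =>
    obtain ⟨i, w, hw, rfl⟩ := hx
    exact hg i w hw
  | one => exact h1
  | mul x y _ _ hx hy => exact hm _ _ hx hy
  | inv x _ hx => exact hi _ hx

/-- Normality. -/
theorem conj_A {Tt : Set E} (hTA : ∀ a ∈ A₀ W n, a ∈ Tt) (hinv : ∀ i, ∀ w ∈ W i, w⁻¹ ∈ W i)
    (hconj : ∀ i, ∀ g ∈ Tt, ∀ w ∈ W i, g * w * g⁻¹ ∈ W i) {ν a : E} (hν : ν ∈ N₀ W) (ha : a ∈ A₀ W n) :
    ν * a * ν⁻¹ ∈ A₀ W n := by
  have hgen : ∀ i, ∀ w ∈ W i, ∀ a ∈ A₀ W n, w * a * w⁻¹ ∈ A₀ W n := by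
    intro i w hw a ha
    have h1 : a * w⁻¹ * a⁻¹ ∈ W i := hconj i a (hTA a ha) _ (hinv i w hw)
    have e : w * a * w⁻¹ = (w * (a * w⁻¹ * a⁻¹)⁻¹⁻¹) * a := by group
    rw [e]
    refine Subgroup.mul_mem _ ?_ ha
    rw [inv_inv]
    have h3 := ratio_mem (n := n) hw (hinv i _ h1)
    rwa [inv_inv] at h3
  induction hν using Subgroup.closure_induction_left generalizing a with
  | one => simpa using ha
  | mul_left g hg y _ ih =>
    obtain ⟨i, hw⟩ := hg
    have : g * y * a * (g * y)⁻¹ = g * (y * a * y⁻¹) * g⁻¹ := by group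
    rw [this]
    exact hgen i g hw _ (ih ha)
  | inv_mul_cancel g hg y _ ih =>
    obtain ⟨i, hw⟩ := hg
    have : g⁻¹ * y * a * (g⁻¹ * y)⁻¹ = g⁻¹ * (y * a * y⁻¹) * g⁻¹⁻¹ := by group
    rw [this]
    exact hgen i g⁻¹ (hinv i g hw) _ (ih ha)

/-! ### The quotient -/

section Quot

variable (hn : ∀ i, n i ∈ W i) {Tt : Set E} (hTA : ∀ a ∈ A₀ W n, a ∈ Tt) (hinv : ∀ i, ∀ w ∈ W i, w⁻¹ ∈ W i)
  (hconj : ∀ i, ∀ g ∈ Tt, ∀ w ∈ W i, g * w * g⁻¹ ∈ W i)

/-- The torus part inside the monomial part. -/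
abbrev Ab : Subgroup (N₀ W) := (A₀ W n).subgroupOf (N₀ W)

include hTA hinv hconj in
lemma Ab_normal : (Ab (W := W) (n := n)).Normal := by
  constructor
  rintro ⟨a, ha⟩ ha' ⟨ν, hν⟩
  rw [Subgroup.mem_subgroupOf] at ha' ⊢
  exact conj_A hTA hinv hconj hν ha'

include hn hTA hinv hconj in
/-- The kernel of a surjection onto a finite Coxeter group containing the torus part is the torus part, if the images of the
`n i` satisfy the Coxeter relations. -/
theorem mem_A_of_ker {M : CoxeterMatrix ι} [Finite M.Group] (hcox : ∀ i j, (n i * n j) ^ M i j ∈ A₀ W n)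
    (F : N₀ W →* M.Group) (hF : Function.Surjective F) (hFA : ∀ a (ha : a ∈ A₀ W n) (ha' : a ∈ N₀ W), F ⟨a, ha'⟩ = 1)
    {z : E} (hz : z ∈ N₀ W) (hFz : F ⟨z, hz⟩ = 1) : z ∈ A₀ W n := by
  classical
  have hN : (Ab (W := W) (n := n)).Normal := Ab_normal hTA hinv hconj
  let Q := N₀ W ⧸ (Ab (W := W) (n := n))
  let mk : N₀ W →* Q := QuotientGroup.mk' _
  have hnN : ∀ i, n i ∈ N₀ W := fun i => Subgroup.subset_closure ⟨i, hn i⟩
  let q : ι → Q := fun i => mk ⟨n i, hnN i⟩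
  have hlift : M.IsLiftable q := by
    intro i j
    show (q i * q j) ^ M i j = 1
    have : (q i * q j) ^ M i j = mk ((⟨n i, hnN i⟩ * ⟨n j, hnN j⟩) ^ M i j) := by
      rw [map_pow, map_mul]
    rw [this]
    show ((_ : N₀ W) : N₀ W ⧸ (Ab (W := W) (n := n))) = 1
    rw [QuotientGroup.eq_one_iff, Subgroup.mem_subgroupOf]
    simpa using hcox i j
  let cs := M.toCoxeterSystem
  let L : M.Group →* Q := cs.lift ⟨q, hlift⟩
  have hL : ∀ i, L (M.simple i) = q i := by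
    intro i
    have := cs.lift_apply_simple hlift i
    simpa [cs, L] using this
  -- the quotient map is onto
  have hLs : Function.Surjective L := by
    have key : ∀ ν : N₀ W, mk ν ∈ L.range := by
      rintro ⟨ν, hν⟩
      induction hν using Subgroup.closure_induction_left with
      | one => exact Subgroup.one_mem _
      | mul_left g hg y hy ih =>
        obtain ⟨i, hw⟩ := hg
        have hgN : g ∈ N₀ W := Subgroup.subset_closure ⟨i, hw⟩
        have e : (⟨g * y, Subgroup.mul_mem _ hgN hy⟩ : N₀ W) = ⟨g, hgN⟩ * ⟨y, hy⟩ := rfl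
        rw [e, map_mul]
        refine Subgroup.mul_mem _ ⟨M.simple i, ?_⟩ ih
        rw [hL]
        show mk _ = mk _
        apply (QuotientGroup.eq_iff_div_mem (N := (Ab (W := W) (n := n)))).mpr
        rw [Subgroup.mem_subgroupOf]
        have := ratio_mem (n := n) (hn i) hw
        simpa [div_eq_mul_inv] using this
      | inv_mul_cancel g hg y hy ih =>
        obtain ⟨i, hw⟩ := hg
        have hgN : g⁻¹ ∈ N₀ W := Subgroup.subset_closure ⟨i, hinv i g hw⟩
        have e : (⟨g⁻¹ * y, Subgroup.mul_mem _ hgN hy⟩ : N₀ W) = ⟨g⁻¹, hgN⟩ * ⟨y, hy⟩ := rfl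
        rw [e, map_mul]
        refine Subgroup.mul_mem _ ⟨M.simple i, ?_⟩ ih
        rw [hL]
        show mk _ = mk _
        apply (QuotientGroup.eq_iff_div_mem (N := (Ab (W := W) (n := n)))).mpr
        rw [Subgroup.mem_subgroupOf]
        have := ratio_mem (n := n) (hn i) (hinv i g hw)
        simpa [div_eq_mul_inv] using this
    intro x
    obtain ⟨ν, rfl⟩ := QuotientGroup.mk'_surjective _ x
    exact key ν
  -- the map from the quotient
  have hkerF : ∀ a ∈ (Ab (W := W) (n := n)), F a = 1 := by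
    rintro ⟨a, ha'⟩ ha
    rw [Subgroup.mem_subgroupOf] at ha
    exact hFA a ha ha'
  let Fb : Q →* M.Group := QuotientGroup.lift _ F hkerF
  have hFb : ∀ ν, Fb (mk ν) = F ν := fun ν => rfl
  have hFbs : Function.Surjective Fb := by
    intro v
    obtain ⟨ν, rfl⟩ := hF v
    exact ⟨mk ν, hFb ν⟩
  have hcomp : Function.Surjective (Fb.comp L) := hFbs.comp hLs
  have hinj : Function.Injective (Fb.comp L) := Finite.injective_iff_surjective.mpr hcomp
  have hFbinj : Function.Injective Fb := by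
    intro a b e
    obtain ⟨a', rfl⟩ := hLs a
    obtain ⟨b', rfl⟩ := hLs b
    rw [hinj (a₁ := a') (a₂ := b') e]
  have h1 : mk ⟨z, hz⟩ = 1 := by
    apply hFbinj
    rw [hFb, hFz, map_one]
  have h2 : ((⟨z, hz⟩ : N₀ W) : N₀ W ⧸ (Ab (W := W) (n := n))) = 1 := h1
  rw [QuotientGroup.eq_one_iff, Subgroup.mem_subgroupOf] at h2
  exact h2

end Quot

/-! ### Coxeter relations modulo the torus part -/

section Cox

lemma coxA2 {Q : Type*} [Group Q] {a b : Q} (ha : a * a = 1) (hb : b * b = 1) (h : a * b * a⁻¹ = b) : (a * b) ^ 2 = 1 := by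
  have e : a * b = b * a := by
    have := h
    rw [mul_inv_eq_iff_eq_mul] at this
    exact this
  rw [sq]
  calc a * b * (a * b) = a * b * (b * a) := by rw [e]
    _ = a * (b * b) * a := by group
    _ = 1 := by rw [hb, mul_one, ha]

lemma coxA3 {Q : Type*} [Group Q] {a b : Q} (ha : a * a = 1) (hb : b * b = 1) (h : (a * b) * a * (a * b)⁻¹ = b) : (a * b) ^ 3 = 1 := by
  have e : (a * b) * a = b * (a * b) := by
    rw [mul_inv_eq_iff_eq_mul] at h
    exact h
  have e2 : (a * b) ^ 3 = (a * b * a) * b * (a * b) := by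
    simp only [pow_succ, pow_zero, one_mul]
    group
  rw [e2, e]
  calc b * (a * b) * b * (a * b) = b * a * (b * b) * a * b := by group
    _ = b * (a * a) * b := by rw [hb]; group
    _ = 1 := by rw [ha, mul_one, hb]

lemma coxB2 {Q : Type*} [Group Q] {a b : Q} (ha : a * a = 1) (hb : b * b = 1) (h : (a * b * a) * b * (a * b * a)⁻¹ = b) : (a * b) ^ 4 = 1 := by
  have e : (a * b * a) * b = b * (a * b * a) := by
    rw [mul_inv_eq_iff_eq_mul] at h
    exact h
  have e2 : (a * b) ^ 4 = ((a * b * a) * b) * (a * b * a) * b := by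
    simp only [pow_succ, pow_zero, one_mul]
    group
  rw [e2, e]
  calc b * (a * b * a) * (a * b * a) * b = b * a * b * (a * a) * b * a * b := by group
    _ = b * a * (b * b) * a * b := by rw [ha]; group
    _ = b * (a * a) * b := by rw [hb]; group
    _ = 1 := by rw [ha, mul_one, hb]

variable (hn : ∀ i, n i ∈ W i) {Tt : Set E} (hTA : ∀ a ∈ A₀ W n, a ∈ Tt) (hinv : ∀ i, ∀ w ∈ W i, w⁻¹ ∈ W i)
  (hconj : ∀ i, ∀ g ∈ Tt, ∀ w ∈ W i, g * w * g⁻¹ ∈ W i)

include hn hTA hinv hconj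

/-- Transfer of a relation to the quotient. -/
lemma cox_of_quot {i j : ι} {m : ℕ} (hi : n i * n i ∈ A₀ W n) (hj : n j * n j ∈ A₀ W n)
    (H : ∀ {Q : Type u} [Group Q] (f : N₀ W →* Q) , (∀ a (ha : a ∈ N₀ W), a ∈ A₀ W n → f ⟨a, ha⟩ = 1) →
      (∀ l, ∀ (w : E) (hw : w ∈ N₀ W), w ∈ W l → f ⟨w, hw⟩ = f ⟨n l, Subgroup.subset_closure ⟨l, hn l⟩⟩) →
      ((f ⟨n i, Subgroup.subset_closure ⟨i, hn i⟩⟩ * f ⟨n j, Subgroup.subset_closure ⟨j, hn j⟩⟩) ^ m = 1)) :
    (n i * n j) ^ m ∈ A₀ W n := by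
  classical
  have hN : (Ab (W := W) (n := n)).Normal := Ab_normal hTA hinv hconj
  let Q := N₀ W ⧸ (Ab (W := W) (n := n))
  let mk : N₀ W →* Q := QuotientGroup.mk' _
  have hnN : ∀ i, n i ∈ N₀ W := fun i => Subgroup.subset_closure ⟨i, hn i⟩
  have h1 := H (Q := Q) mk (by
    intro a ha ha'
    show ((_ : N₀ W) : N₀ W ⧸ (Ab (W := W) (n := n))) = 1
    rw [QuotientGroup.eq_one_iff, Subgroup.mem_subgroupOf]
    exact ha') (by
    intro l w hw hwl
    show mk _ = mk _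
    apply (QuotientGroup.eq_iff_div_mem (N := (Ab (W := W) (n := n)))).mpr
    rw [Subgroup.mem_subgroupOf]
    have := ratio_mem (n := n) hwl (hn l)
    have e : (⟨w, hw⟩ : N₀ W) / ⟨n l, Subgroup.subset_closure ⟨l, hn l⟩⟩ = ⟨w * (n l)⁻¹, Subgroup.mul_mem _ hw (Subgroup.inv_mem _ (hnN l))⟩ := by
      apply Subtype.ext
      simp [div_eq_mul_inv]
    rw [e]
    exact this)
  have e : (mk ⟨n i, hnN i⟩ * mk ⟨n j, hnN j⟩) ^ m = mk ((⟨n i, hnN i⟩ * ⟨n j, hnN j⟩) ^ m) := by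
    rw [map_pow, map_mul]
  rw [e] at h1
  have h2 : (((⟨n i, hnN i⟩ * ⟨n j, hnN j⟩) ^ m : N₀ W) : N₀ W ⧸ (Ab (W := W) (n := n))) = 1 := h1
  rw [QuotientGroup.eq_one_iff, Subgroup.mem_subgroupOf] at h2
  simpa using h2

end Cox

end Cfsg.Agent.Lib.SchE6.Zc
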